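import Cfsg.Prelude.Def_KGroupFacts
import Mathlib.GroupTheory.Schreier
import Mathlib.GroupTheory.FreeAbelianGroup
import Mathlib.GroupTheory.FreeGroup.NielsenSchreier
import Mathlib.Algebra.FreeAbelianGroup.Finsupp
import Mathlib.LinearAlgebra.FreeModule.PID
import Mathlib.Algebra.Module.PID
import Mathlib.Tactic
set_option autoImplicit false

/-! Schur multipliers through the free presentation `F/[R,F]`. -/

namespace Cfsg.Agent.H9.SM
open Cfsg
open scoped commutatorElement
universe u v w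

/-- surjective with central kernel -/
def CExt {X Q : Type*} [Group X] [Group Q] (ξ : X →* Q) : Prop :=
  Function.Surjective ξ ∧ ξ.ker ≤ Subgroup.center X

theorem _root_.Cfsg.IsStemExtension.cext {Γ Q : Type*} [Group Γ] [Group Q] {σ : Γ →* Q} (h : IsStemExtension σ) : CExt σ := ⟨h.1, h.2.1⟩

/-- commutators only depend on the classes modulo the centre -/
theorem comm_eq_of_center {G : Type*} [Group G] {a b x y : G} (hx : x ∈ Subgroup.center G) (hy : y ∈ Subgroup.center G) :
    ⁅x * a, y * b⁆ = ⁅a, b⁆ := by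
  have h1 := Subgroup.mem_center_iff.1 hx
  have h2 := Subgroup.mem_center_iff.1 hy
  simp only [commutatorElement_def, mul_inv_rev]
  calc x * a * (y * b) * (a⁻¹ * x⁻¹) * (b⁻¹ * y⁻¹)
      = x * (a * y) * b * a⁻¹ * x⁻¹ * b⁻¹ * y⁻¹ := by group
    _ = x * (y * a) * b * a⁻¹ * x⁻¹ * b⁻¹ * y⁻¹ := by rw [h2 a]
    _ = (x * y) * (a * b * a⁻¹) * x⁻¹ * b⁻¹ * y⁻¹ := by group
    _ = (a * b * a⁻¹) * (x * y) * x⁻¹ * b⁻¹ * y⁻¹ := by
        rw [Subgroup.mem_center_iff.1 ((Subgroup.center G).mul_mem hx hy) (a * b * a⁻¹)]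
    _ = (a * b * a⁻¹) * (x * y * x⁻¹ * b⁻¹ * y⁻¹) := by group
    _ = (a * b * a⁻¹) * (y * b⁻¹ * y⁻¹) := by rw [← h1 y]; group
    _ = (a * b * a⁻¹) * (b⁻¹ * y * y⁻¹) := by rw [h2 b⁻¹]
    _ = a * b * a⁻¹ * b⁻¹ := by group

section lift
variable {E X Q : Type*} [Group E] [Group X] [Group Q] {ε : E →* Q} {ξ : X →* Q} {η : E →* X}

theorem factor_lift (hε : Function.Surjective ε) (hη : ξ.comp η = ε) (x : X) : ∃ k ∈ ξ.ker, ∃ e, x = k * η e := by
  obtain ⟨e, he⟩ := hε (ξ x)
  refine ⟨x * (η e)⁻¹, ?_, e, by group⟩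
  rw [MonoidHom.mem_ker, map_mul, map_inv]
  have : ξ (η e) = ε e := congrArg (fun f : E →* Q => f e) hη
  rw [this, he, mul_inv_cancel]

theorem commutator_lift (hξ : CExt ξ) (hε : Function.Surjective ε) (hη : ξ.comp η = ε) :
    commutator X = (commutator E).map η := by
  apply le_antisymm
  · rw [commutator_def, Subgroup.commutator_le]
    intro x _ y _
    obtain ⟨k, hk, e, rfl⟩ := factor_lift hε hη x
    obtain ⟨l, hl, f, rfl⟩ := factor_lift hε hη y
    rw [comm_eq_of_center (hξ.2 hk) (hξ.2 hl), ← map_commutatorElement]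
    exact ⟨_, Subgroup.commutator_mem_commutator (Subgroup.mem_top _) (Subgroup.mem_top _), rfl⟩
  · rw [commutator_def, Subgroup.map_commutator, commutator_def]
    exact Subgroup.commutator_mono le_top le_top

theorem ker_inf_lift (hξ : CExt ξ) (hε : Function.Surjective ε) (hη : ξ.comp η = ε) :
    ξ.ker ⊓ commutator X = (ε.ker ⊓ commutator E).map η := by
  rw [commutator_lift hξ hε hη]
  ext x
  constructor
  · rintro ⟨h1, e, he, rfl⟩
    refine ⟨e, ⟨?_, he⟩, rfl⟩
    have h2 : ξ (η e) = 1 := h1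
    have h3 : ε e = 1 := by rw [← hη]; exact h2
    exact h3
  · rintro ⟨e, ⟨h1, h2⟩, rfl⟩
    refine ⟨?_, e, h2, rfl⟩
    have h3 : ε e = 1 := h1
    rw [← hη] at h3; exact h3

theorem surj_of_stem (hξ : IsStemExtension ξ) (hε : Function.Surjective ε) (hη : ξ.comp η = ε) : Function.Surjective η := by
  intro x
  obtain ⟨k, hk, e, rfl⟩ := factor_lift hε hη x
  have h1 := hξ.2.2 hk
  rw [commutator_lift hξ.cext hε hη] at h1
  obtain ⟨f, _, hf⟩ := h1
  exact ⟨f * e, by rw [map_mul, hf]⟩

end lift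

/-! ### the group `F/[R,F]` -/

section FE
variable {α : Type u} {Q : Type v} [Group Q] (π : FreeGroup α →* Q)

/-- `F/[R,F]` -/
abbrev FE : Type u := FreeGroup α ⧸ ⁅π.ker, (⊤ : Subgroup (FreeGroup α))⁆

theorem comm_le_ker : ⁅π.ker, (⊤ : Subgroup (FreeGroup α))⁆ ≤ π.ker := Subgroup.commutator_le_left _ _

/-- the projection to the quotient group -/
def pr : FE π →* Q := QuotientGroup.lift _ π (fun _ hx => comm_le_ker π hx)

theorem pr_mk (x : FreeGroup α) : pr π (QuotientGroup.mk x) = π x := rfl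

theorem pr_surj (hπ : Function.Surjective π) : Function.Surjective (pr π) := by
  intro q
  obtain ⟨x, hx⟩ := hπ q
  exact ⟨QuotientGroup.mk x, hx⟩

theorem pr_central : (pr π).ker ≤ Subgroup.center (FE π) := by
  intro x hx
  obtain ⟨x, rfl⟩ := QuotientGroup.mk_surjective x
  rw [MonoidHom.mem_ker, pr_mk] at hx
  rw [Subgroup.mem_center_iff]
  intro y
  obtain ⟨y, rfl⟩ := QuotientGroup.mk_surjective y
  have h1 : ⁅x, y⁆ ∈ ⁅π.ker, (⊤ : Subgroup (FreeGroup α))⁆ := Subgroup.commutator_mem_commutator hx (Subgroup.mem_top _)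
  have h2 : (QuotientGroup.mk ⁅x, y⁆ : FE π) = 1 := (QuotientGroup.eq_one_iff _).2 h1
  have h3 : ⁅(QuotientGroup.mk x : FE π), (QuotientGroup.mk y : FE π)⁆ = 1 := h2
  rw [commutatorElement_eq_one_iff_mul_comm] at h3
  exact h3.symm

theorem pr_cext (hπ : Function.Surjective π) : CExt (pr π) := ⟨pr_surj π hπ, pr_central π⟩

/-- the lifting property -/
theorem exists_lift {X : Type w} [Group X] {ξ : X →* Q} (hξ : CExt ξ) : ∃ η : FE π →* X, ξ.comp η = pr π := by
  choose s hs using fun a : α => hξ.1 (π (FreeGroup.of a))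
  let η0 : FreeGroup α →* X := FreeGroup.lift s
  have h0 : ξ.comp η0 = π := by
    ext a
    simp [η0, hs]
  have h1 : ∀ x ∈ ⁅π.ker, (⊤ : Subgroup (FreeGroup α))⁆, η0 x = 1 := by
    intro x hx
    have : ⁅π.ker, (⊤ : Subgroup (FreeGroup α))⁆ ≤ η0.ker := by
      rw [Subgroup.commutator_le]
      intro a ha b _
      rw [MonoidHom.mem_ker, map_commutatorElement, commutatorElement_eq_one_iff_mul_comm]
      have h2 : η0 a ∈ ξ.ker := by
        rw [MonoidHom.mem_ker]
        have : ξ (η0 a) = π a := congrArg (fun f : FreeGroup α →* Q => f a) h0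
        rw [this]; exact ha
      exact (Subgroup.mem_center_iff.1 (hξ.2 h2) (η0 b)).symm
    exact this hx
  refine ⟨QuotientGroup.lift _ η0 h1, ?_⟩
  ext x
  have : ξ (η0 (FreeGroup.of x)) = π (FreeGroup.of x) := congrArg (fun f : FreeGroup α →* Q => f (FreeGroup.of x)) h0
  exact this

/-- the multiplier as a subgroup of `F/[R,F]` -/
def Mu : Subgroup (FE π) := (pr π).ker ⊓ commutator (FE π)

theorem Mu_le_center : Mu π ≤ Subgroup.center (FE π) := inf_le_left.trans (pr_central π)

/-- kernels meet the commutator subgroup in images of the multiplier -/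
theorem Mu_map {X : Type w} [Group X] {ξ : X →* Q} (hπ : Function.Surjective π) (hξ : CExt ξ) {η : FE π →* X} (hη : ξ.comp η = pr π) :
    ξ.ker ⊓ commutator X = (Mu π).map η := ker_inf_lift hξ (pr_surj π hπ) hη

theorem finite_commutator {G : Type*} [Group G] [Subgroup.FiniteIndex (Subgroup.center G)] : Finite (commutator G) := by
  have : Finite (commutatorSet G) := by
    let f : (G ⧸ Subgroup.center G) × (G ⧸ Subgroup.center G) → G := fun p => ⁅p.1.out, p.2.out⁆
    apply Set.Finite.subset (Set.finite_range f)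
    rintro _ ⟨a, b, rfl⟩
    refine ⟨(QuotientGroup.mk a, QuotientGroup.mk b), ?_⟩
    obtain ⟨z, hz⟩ := QuotientGroup.mk_out_eq_mul (Subgroup.center G) a
    obtain ⟨y, hy⟩ := QuotientGroup.mk_out_eq_mul (Subgroup.center G) b
    show ⁅(QuotientGroup.mk a : G ⧸ Subgroup.center G).out, (QuotientGroup.mk b : G ⧸ Subgroup.center G).out⁆ = ⁅a, b⁆
    rw [hz, hy]
    have e1 : a * (z : G) = z * a := (Subgroup.mem_center_iff.1 z.2 a)
    have e2 : b * (y : G) = y * b := (Subgroup.mem_center_iff.1 y.2 b)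
    rw [e1, e2, comm_eq_of_center z.2 y.2]
  infer_instance

theorem center_finiteIndex [Finite Q] : Subgroup.FiniteIndex (Subgroup.center (FE π)) := by
  have : Subgroup.FiniteIndex (pr π).ker := by
    have : Finite (FE π ⧸ (pr π).ker) := Finite.of_equiv _ (QuotientGroup.quotientKerEquivRange (pr π)).symm.toEquiv
    exact Subgroup.finiteIndex_of_finite_quotient
  exact Subgroup.finiteIndex_of_le (pr_central π)

instance Mu_finite [Finite Q] : Finite (Mu π) := by
  have := center_finiteIndex π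
  have : Finite (commutator (FE π)) := finite_commutator
  exact Finite.of_injective (Subgroup.inclusion (inf_le_right : Mu π ≤ commutator (FE π))) (Subgroup.inclusion_injective _)

/-- the abelianization of a free group is torsion-free -/
theorem free_ab_torsion {x : FreeGroup α} {k : ℕ} (hk : 0 < k) (h : x ^ k ∈ commutator (FreeGroup α)) : x ∈ commutator (FreeGroup α) := by
  have h1 : (Abelianization.of x) ^ k = 1 := by
    rw [← map_pow]
    exact (QuotientGroup.eq_one_iff _).2 h
  obtain ⟨y, hy⟩ : ∃ y : FreeAbelianGroup α, y = Additive.ofMul (Abelianization.of x) := ⟨_, rfl⟩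
  have h2 : k • y = 0 := by rw [hy]; exact h1
  have h3' : y = 0 := by
    have e := congrArg (FreeAbelianGroup.toFinsupp) h2
    rw [map_nsmul, map_zero] at e
    have e2 : FreeAbelianGroup.toFinsupp y = 0 := by
      rcases smul_eq_zero.1 e with h | h
      · omega
      · exact h
    apply (FreeAbelianGroup.equivFinsupp α).injective
    rw [map_zero]; exact e2
  have h3 : Additive.ofMul (Abelianization.of x) = 0 := hy.symm.trans h3'
  have h4 : Abelianization.of x = 1 := h3
  exact (QuotientGroup.eq_one_iff _).1 h4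

theorem mem_commutator_FE {x : FreeGroup α} : (QuotientGroup.mk x : FE π) ∈ commutator (FE π) ↔ x ∈ commutator (FreeGroup α) := by
  have h1 : commutator (FE π) = (commutator (FreeGroup α)).map (QuotientGroup.mk' _) := by
    rw [commutator_def, commutator_def, Subgroup.map_commutator]
    have : (⊤ : Subgroup (FreeGroup α)).map (QuotientGroup.mk' ⁅π.ker, (⊤ : Subgroup (FreeGroup α))⁆) = ⊤ :=
      Subgroup.map_top_of_surjective _ (QuotientGroup.mk'_surjective _)
    rw [this]
  rw [h1]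
  constructor
  · rintro ⟨y, hy, h2⟩
    have h3 : y⁻¹ * x ∈ ⁅π.ker, (⊤ : Subgroup (FreeGroup α))⁆ := QuotientGroup.eq.1 h2
    have h4 : y⁻¹ * x ∈ commutator (FreeGroup α) := (Subgroup.commutator_mono le_top le_rfl : _ ≤ commutator (FreeGroup α)) h3
    have := (commutator (FreeGroup α)).mul_mem hy h4
    rwa [mul_inv_cancel_left] at this
  · intro hx
    exact ⟨x, hx, rfl⟩

theorem Mu_torsion {x : FE π} (hx : x ∈ (pr π).ker) {k : ℕ} (hk : 0 < k) (h : x ^ k ∈ Mu π) : x ∈ Mu π := by
  obtain ⟨y, rfl⟩ := QuotientGroup.mk_surjective x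
  refine ⟨hx, ?_⟩
  have h1 : (QuotientGroup.mk (y ^ k) : FE π) ∈ commutator (FE π) := h.2
  rw [mem_commutator_FE] at h1
  exact (mem_commutator_FE π).2 (free_ab_torsion hk h1)

end FE

/-- complements of isolated subgroups in finitely generated abelian groups -/
theorem exists_compl {A : Type*} [CommGroup A] [Group.FG A] (M : Subgroup A) (h : ∀ a : A, ∀ k : ℕ, 0 < k → a ^ k ∈ M → a ∈ M) :
    ∃ C : Subgroup A, C ⊓ M = ⊥ ∧ C ⊔ M = ⊤ := by
  have hfg : Module.Finite ℤ (Additive (A ⧸ M)) := by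
    rw [Module.Finite.iff_addGroup_fg, ← GroupFG.iff_add_fg]
    infer_instance
  have htf : Module.IsTorsionFree ℤ (Additive (A ⧸ M)) := by
    have : IsAddTorsionFree (Additive (A ⧸ M)) := by
      refine ⟨fun n hn x y hxy => ?_⟩
      obtain ⟨a, ha⟩ := QuotientGroup.mk_surjective (Additive.toMul x)
      obtain ⟨b, hb⟩ := QuotientGroup.mk_surjective (Additive.toMul y)
      have h1 : (QuotientGroup.mk a : A ⧸ M) ^ n = (QuotientGroup.mk b : A ⧸ M) ^ n := by
        rw [ha, hb]; exact hxy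
      have h2 : (QuotientGroup.mk (a ^ n) : A ⧸ M) = QuotientGroup.mk (b ^ n) := h1
      rw [QuotientGroup.eq, ← inv_pow, ← mul_pow] at h2
      have h3 := h _ n (Nat.pos_of_ne_zero hn) h2
      have h4 : Additive.toMul x = Additive.toMul y := by rw [← ha, ← hb]; exact QuotientGroup.eq.2 h3
      exact h4
    infer_instance
  have hfree : Module.Free ℤ (Additive (A ⧸ M)) := inferInstance
  let f : Additive A →ₗ[ℤ] Additive (A ⧸ M) := (MonoidHom.toAdditive (QuotientGroup.mk' M)).toIntLinearMap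
  have hf : Function.Surjective f := QuotientGroup.mk'_surjective M
  obtain ⟨s, hs⟩ := f.exists_rightInverse_of_surjective (LinearMap.range_eq_top.2 hf)
  let t : (A ⧸ M) →* A := MonoidHom.toAdditive.symm s.toAddMonoidHom
  have ht : ∀ x : A ⧸ M, (QuotientGroup.mk (t x) : A ⧸ M) = x := fun x => congrArg (fun g : Additive (A ⧸ M) →ₗ[ℤ] Additive (A ⧸ M) => g (Additive.ofMul x)) hs
  refine ⟨t.range, ?_, ?_⟩
  · rw [eq_bot_iff]
    rintro _ ⟨⟨x, rfl⟩, hx⟩
    have h1 : (QuotientGroup.mk (t x) : A ⧸ M) = 1 := (QuotientGroup.eq_one_iff _).2 hx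
    rw [ht] at h1
    rw [h1, map_one]; exact Subgroup.one_mem _
  · rw [eq_top_iff]
    intro a _
    have h1 : (t (QuotientGroup.mk a))⁻¹ * a ∈ M := by
      rw [← QuotientGroup.eq, ht]
    have : a = t (QuotientGroup.mk a) * ((t (QuotientGroup.mk a))⁻¹ * a) := by group
    rw [this]
    exact Subgroup.mul_mem_sup ⟨_, rfl⟩ h1

end Cfsg.Agent.H9.SM
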