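import Cfsg.Agent.H9.SM.Basic
set_option autoImplicit false

/-! Covering groups and the identification of the multiplier. -/

namespace Cfsg.Agent.H9.SM
open Cfsg
open scoped commutatorElement
universe u v w

theorem iso_of_surj {A : Type u} {B : Type v} [Group A] [Group B] [Finite A] {f : A →* B} (hf : Function.Surjective f) {g : B →* A}
    (hg : Function.Surjective g) : Nonempty (A ≃* B) := by
  have hB : Finite B := Finite.of_surjective f hf
  have h1 := Nat.card_le_card_of_surjective f hf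
  have h2 := Nat.card_le_card_of_surjective g hg
  have h3 : Function.Injective f := by
    have : Function.Bijective f := (Nat.bijective_iff_surjective_and_card f).2 ⟨hf, le_antisymm h2 h1⟩
    exact this.1
  exact ⟨MulEquiv.ofBijective f ⟨h3, hf⟩⟩

theorem finite_of_ker {Γ : Type u} {Q : Type v} [Group Γ] [Group Q] [Finite Q] {σ : Γ →* Q} (hσ : Function.Surjective σ)
    (hk : Finite σ.ker) : Finite Γ := by
  choose s hs using hσ
  refine Finite.of_injective (fun x : Γ => ((⟨x * (s (σ x))⁻¹, by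
    rw [MonoidHom.mem_ker, map_mul, map_inv, hs, mul_inv_cancel]⟩ : σ.ker), σ x)) ?_
  intro x y hxy
  simp only [Prod.mk.injEq, Subtype.mk.injEq] at hxy
  rw [hxy.2] at hxy
  exact mul_right_cancel hxy.1

section
variable {α : Type u} {Q : Type v} [Group Q] (π : FreeGroup α →* Q)

theorem central_normal {G : Type*} [Group G] {C : Subgroup G} (h : C ≤ Subgroup.center G) : C.Normal := by
  refine ⟨fun c hc g => ?_⟩
  have : g * c * g⁻¹ = c := by rw [Subgroup.mem_center_iff.1 (h hc) g, mul_inv_cancel_right]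
  rw [this]; exact hc

/-- a subgroup of finite index in the central kernel splits off the multiplier -/
theorem exists_compl_in [Finite α] (D : Subgroup (FE π)) (hD : D ≤ (pr π).ker) (hfi : D.FiniteIndex) :
    ∃ C ≤ D, C ⊓ Mu π = ⊥ ∧ C ⊔ (Mu π ⊓ D) = D := by
  have hfg : Group.FG D := Subgroup.fg_of_index_ne_zero D
  let _ : CommGroup D := { (inferInstance : Group D) with
    mul_comm := fun a b => Subtype.ext ((Subgroup.mem_center_iff.1 (pr_central π (hD b.2)) a)) }
  obtain ⟨C, h1, h2⟩ := exists_compl ((Mu π).subgroupOf D) (by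
    intro a k hk h
    rw [Subgroup.mem_subgroupOf] at h ⊢
    exact Mu_torsion π (hD a.2) hk h)
  refine ⟨C.map D.subtype, ?_, ?_, ?_⟩
  · rintro _ ⟨x, _, rfl⟩; exact x.2
  · rw [eq_bot_iff]
    rintro _ ⟨⟨x, hx, rfl⟩, hx2⟩
    have : x ∈ C ⊓ (Mu π).subgroupOf D := ⟨hx, hx2⟩
    rw [h1, Subgroup.mem_bot] at this
    rw [this]; exact Subgroup.one_mem _
  · apply le_antisymm
    · refine sup_le ?_ inf_le_right
      rintro _ ⟨x, _, rfl⟩; exact x.2
    · intro x hx
      have h3 : (⟨x, hx⟩ : D) ∈ C ⊔ (Mu π).subgroupOf D := by rw [h2]; exact Subgroup.mem_top _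
      obtain ⟨c, hc, m, hm, h4⟩ := Subgroup.mem_sup.1 h3
      have h5 : x = (c : FE π) * m := (congrArg Subtype.val h4).symm
      rw [h5]
      exact Subgroup.mul_mem_sup ⟨c, hc, rfl⟩ ⟨hm, m.2⟩

/-- the extension attached to a central subgroup `C` -/
def cov (C : Subgroup (FE π)) [C.Normal] (hC : C ≤ (pr π).ker) : FE π ⧸ C →* Q := QuotientGroup.lift C (pr π) (fun _ hx => hC hx)

theorem cov_mk (C : Subgroup (FE π)) [C.Normal] (hC : C ≤ (pr π).ker) (x : FE π) : cov π C hC (QuotientGroup.mk x) = pr π x := rfl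

theorem cov_ker (C : Subgroup (FE π)) [C.Normal] (hC : C ≤ (pr π).ker) (h2 : C ⊔ Mu π = (pr π).ker) :
    (cov π C hC).ker = (Mu π).map (QuotientGroup.mk' C) := by
  ext x
  obtain ⟨x, rfl⟩ := QuotientGroup.mk_surjective x
  constructor
  · intro hx
    have h3 : x ∈ C ⊔ Mu π := by rw [h2]; exact hx
    obtain ⟨c, hc, m, hm, rfl⟩ := Subgroup.mem_sup_of_normal_left.1 h3
    refine ⟨m, hm, ?_⟩
    have h4 : (QuotientGroup.mk (c * m) : FE π ⧸ C) = QuotientGroup.mk m := by
      rw [eq_comm, QuotientGroup.eq]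
      have e : m⁻¹ * (c * m) = c := by
        rw [Subgroup.mem_center_iff.1 (Mu_le_center π hm) c, inv_mul_cancel_left]
      rw [e]; exact hc
    exact h4.symm
  · rintro ⟨m, hm, h3⟩
    have : (QuotientGroup.mk x : FE π ⧸ C) = QuotientGroup.mk m := h3.symm
    rw [this]
    exact hm.1

theorem cov_stem (hπ : Function.Surjective π) (C : Subgroup (FE π)) [C.Normal] (hC : C ≤ (pr π).ker) (h2 : C ⊔ Mu π = (pr π).ker) :
    IsStemExtension (cov π C hC) := by
  refine ⟨?_, ?_, ?_⟩
  · intro q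
    obtain ⟨x, hx⟩ := pr_surj π hπ q
    exact ⟨QuotientGroup.mk x, hx⟩
  · rw [cov_ker π C hC h2]
    rintro _ ⟨m, hm, rfl⟩
    rw [Subgroup.mem_center_iff]
    intro y
    obtain ⟨y, rfl⟩ := QuotientGroup.mk_surjective y
    exact congrArg (QuotientGroup.mk : FE π → FE π ⧸ C) (Subgroup.mem_center_iff.1 (Mu_le_center π hm) y)
  · rw [cov_ker π C hC h2]
    rintro _ ⟨m, hm, rfl⟩
    have h3 : (commutator (FE π)).map (QuotientGroup.mk' C) ≤ commutator (FE π ⧸ C) := by
      rw [commutator_def, Subgroup.map_commutator, commutator_def]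
      exact Subgroup.commutator_mono le_top le_top
    exact h3 ⟨m, hm.2, rfl⟩

theorem cov_iso (C : Subgroup (FE π)) [C.Normal] (hC : C ≤ (pr π).ker) (h1 : C ⊓ Mu π = ⊥) (h2 : C ⊔ Mu π = (pr π).ker) :
    Nonempty (Mu π ≃* (cov π C hC).ker) := by
  let f : Mu π →* (cov π C hC).ker := ((QuotientGroup.mk' C).comp (Mu π).subtype).codRestrict _ (fun x => by
    show cov π C hC (QuotientGroup.mk (x : FE π)) = 1
    exact x.2.1)
  refine ⟨MulEquiv.ofBijective f ⟨?_, ?_⟩⟩
  · rw [injective_iff_map_eq_one]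
    intro x hx
    have h3 : (QuotientGroup.mk (x : FE π) : FE π ⧸ C) = 1 := congrArg Subtype.val hx
    have h4 : (x : FE π) ∈ C ⊓ Mu π := ⟨(QuotientGroup.eq_one_iff _).1 h3, x.2⟩
    rw [h1, Subgroup.mem_bot] at h4
    exact Subtype.ext h4
  · rintro ⟨x, hx⟩
    rw [cov_ker π C hC h2] at hx
    obtain ⟨m, hm, rfl⟩ := hx
    exact ⟨⟨m, hm⟩, rfl⟩

theorem ker_finiteIndex [Finite Q] : (pr π).ker.FiniteIndex := by
  have : Finite (FE π ⧸ (pr π).ker) := Finite.of_equiv _ (QuotientGroup.quotientKerEquivRange (pr π)).symm.toEquiv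
  exact Subgroup.finiteIndex_of_finite_quotient

/-- existence of covering groups refining a given finite stem extension -/
theorem exists_cover_over [Finite α] [Finite Q] (hπ : Function.Surjective π) {Δ : Type w} [Group Δ] [Finite Δ] {τ : Δ →* Q}
    (hτ : IsStemExtension τ) {η : FE π →* Δ} (hη : τ.comp η = pr π) :
    ∃ (C : Subgroup (FE π)) (_ : C.Normal) (hC : C ≤ (pr π).ker), C ⊓ Mu π = ⊥ ∧ C ⊔ Mu π = (pr π).ker ∧ C ≤ η.ker := by
  have hD : η.ker ≤ (pr π).ker := by
    intro x hx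
    rw [MonoidHom.mem_ker] at hx ⊢
    rw [← hη]
    show τ (η x) = 1
    rw [hx, map_one]
  have hfi : η.ker.FiniteIndex := by
    have : Finite (FE π ⧸ η.ker) := Finite.of_equiv _ (QuotientGroup.quotientKerEquivRange η).symm.toEquiv
    exact Subgroup.finiteIndex_of_finite_quotient
  obtain ⟨C, hC, h1, h2⟩ := exists_compl_in π η.ker hD hfi
  have hcen : C ≤ Subgroup.center (FE π) := (hC.trans hD).trans (pr_central π)
  have hCn : C.Normal := central_normal hcen
  refine ⟨C, central_normal hcen, hC.trans hD, h1, ?_, hC⟩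
  apply le_antisymm (sup_le (hC.trans hD) inf_le_left)
  intro x hx
  -- `η x` lies in the kernel of `τ`, the image of the multiplier
  have h3 : η x ∈ τ.ker := by
    rw [MonoidHom.mem_ker]
    have : τ (η x) = pr π x := congrArg (fun f : FE π →* Q => f x) hη
    rw [this]; exact hx
  have h4 : η x ∈ (Mu π).map η := by
    rw [← Mu_map π hπ hτ.cext hη]
    exact ⟨h3, hτ.2.2 h3⟩
  obtain ⟨m, hm, h5⟩ := h4
  have h6 : x * m⁻¹ ∈ η.ker := by rw [MonoidHom.mem_ker, map_mul, map_inv, h5, mul_inv_cancel]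
  rw [← h2] at h6
  obtain ⟨c, hc, n, hn, h7⟩ := Subgroup.mem_sup_of_normal_left.1 h6
  have : x = c * (n * m) := by rw [← mul_assoc, h7]; group
  rw [this]
  exact Subgroup.mul_mem_sup hc ((Mu π).mul_mem hn.1 hm)

theorem id_stem : IsStemExtension (MonoidHom.id Q) := by
  refine ⟨fun q => ⟨q, rfl⟩, ?_, ?_⟩
  · intro x hx
    have : x = 1 := hx
    rw [this]; exact Subgroup.one_mem _
  · intro x hx
    have : x = 1 := hx
    rw [this]; exact Subgroup.one_mem _

theorem exists_cover [Finite α] [Finite Q] (hπ : Function.Surjective π) :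
    ∃ (C : Subgroup (FE π)) (_ : C.Normal) (hC : C ≤ (pr π).ker), C ⊓ Mu π = ⊥ ∧ C ⊔ Mu π = (pr π).ker := by
  obtain ⟨C, a, b, c, d, _⟩ := exists_cover_over π hπ (id_stem (Q := Q)) (η := pr π) rfl
  exact ⟨C, a, b, c, d⟩

theorem cov_finite [Finite Q] (hπ : Function.Surjective π) (C : Subgroup (FE π)) [C.Normal] (hC : C ≤ (pr π).ker)
    (h1 : C ⊓ Mu π = ⊥) (h2 : C ⊔ Mu π = (pr π).ker) : Finite (FE π ⧸ C) := by
  obtain ⟨e⟩ := cov_iso π C hC h1 h2
  exact finite_of_ker (σ := cov π C hC) (cov_stem π hπ C hC h2).1 (Finite.of_equiv _ e.toEquiv)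

/-- every kernel-commutator intersection is an image of the multiplier -/
theorem exists_surj_Mu (hπ : Function.Surjective π) {X : Type w} [Group X] {ξ : X →* Q} (hξ : CExt ξ) :
    ∃ f : Mu π →* ↥(ξ.ker ⊓ commutator X), Function.Surjective f := by
  obtain ⟨η, hη⟩ := exists_lift π hξ
  have h := Mu_map π hπ hξ hη
  refine ⟨(η.comp (Mu π).subtype).codRestrict _ (fun x => by rw [h]; exact ⟨x, x.2, rfl⟩), ?_⟩
  rintro ⟨x, hx⟩
  have hx' := hx
  rw [h] at hx'
  obtain ⟨m, hm, rfl⟩ := hx'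
  exact ⟨⟨m, hm⟩, rfl⟩

theorem exists_surj_stem (hπ : Function.Surjective π) {X : Type w} [Group X] {ξ : X →* Q} (hξ : IsStemExtension ξ) :
    ∃ f : Mu π →* ξ.ker, Function.Surjective f := by
  obtain ⟨f, hf⟩ := exists_surj_Mu π hπ hξ.cext
  have h : ξ.ker ⊓ commutator X = ξ.ker := inf_eq_left.2 hξ.2.2
  exact ⟨(MulEquiv.subgroupCongr h).toMonoidHom.comp f, (MulEquiv.subgroupCongr h).surjective.comp hf⟩

end

/-- the standard presentation -/
def std (Q : Type u) [Group Q] : FreeGroup Q →* Q := FreeGroup.lift id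

theorem std_surj (Q : Type u) [Group Q] : Function.Surjective (std Q) := fun q => ⟨FreeGroup.of q, by simp [std]⟩

theorem Mu_iso {α : Type u} {β : Type w} {Q : Type v} [Group Q] [Finite Q] {π : FreeGroup α →* Q} {ρ : FreeGroup β →* Q}
    (hπ : Function.Surjective π) (hρ : Function.Surjective ρ) : Nonempty (Mu π ≃* Mu ρ) := by
  obtain ⟨f, hf⟩ := exists_surj_Mu π hπ (pr_cext ρ hρ)
  obtain ⟨g, hg⟩ := exists_surj_Mu ρ hρ (pr_cext π hπ)
  exact iso_of_surj (f := f) hf (g := g) hg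

/-- the multiplier in the sense of the definitions is `Mu` -/
theorem has_iff {Q : Type u} [Group Q] [Finite Q] {A : Type v} [CommGroup A] : HasSchurMultiplier Q A ↔ Nonempty (A ≃* Mu (std Q)) := by
  constructor
  · rintro ⟨⟨Γ, _, _, σ, hσ, ⟨e⟩⟩, h2⟩
    obtain ⟨f, hf⟩ := exists_surj_stem (std Q) (std_surj Q) hσ
    obtain ⟨C, hCn, hC, c1, c2⟩ := exists_cover (std Q) (std_surj Q)
    have hfin : Finite (FE (std Q) ⧸ C) := cov_finite (std Q) (std_surj Q) C hC c1 c2
    obtain ⟨g, hg⟩ := h2 (FE (std Q) ⧸ C) (cov (std Q) C hC) (cov_stem (std Q) (std_surj Q) C hC c2)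
    obtain ⟨e2⟩ := cov_iso (std Q) C hC c1 c2
    obtain ⟨r⟩ := iso_of_surj (f := e.toMonoidHom.comp f) (e.surjective.comp hf) (g := e2.symm.toMonoidHom.comp g)
      (e2.symm.surjective.comp hg)
    exact ⟨r.symm⟩
  · rintro ⟨e⟩
    refine ⟨?_, ?_⟩
    · obtain ⟨C, hCn, hC, c1, c2⟩ := exists_cover (std Q) (std_surj Q)
      obtain ⟨e2⟩ := cov_iso (std Q) C hC c1 c2
      exact ⟨FE (std Q) ⧸ C, inferInstance, cov_finite (std Q) (std_surj Q) C hC c1 c2, cov (std Q) C hC,
        cov_stem (std Q) (std_surj Q) C hC c2, ⟨e2.symm.trans e.symm⟩⟩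
    · intro Γ _ _ σ hσ
      obtain ⟨f, hf⟩ := exists_surj_stem (std Q) (std_surj Q) hσ
      exact ⟨f.comp e.toMonoidHom, hf.comp e.surjective⟩

theorem has_iso {Q : Type u} [Group Q] [Finite Q] {A : Type v} [CommGroup A] (hA : HasSchurMultiplier Q A) {α : Type w}
    {π : FreeGroup α →* Q} (hπ : Function.Surjective π) : Nonempty (A ≃* Mu π) := by
  obtain ⟨e⟩ := has_iff.1 hA
  obtain ⟨f⟩ := Mu_iso (std_surj Q) hπ
  exact ⟨e.trans f⟩

theorem trivial_iff {Q : Type u} [Group Q] [Finite Q] : HasCyclicSchurMultiplier Q 1 ↔ Mu (std Q) = ⊥ := by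
  rw [HasCyclicSchurMultiplier, has_iff]
  have h1 : Subsingleton (Multiplicative (ZMod 1)) := inferInstanceAs (Subsingleton (ZMod 1))
  constructor
  · rintro ⟨e⟩
    have : Subsingleton (Mu (std Q)) := e.symm.toEquiv.subsingleton
    exact Subgroup.eq_bot_of_subsingleton _
  · intro h
    have : Subsingleton (Mu (std Q)) := by rw [h]; infer_instance
    exact ⟨MulEquiv.ofBijective (1 : Multiplicative (ZMod 1) →* Mu (std Q))
      ⟨fun _ _ _ => Subsingleton.elim _ _, fun x => ⟨1, Subsingleton.elim _ _⟩⟩⟩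

theorem trivial_iff' {Q : Type u} [Group Q] [Finite Q] {α : Type w} {π : FreeGroup α →* Q} (hπ : Function.Surjective π) :
    HasCyclicSchurMultiplier Q 1 ↔ Mu π = ⊥ := by
  rw [trivial_iff]
  obtain ⟨e⟩ := Mu_iso (std_surj Q) hπ
  constructor
  · intro h
    have : Subsingleton (Mu (std Q)) := by rw [h]; infer_instance
    have : Subsingleton (Mu π) := e.symm.toEquiv.subsingleton
    exact Subgroup.eq_bot_of_subsingleton _
  · intro h
    have : Subsingleton (Mu π) := by rw [h]; infer_instance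
    have : Subsingleton (Mu (std Q)) := e.toEquiv.subsingleton
    exact Subgroup.eq_bot_of_subsingleton _

/-- trivial multiplier: no central extension (of any size) has kernel meeting the commutator subgroup -/
theorem trivial_ext {Q : Type u} [Group Q] [Finite Q] (h : HasCyclicSchurMultiplier Q 1) {X : Type w} [Group X] {ξ : X →* Q}
    (hξ : CExt ξ) : ξ.ker ⊓ commutator X = ⊥ := by
  obtain ⟨η, hη⟩ := exists_lift (std Q) hξ
  rw [Mu_map (std Q) (std_surj Q) hξ hη, trivial_iff.1 h, Subgroup.map_bot]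

/-- to prove triviality it suffices to look at finite stem extensions in the same universe -/
theorem trivial_of {Q : Type u} [Group Q] [Finite Q]
    (h : ∀ (Γ : Type u) [Group Γ] [Finite Γ] (σ : Γ →* Q), IsStemExtension σ → σ.ker = ⊥) : HasCyclicSchurMultiplier Q 1 := by
  rw [trivial_iff]
  obtain ⟨C, hCn, hC, c1, c2⟩ := exists_cover (std Q) (std_surj Q)
  have hfin : Finite (FE (std Q) ⧸ C) := cov_finite (std Q) (std_surj Q) C hC c1 c2
  obtain ⟨e⟩ := cov_iso (std Q) C hC c1 c2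
  have h1 := h _ (cov (std Q) C hC) (cov_stem (std Q) (std_surj Q) C hC c2)
  have : Subsingleton (cov (std Q) C hC).ker := by rw [h1]; infer_instance
  have : Subsingleton (Mu (std Q)) := e.toEquiv.subsingleton
  exact Subgroup.eq_bot_of_subsingleton _

end Cfsg.Agent.H9.SM
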