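import Cfsg.Agent.H9.SM.Rep
import Mathlib.RepresentationTheory.Maschke
import Mathlib.RingTheory.SimpleModule.IsAlgClosed
set_option autoImplicit false

/-! The square of the exponent of the multiplier divides the order. -/

namespace Cfsg.Agent.H9.SM
open Cfsg
open scoped commutatorElement
universe u v w x y

section
variable {Γ : Type v} {Q : Type u} [Group Γ] [Finite Γ] [Group Q] [Finite Q] {σ : Γ →* Q}

/-- the eigenspace of the group algebra -/
def Rl (σ : Γ →* Q) (lam : σ.ker →* ℂˣ) : Submodule ℂ (MonoidAlgebra ℂ Γ) where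
  carrier := {x | ∀ z : σ.ker, MonoidAlgebra.single (z : Γ) (1 : ℂ) * x = ((lam z : ℂˣ) : ℂ) • x}
  add_mem' := fun {x y} hx hy z => by rw [mul_add, hx z, hy z, smul_add]
  zero_mem' := fun z => by rw [mul_zero, smul_zero]
  smul_mem' := fun c x hx z => by rw [mul_smul_comm, hx z, smul_comm]

theorem mem_Rl {lam : σ.ker →* ℂˣ} {x : MonoidAlgebra ℂ Γ} : x ∈ Rl σ lam ↔ ∀ (z : σ.ker) (h : Γ), x.coeff ((z : Γ)⁻¹ * h) = ((lam z : ℂˣ) : ℂ) * x.coeff h := by
  constructor
  · intro hx z h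
    have h1 := hx z
    have h2 := congrArg (fun y : MonoidAlgebra ℂ Γ => y.coeff h) h1
    simp only [MonoidAlgebra.coeff_single_mul_apply, one_mul] at h2
    rw [h2]; rfl
  · intro hx z
    apply MonoidAlgebra.ext
    ext h
    rw [MonoidAlgebra.coeff_single_mul_apply, one_mul, hx z h]; rfl

theorem finrank_Rl (hσ : CExt σ) (lam : σ.ker →* ℂˣ) : Module.finrank ℂ (Rl σ lam) = Nat.card Q := by
  choose s hs using hσ.1
  have hk : ∀ g : Γ, g * (s (σ g))⁻¹ ∈ σ.ker := by
    intro g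
    rw [MonoidHom.mem_ker, map_mul, map_inv, hs, mul_inv_cancel]
  let F : Rl σ lam →ₗ[ℂ] (Q → ℂ) :=
    { toFun := fun x q => (x : MonoidAlgebra ℂ Γ).coeff (s q)
      map_add' := fun x y => rfl
      map_smul' := fun c x => rfl }
  have hF : Function.Bijective F := by
    constructor
    · rw [injective_iff_map_eq_zero]
      rintro ⟨x, hx⟩ h0
      apply Subtype.ext
      apply MonoidAlgebra.ext
      ext g
      have h1 := (mem_Rl.1 hx) (⟨_, hk g⟩)⁻¹ (s (σ g))
      have e : ((⟨_, hk g⟩ : σ.ker)⁻¹ : Γ)⁻¹ * s (σ g) = g := by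
        show (((g * (s (σ g))⁻¹)⁻¹)⁻¹ * s (σ g)) = g
        group
      have h2 : x.coeff (s (σ g)) = 0 := congrFun h0 (σ g)
      have h3 : x.coeff g = ((lam (⟨_, hk g⟩)⁻¹ : ℂˣ) : ℂ) * x.coeff (s (σ g)) := by
        rw [← h1]
        congr 1
        exact e.symm
      rw [h3, h2, mul_zero]; rfl
    · intro f
      have _ := Fintype.ofFinite Γ
      let x : MonoidAlgebra ℂ Γ := MonoidAlgebra.ofCoeff (Finsupp.equivFunOnFinite.symm (fun g => (((lam ⟨_, hk g⟩)⁻¹ : ℂˣ) : ℂ) * f (σ g)))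
      have hx : ∀ g, x.coeff g = (((lam ⟨_, hk g⟩)⁻¹ : ℂˣ) : ℂ) * f (σ g) := fun g => rfl
      refine ⟨⟨x, ?_⟩, ?_⟩
      · rw [mem_Rl]
        intro z h
        rw [hx, hx]
        have hz : σ (z : Γ) = 1 := z.2
        have e1 : σ ((z : Γ)⁻¹ * h) = σ h := by rw [map_mul, map_inv, hz, inv_one, one_mul]
        have e2 : (⟨_, hk ((z : Γ)⁻¹ * h)⟩ : σ.ker) = z⁻¹ * ⟨_, hk h⟩ := by
          apply Subtype.ext
          show (z : Γ)⁻¹ * h * (s (σ ((z : Γ)⁻¹ * h)))⁻¹ = (z : Γ)⁻¹ * (h * (s (σ h))⁻¹)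
          rw [e1, mul_assoc]
        rw [e2, e1, map_mul, map_inv, mul_inv, inv_inv, Units.val_mul, mul_assoc]
      · funext q
        show x.coeff (s q) = f q
        rw [hx]
        have e : (⟨_, hk (s q)⟩ : σ.ker) = 1 := by
          apply Subtype.ext
          show s q * (s (σ (s q)))⁻¹ = 1
          rw [hs, mul_inv_cancel]
        rw [e, map_one, inv_one, Units.val_one, one_mul, hs]
  rw [(LinearEquiv.ofBijective F hF).finrank_eq]
  have _ := Fintype.ofFinite Q
  rw [Module.finrank_fintype_fun_eq_card, Nat.card_eq_fintype_card]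

theorem dvd_card (hσ : IsStemExtension σ) (lam : σ.ker →* ℂˣ) : orderOf lam ^ 2 ∣ Nat.card Q := by
  classical
  have hfd : FiniteDimensional ℂ (MonoidAlgebra ℂ Γ) := inferInstance
  have hss : IsSemisimpleRing (MonoidAlgebra ℂ Γ) := inferInstance
  obtain ⟨n, d, hd, ⟨Φ⟩⟩ := IsSemisimpleRing.exists_algEquiv_pi_matrix_of_isAlgClosed (F := ℂ) (R := MonoidAlgebra ℂ Γ)
  let ρ : ∀ i, Γ →* Matrix (Fin (d i)) (Fin (d i)) ℂ := fun i =>
    (Pi.evalMonoidHom _ i).comp ((Φ : _ →* (Π i, Matrix (Fin (d i)) (Fin (d i)) ℂ)).comp (MonoidAlgebra.of ℂ Γ))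
  have hρ : ∀ i g, ρ i g = Φ (MonoidAlgebra.single g 1) i := fun i g => rfl
  let P : Fin n → Prop := fun i => ∀ z : σ.ker, ρ i z = Matrix.scalar (Fin (d i)) ((lam z : ℂˣ) : ℂ)
  -- central elements act as scalars
  have hsc : ∀ i (z : σ.ker), ∃ c : ℂ, ρ i z = Matrix.scalar (Fin (d i)) c := by
    intro i z
    have h1 : ρ i z ∈ Set.center (Matrix (Fin (d i)) (Fin (d i)) ℂ) := by
      rw [Semigroup.mem_center_iff]
      intro N
      obtain ⟨x, hx⟩ := Φ.surjective (Pi.single i N)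
      have h2 : MonoidAlgebra.single (z : Γ) (1 : ℂ) * x = x * MonoidAlgebra.single (z : Γ) (1 : ℂ) := by
        apply MonoidAlgebra.ext
        ext g
        rw [MonoidAlgebra.coeff_single_mul_apply, MonoidAlgebra.coeff_mul_single_apply, one_mul, mul_one]
        congr 1
        exact (Subgroup.mem_center_iff.1 ((Subgroup.center Γ).inv_mem (hσ.2.1 z.2)) g).symm
      have h3 := congrFun (congrArg Φ h2) i
      rw [map_mul, map_mul, Pi.mul_apply, Pi.mul_apply, hx, Pi.single_eq_same] at h3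
      exact h3.symm
    rw [Matrix.center_eq_scalar_image] at h1
    obtain ⟨c, _, hc⟩ := h1
    exact ⟨c, hc.symm⟩
  have hdvd : ∀ i, P i → orderOf lam ∣ d i := by
    intro i hi
    apply orderOf_dvd_of_pow_eq_one
    ext z
    let D : Γ →* ℂˣ := (Matrix.detMonoidHom.comp (ρ i)).toHomUnits
    have h1 : D z = 1 := Abelianization.commutator_subset_ker D (hσ.2.2 z.2)
    have h2 : (ρ i z).det = 1 := congrArg Units.val h1
    rw [hi z, Matrix.scalar_apply, Matrix.det_diagonal, Finset.prod_const, Finset.card_univ, Fintype.card_fin] at h2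
    rw [MonoidHom.pow_apply, Units.val_pow_eq_pow_val, h2]; rfl
  -- the eigenspace in terms of matrices
  have hmem : ∀ x : MonoidAlgebra ℂ Γ, x ∈ Rl σ lam ↔ ∀ i, ¬ P i → Φ x i = 0 := by
    intro x
    constructor
    · intro hx i hi
      simp only [P] at hi
      push Not at hi
      obtain ⟨z, hz⟩ := hi
      obtain ⟨c, hc⟩ := hsc i z
      have h1 := congrFun (congrArg Φ (hx z)) i
      rw [map_mul, Pi.mul_apply, ← hρ, hc, map_smul, Pi.smul_apply] at h1
      have h2 : c • Φ x i = ((lam z : ℂˣ) : ℂ) • Φ x i := by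
        rw [← h1, Matrix.scalar_apply, ← Matrix.smul_one_eq_diagonal, smul_mul_assoc, one_mul]
      have h3 : (c - ((lam z : ℂˣ) : ℂ)) • Φ x i = 0 := by rw [sub_smul, h2, sub_self]
      rcases smul_eq_zero.1 h3 with h4 | h4
      · exfalso
        apply hz
        rw [hc, sub_eq_zero.1 h4]
      · exact h4
    · intro hx z
      apply Φ.injective
      funext i
      rw [map_mul, Pi.mul_apply, ← hρ, map_smul, Pi.smul_apply]
      by_cases hi : P i
      · rw [hi z, Matrix.scalar_apply, ← Matrix.smul_one_eq_diagonal, smul_mul_assoc, one_mul]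
      · rw [hx i hi, mul_zero, smul_zero]
  let G : Rl σ lam →ₗ[ℂ] (Π i : {i // P i}, Matrix (Fin (d i)) (Fin (d i)) ℂ) :=
    { toFun := fun x i => Φ x i
      map_add' := fun x y => by
        funext i
        show Φ ((x : MonoidAlgebra ℂ Γ) + y) i = Φ x i + Φ y i
        rw [map_add]; rfl
      map_smul' := fun c x => by
        funext i
        show Φ (c • (x : MonoidAlgebra ℂ Γ)) i = c • Φ x i
        rw [map_smul]; rfl }
  have hG : Function.Bijective G := by
    constructor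
    · rw [injective_iff_map_eq_zero]
      rintro ⟨x, hx⟩ h0
      apply Subtype.ext
      apply Φ.injective
      rw [Submodule.coe_zero, map_zero]
      funext i
      by_cases hi : P i
      · exact congrFun h0 ⟨i, hi⟩
      · exact (hmem x).1 hx i hi
    · intro y
      obtain ⟨x, hx⟩ := Φ.surjective (fun i => if h : P i then y ⟨i, h⟩ else 0)
      refine ⟨⟨x, ?_⟩, ?_⟩
      · rw [hmem]
        intro i hi
        rw [hx]
        exact dif_neg hi
      · funext i
        show Φ x i = y i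
        rw [hx]
        exact dif_pos i.2
  have h1 := (LinearEquiv.ofBijective G hG).finrank_eq
  rw [finrank_Rl hσ.cext lam, Module.finrank_pi_fintype] at h1
  rw [h1]
  apply Finset.dvd_sum
  intro i _
  rw [Module.finrank_matrix, Fintype.card_fin, Module.finrank_self, mul_one, pow_two]
  exact mul_dvd_mul (hdvd i i.2) (hdvd i i.2)

end

theorem exp_sq {Q : Type u} [Group Q] [Finite Q] {A : Type v} [CommGroup A] (hA : HasSchurMultiplier Q A) : Monoid.exponent A ^ 2 ∣ Nat.card Q := by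
  obtain ⟨⟨Γ, _, _, σ, hσ, ⟨e⟩⟩, _⟩ := hA
  let _ : CommGroup σ.ker := { (inferInstance : Group σ.ker) with
    mul_comm := fun a b => Subtype.ext ((Subgroup.mem_center_iff.1 (hσ.2.1 b.2) a)) }
  obtain ⟨e2⟩ := dual_iso σ.ker
  have hfin : Finite (σ.ker →* ℂˣ) := Finite.of_equiv _ e2.symm.toEquiv
  obtain ⟨lam, hlam⟩ := Monoid.exists_orderOf_eq_exponent (G := σ.ker →* ℂˣ)
    ⟨Nat.card (σ.ker →* ℂˣ), Nat.card_pos, fun g => pow_card_eq_one' (x := g)⟩
  have h1 : Monoid.exponent A = orderOf lam := by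
    rw [hlam]
    exact (Monoid.exponent_eq_of_mulEquiv e).symm.trans (Monoid.exponent_eq_of_mulEquiv e2).symm
  rw [h1]
  exact dvd_card hσ lam

end Cfsg.Agent.H9.SM
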