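import Cfsg.Agent.H9.SM.Two
import Mathlib.GroupTheory.PresentedGroup
import Mathlib.GroupTheory.SemidirectProduct
import Mathlib.Data.ZMod.Units
set_option autoImplicit false

/-! Metacyclic groups. -/

namespace Cfsg.Agent.H9.SM
open Cfsg
open scoped commutatorElement
universe u v w x y

/-- the relators -/
def mrel (M n r s : ℕ) : Set (FreeGroup Bool) :=
  {FreeGroup.of true ^ M, (FreeGroup.of false) ^ n * (FreeGroup.of true ^ s)⁻¹, FreeGroup.of false * FreeGroup.of true * (FreeGroup.of false)⁻¹ * (FreeGroup.of true ^ r)⁻¹}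

/-- the metacyclic group -/
abbrev MC (M n r s : ℕ) := PresentedGroup (mrel M n r s)

section
variable (M n r s : ℕ)

/-- first generator -/
def ma : MC M n r s := PresentedGroup.of true
/-- second generator -/
def mb : MC M n r s := PresentedGroup.of false

theorem ma_pow : ma M n r s ^ M = 1 := by
  have h := PresentedGroup.one_of_mem (rels := mrel M n r s) (x := FreeGroup.of true ^ M) (Or.inl rfl)
  rw [map_pow] at h
  exact h

theorem mb_pow : mb M n r s ^ n = ma M n r s ^ s := by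
  have h := PresentedGroup.one_of_mem (rels := mrel M n r s) (x := (FreeGroup.of false) ^ n * (FreeGroup.of true ^ s)⁻¹) (Or.inr (Or.inl rfl))
  rw [map_mul, map_inv, map_pow, map_pow, mul_inv_eq_one] at h
  exact h

theorem mab : mb M n r s * ma M n r s * (mb M n r s)⁻¹ = ma M n r s ^ r := by
  have h := PresentedGroup.one_of_mem (rels := mrel M n r s) (x := FreeGroup.of false * FreeGroup.of true * (FreeGroup.of false)⁻¹ * (FreeGroup.of true ^ r)⁻¹)
    (Or.inr (Or.inr rfl))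
  rw [map_mul, map_mul, map_mul, map_inv, map_inv, map_pow, mul_inv_eq_one] at h
  exact h

theorem exists_mlift {H : Type u} [Group H] (x y : H) (h1 : x ^ M = 1) (h2 : y ^ n = x ^ s) (h3 : y * x * y⁻¹ = x ^ r) :
    ∃ f : MC M n r s →* H, f (ma M n r s) = x ∧ f (mb M n r s) = y := by
  let g : Bool → H := fun c => if c then x else y
  have hg : ∀ w ∈ mrel M n r s, FreeGroup.lift g w = 1 := by
    rintro w (rfl | rfl | rfl)
    · simp [g, h1]
    · simp [g, h2]
    · simp [g, h3]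
  refine ⟨PresentedGroup.toGroup hg, ?_, ?_⟩
  · exact PresentedGroup.toGroup.of hg
  · exact PresentedGroup.toGroup.of hg

theorem mgen : Subgroup.closure {mb M n r s, ma M n r s} = ⊤ := by
  rw [← PresentedGroup.closure_range_of]
  congr 1
  ext x
  constructor
  · rintro (rfl | rfl)
    · exact ⟨false, rfl⟩
    · exact ⟨true, rfl⟩
  · rintro ⟨c, rfl⟩
    cases c
    · exact Or.inl rfl
    · exact Or.inr rfl

end

/-! ### the model -/
section model
variable {M n r s : ℕ}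

theorem model (hM : 0 < M) (hn : 0 < n) (h1 : r ^ n ≡ 1 [MOD M]) (h2 : s * r ≡ s [MOD M]) :
    (∀ i : ℤ, ma M n r s ^ i = 1 → (M : ℤ) ∣ i) ∧ (∀ i j : ℤ, mb M n r s ^ j = ma M n r s ^ i → (n : ℤ) ∣ j) := by
  have : NeZero M := ⟨hM.ne'⟩
  have hcop : Nat.Coprime r M := by
    have h3 : Nat.Coprime (r ^ n) M := by
      have := h1.gcd_eq
      rw [Nat.gcd_one_left] at this
      exact this
    exact (Nat.coprime_pow_left_iff hn _ _).1 h3
  let u : (ZMod M)ˣ := ZMod.unitOfCoprime r hcop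
  have hu : (u : ZMod M) = r := ZMod.coe_unitOfCoprime r hcop
  let φ : Multiplicative ℤ →* MulAut (Multiplicative (ZMod M)) :=
    (MulAutMultiplicative (ZMod M)).symm.toMonoidHom.comp ((DistribMulAction.toAddAut (ZMod M)ˣ (ZMod M)).comp (zpowersHom _ u))
  have hφ : ∀ (j : ℤ) (x : ZMod M), φ (Multiplicative.ofAdd j) (Multiplicative.ofAdd x) = Multiplicative.ofAdd ((u ^ j : (ZMod M)ˣ) • x) := fun j x => rfl
  let X := Multiplicative (ZMod M) ⋊[φ] Multiplicative ℤ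
  let z : X := ⟨Multiplicative.ofAdd (-(s : ZMod M)), Multiplicative.ofAdd (n : ℤ)⟩
  have hun : u ^ (n : ℤ) = 1 := by
    rw [zpow_natCast]
    apply Units.ext
    rw [Units.val_pow_eq_pow_val, hu, Units.val_one]
    have := (ZMod.natCast_eq_natCast_iff _ _ _).2 h1
    push_cast at this
    exact this
  have hus : ∀ j : ℤ, (u ^ j : (ZMod M)ˣ) • (s : ZMod M) = s := by
    have h4 : u • (s : ZMod M) = s := by
      rw [Units.smul_def, hu, smul_eq_mul, mul_comm]
      have := (ZMod.natCast_eq_natCast_iff _ _ _).2 h2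
      push_cast at this
      exact this
    have h5 : (s : ZMod M) ∈ MulAction.fixedBy (ZMod M) u := h4
    intro j
    have h6 : u ∈ MulAction.stabilizer (ZMod M)ˣ (s : ZMod M) := h4
    exact Subgroup.zpow_mem _ h6 j
  have hzc : z ∈ Subgroup.center X := by
    rw [Subgroup.mem_center_iff]
    rintro ⟨x, j⟩
    apply SemidirectProduct.ext
    · show x * φ j (Multiplicative.ofAdd (-(s : ZMod M))) = Multiplicative.ofAdd (-(s : ZMod M)) * φ (Multiplicative.ofAdd (n : ℤ)) x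
      have e1 : φ j (Multiplicative.ofAdd (-(s : ZMod M))) = Multiplicative.ofAdd (-(s : ZMod M)) := by
        rw [show j = Multiplicative.ofAdd (Multiplicative.toAdd j) from rfl, hφ, smul_neg, hus]
      have e2 : φ (Multiplicative.ofAdd (n : ℤ)) x = x := by
        rw [show x = Multiplicative.ofAdd (Multiplicative.toAdd x) from rfl, hφ, hun, one_smul]
      rw [e1, e2, mul_comm]
    · exact mul_comm _ _
  have hzn : (Subgroup.zpowers z).Normal := central_normal (by rw [Subgroup.zpowers_le]; exact hzc)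
  have hzr : ∀ t : ℤ, (z ^ t).right = Multiplicative.ofAdd (n * t) := by
    intro t
    have := map_zpow (SemidirectProduct.rightHom : X →* Multiplicative ℤ) z t
    have h6 : (SemidirectProduct.rightHom (z ^ t) : Multiplicative ℤ) = (z ^ t).right := rfl
    rw [← h6, this]
    show (Multiplicative.ofAdd (n : ℤ)) ^ t = _
    rw [← ofAdd_zsmul, smul_eq_mul, mul_comm]
  let q : X →* X ⧸ Subgroup.zpowers z := QuotientGroup.mk' _
  let a : X := SemidirectProduct.inl (Multiplicative.ofAdd 1)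
  let b : X := SemidirectProduct.inr (Multiplicative.ofAdd 1)
  have ha : ∀ i : ℤ, a ^ i = SemidirectProduct.inl (Multiplicative.ofAdd (i : ZMod M)) := by
    intro i
    show (SemidirectProduct.inl (Multiplicative.ofAdd (1 : ZMod M))) ^ i = _
    rw [← map_zpow, ← ofAdd_zsmul, zsmul_eq_mul, mul_one]
  have hb : ∀ i : ℤ, b ^ i = SemidirectProduct.inr (Multiplicative.ofAdd i) := by
    intro i
    show (SemidirectProduct.inr (Multiplicative.ofAdd (1 : ℤ))) ^ i = _
    rw [← map_zpow, ← ofAdd_zsmul, smul_eq_mul, mul_one]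
  have hbn : b ^ n = SemidirectProduct.inr (Multiplicative.ofAdd (n : ℤ)) := by rw [← zpow_natCast, hb]
  have has : ∀ k : ℕ, a ^ k = SemidirectProduct.inl (Multiplicative.ofAdd (((k : ℕ) : ℤ) : ZMod M)) := fun k => by rw [← zpow_natCast, ha]
  obtain ⟨f, hfa, hfb⟩ := exists_mlift M n r s (q a) (q b) (by
      rw [← map_pow, has]
      have : ((M : ℤ) : ZMod M) = 0 := by simp
      rw [this]
      exact map_one _) (by
      rw [← map_pow q, ← map_pow q, hbn, has]
      show (QuotientGroup.mk _ : X ⧸ Subgroup.zpowers z) = QuotientGroup.mk _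
      rw [eq_comm, QuotientGroup.eq]
      refine ⟨1, ?_⟩
      show z ^ (1 : ℤ) = _
      rw [zpow_one]
      have e1 : (SemidirectProduct.inl (Multiplicative.ofAdd ((s : ℤ) : ZMod M)) : X)⁻¹ = SemidirectProduct.inl (Multiplicative.ofAdd (-(s : ZMod M))) := by
        rw [← map_inv, ← ofAdd_neg, Int.cast_natCast]
      rw [e1]
      exact SemidirectProduct.mk_eq_inl_mul_inr _ _) (by
      rw [← map_inv, ← map_mul, ← map_mul, ← map_pow]
      congr 1
      rw [has]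
      show SemidirectProduct.inr _ * SemidirectProduct.inl _ * (SemidirectProduct.inr _)⁻¹ = _
      rw [← map_inv, ← SemidirectProduct.inl_aut, hφ, zpow_one, Units.smul_def, hu, smul_eq_mul, mul_one]
      simp)
  constructor
  · intro i hi
    have h7 : q (a ^ i) = 1 := by rw [map_zpow, ← hfa, ← map_zpow, hi, map_one]
    have h8 : a ^ i ∈ Subgroup.zpowers z := (QuotientGroup.eq_one_iff _).1 h7
    obtain ⟨t, ht⟩ := h8
    have ht' : z ^ t = a ^ i := ht
    have h9 : (z ^ t).right = 1 := by rw [ht', ha]; rfl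
    rw [hzr] at h9
    have h10 : (n : ℤ) * t = 0 := h9
    have h11 : t = 0 := by
      rcases mul_eq_zero.1 h10 with h | h
      · omega
      · exact h
    rw [h11, zpow_zero, ha] at ht'
    have h12 : (Multiplicative.ofAdd (i : ZMod M)) = 1 := by
      have := congrArg SemidirectProduct.left ht'
      rw [SemidirectProduct.left_inl] at this
      exact this.symm
    have h13 : (i : ZMod M) = 0 := h12
    exact (ZMod.intCast_zmod_eq_zero_iff_dvd _ _).1 h13
  · intro i j hij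
    have h7 : q (b ^ j) = q (a ^ i) := by rw [map_zpow, map_zpow, ← hfa, ← hfb, ← map_zpow, ← map_zpow, hij]
    have h8 : (a ^ i)⁻¹ * b ^ j ∈ Subgroup.zpowers z := QuotientGroup.eq.1 h7.symm
    obtain ⟨t, ht⟩ := h8
    have ht' : z ^ t = (a ^ i)⁻¹ * b ^ j := ht
    have h9 := hzr t
    rw [ht', ha, hb] at h9
    have h10 : ((SemidirectProduct.inl (Multiplicative.ofAdd (i : ZMod M)) : X)⁻¹ * SemidirectProduct.inr (Multiplicative.ofAdd j)).right = Multiplicative.ofAdd j := by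
      simp
    rw [h10] at h9
    have h11 : j = n * t := h9
    exact ⟨t, h11⟩

end model

section nf
variable {M n r s : ℕ}

theorem ma_normal (hM : 0 < M) : (Subgroup.zpowers (ma M n r s)).Normal := by
  have hfin : Finite (Subgroup.zpowers (ma M n r s)) := by
    have h1 : IsOfFinOrder (ma M n r s) := isOfFinOrder_iff_pow_eq_one.2 ⟨M, hM, ma_pow M n r s⟩
    exact (finite_zpowers.2 h1)
  rw [← Subgroup.normalizer_eq_top_iff, eq_top_iff, ← mgen, Subgroup.closure_le]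
  rintro x (rfl | rfl)
  · apply Subgroup.mem_normalizer_fintype
    rintro _ ⟨k, rfl⟩
    show mb M n r s * ma M n r s ^ k * (mb M n r s)⁻¹ ∈ _
    rw [← conj_zpow, mab]
    exact Subgroup.zpow_mem _ (Subgroup.pow_mem _ (Subgroup.mem_zpowers _) _) k
  · exact Subgroup.le_normalizer (Subgroup.mem_zpowers _)

theorem m_nf (hM : 0 < M) (x : MC M n r s) : ∃ i j : ℤ, x = ma M n r s ^ i * mb M n r s ^ j := by
  have hN := ma_normal (n := n) (r := r) (s := s) hM
  have h1 : (⊤ : Subgroup (MC M n r s)) ≤ Subgroup.zpowers (ma M n r s) ⊔ Subgroup.zpowers (mb M n r s) := by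
    rw [← mgen, Subgroup.closure_le]
    rintro x (rfl | rfl)
    · exact (le_sup_right : Subgroup.zpowers (mb M n r s) ≤ _) (Subgroup.mem_zpowers _)
    · exact (le_sup_left : Subgroup.zpowers (ma M n r s) ≤ _) (Subgroup.mem_zpowers _)
  obtain ⟨a, ⟨i, hi⟩, b, ⟨j, hj⟩, h2⟩ := Subgroup.mem_sup_of_normal_left.1 (h1 (Subgroup.mem_top x))
  refine ⟨i, j, ?_⟩
  rw [← h2, ← hi, ← hj]

theorem m_finite (hM : 0 < M) (hn : 0 < n) : Finite (MC M n r s) := by
  have h1 : IsOfFinOrder (ma M n r s) := isOfFinOrder_iff_pow_eq_one.2 ⟨M, hM, ma_pow M n r s⟩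
  have h2 : IsOfFinOrder (mb M n r s) := isOfFinOrder_iff_pow_eq_one.2 ⟨n * M, Nat.mul_pos hn hM, by
    rw [pow_mul, mb_pow, ← pow_mul, mul_comm, pow_mul, ma_pow, one_pow]⟩
  have f1 : Finite (Subgroup.zpowers (ma M n r s)) := finite_zpowers.2 h1
  have f2 : Finite (Subgroup.zpowers (mb M n r s)) := finite_zpowers.2 h2
  apply Finite.of_surjective (fun p : Subgroup.zpowers (ma M n r s) × Subgroup.zpowers (mb M n r s) => (p.1 : MC M n r s) * p.2)
  intro x
  obtain ⟨i, j, rfl⟩ := m_nf hM x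
  exact ⟨(⟨_, ⟨i, rfl⟩⟩, ⟨_, ⟨j, rfl⟩⟩), rfl⟩

end nf

/-! ### the upper bound -/

theorem geom (e n : ℕ) : e * (∑ i ∈ Finset.range n, (e + 1) ^ i) + 1 = (e + 1) ^ n := by
  induction n with
  | zero => simp
  | succ n ih =>
    rw [Finset.sum_range_succ, pow_succ]
    have : e * (∑ x ∈ Finset.range n, (e + 1) ^ x + (e + 1) ^ n) + 1 = (e * (∑ x ∈ Finset.range n, (e + 1) ^ x) + 1) + e * (e + 1) ^ n := by ring
    rw [this, ih]; ring

theorem m_upper {d μ ρ n l κ : ℕ} (hd : 0 < d) (hμ : 0 < μ) (hn : 0 < n) (hcop : Nat.Coprime μ ρ)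
    (hrn : (d * ρ + 1) ^ n ≡ 1 [MOD d * μ]) (hκ : Nat.gcd (d * μ) (∑ i ∈ Finset.range n, (d * ρ + 1) ^ i) = μ * κ)
    {Γ : Type u} [Group Γ] [Finite Γ] (σ : Γ →* MC (d * μ) n (d * ρ + 1) (μ * l)) (hσ : IsStemExtension σ) :
    ∃ π : Multiplicative (ZMod (Nat.gcd l κ)) →* σ.ker, Function.Surjective π := by
  obtain ⟨A, hA⟩ := hσ.1 (ma (d * μ) n (d * ρ + 1) (μ * l))
  obtain ⟨B, hB⟩ := hσ.1 (mb (d * μ) n (d * ρ + 1) (μ * l))
  obtain ⟨w, hwd⟩ : ∃ w, w = B * A * B⁻¹ * (A ^ (d * ρ + 1))⁻¹ := ⟨_, rfl⟩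
  have hw : w ∈ Subgroup.center Γ := by
    apply hσ.2.1
    rw [hwd, MonoidHom.mem_ker, map_mul, map_mul, map_mul, map_inv, map_inv, map_pow, hA, hB, mab, mul_inv_cancel]
  have hwc := Subgroup.mem_center_iff.1 hw
  have e1 : B * A * B⁻¹ = w * A ^ (d * ρ + 1) := by rw [hwd]; group
  have hcA : ∀ j : ℕ, Commute w (A ^ j) := fun j => (hwc _).symm
  have hconj : ∀ i : ℕ, B * A ^ i * B⁻¹ = w ^ i * A ^ ((d * ρ + 1) * i) := by
    intro i
    rw [← conj_pow, e1, (hcA _).mul_pow, ← pow_mul]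
  obtain ⟨c, hcd⟩ : ∃ c, c = ⁅B, A⁆ := ⟨_, rfl⟩
  have e2 : c = w * A ^ (d * ρ) := by
    rw [hcd, commutatorElement_def, e1, pow_succ]; group
  have hpow : ∀ i : ℕ, c ^ i = w ^ i * A ^ (d * ρ * i) := by
    intro i
    rw [e2, (hcA _).mul_pow, ← pow_mul]
  have e3 : B * c * B⁻¹ = c ^ (d * ρ + 1) := by
    have h1 : B * c * B⁻¹ = w * (B * A ^ (d * ρ) * B⁻¹) := by
      rw [e2, ← mul_assoc, hwc B]; group
    rw [h1, hconj, hpow, ← mul_assoc, ← pow_succ', mul_comm (d * ρ + 1) (d * ρ)]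
  have e4 : A * c * A⁻¹ = c := by
    rw [e2, ← mul_assoc, hwc A, mul_assoc w, ← pow_succ', pow_succ]; group
  have hg : Subgroup.closure {σ B, σ A} = ⊤ := by rw [hA, hB]; exact mgen _ _ _ _
  have hN : (Subgroup.zpowers c).Normal := by
    apply normal_zpowers hσ.cext hg
    · rw [e3]; exact Subgroup.pow_mem _ (Subgroup.mem_zpowers c) _
    · rw [e4]; exact Subgroup.mem_zpowers c
  have hcomm : commutator Γ ≤ Subgroup.zpowers c := comm_le_two hσ.cext hg (by rw [← hcd]; exact Subgroup.mem_zpowers c)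
  -- relations
  have hrel : ∀ e : ℕ, B * A ^ e * B⁻¹ = A ^ e → c ^ e = 1 := by
    intro e he
    rw [hconj] at he
    have h1 : (d * ρ + 1) * e = d * ρ * e + e := by ring
    rw [h1, pow_add, ← mul_assoc] at he
    rw [hpow]
    exact mul_right_cancel (he.trans (one_mul _).symm)
  have hm1 : c ^ (d * μ) = 1 := by
    apply hrel
    have h1 : A ^ (d * μ) ∈ Subgroup.center Γ := by
      apply hσ.2.1
      rw [MonoidHom.mem_ker, map_pow, hA, ma_pow]
    rw [Subgroup.mem_center_iff.1 h1 B, mul_inv_cancel_right]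
  obtain ⟨v, hvd⟩ : ∃ v, v = B ^ n * (A ^ (μ * l))⁻¹ := ⟨_, rfl⟩
  have hv : v ∈ Subgroup.center Γ := by
    apply hσ.2.1
    rw [hvd, MonoidHom.mem_ker, map_mul, map_inv, map_pow, map_pow, hA, hB, mb_pow, mul_inv_cancel]
  have hvc := Subgroup.mem_center_iff.1 ((Subgroup.center Γ).inv_mem hv)
  have hs1 : c ^ (μ * l) = 1 := by
    apply hrel
    have h1 : A ^ (μ * l) = v⁻¹ * B ^ n := by rw [hvd]; group
    rw [h1, ← mul_assoc, hvc B, mul_assoc v⁻¹, ← pow_succ', pow_succ]; group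
  have hiter : ∀ j : ℕ, B ^ j * A * (B ^ j)⁻¹ = w ^ (∑ i ∈ Finset.range j, (d * ρ + 1) ^ i) * A ^ ((d * ρ + 1) ^ j) := by
    intro j
    induction j with
    | zero => simp
    | succ j ih =>
      have h1 : B ^ (j + 1) * A * (B ^ (j + 1))⁻¹ = B * (B ^ j * A * (B ^ j)⁻¹) * B⁻¹ := by rw [pow_succ']; group
      have h2 : Commute (w ^ (∑ i ∈ Finset.range j, (d * ρ + 1) ^ i)) B := ((show Commute w B from (hwc B).symm)).pow_left _
      rw [h1, ih, ← mul_assoc, ← h2.eq, mul_assoc, mul_assoc, ← mul_assoc B, hconj, ← mul_assoc, ← pow_add, Finset.sum_range_succ, pow_succ' (d * ρ + 1)]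
  have hN1 : c ^ (∑ i ∈ Finset.range n, (d * ρ + 1) ^ i) = 1 := by
    have h1 := hiter n
    have h2 : B ^ n * A * (B ^ n)⁻¹ = A := by
      have h3 : B ^ n = v * A ^ (μ * l) := by rw [hvd]; group
      have hv2 := Subgroup.mem_center_iff.1 hv A
      rw [h3, mul_assoc v, ← pow_succ, pow_succ', ← mul_assoc, ← hv2]; group
    rw [h2, ← geom, pow_succ, ← mul_assoc] at h1
    rw [hpow]
    exact mul_right_cancel (h1.symm.trans (one_mul _).symm)
  have hord : orderOf c ∣ μ * Nat.gcd l κ := by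
    have h1 := Nat.dvd_gcd (Nat.dvd_gcd (orderOf_dvd_of_pow_eq_one hm1) (orderOf_dvd_of_pow_eq_one hN1)) (orderOf_dvd_of_pow_eq_one hs1)
    rw [hκ, Nat.gcd_mul_left, Nat.gcd_comm κ l] at h1
    exact h1
  have hσc : σ c = ma (d * μ) n (d * ρ + 1) (μ * l) ^ (d * ρ) := by
    rw [hcd, map_commutatorElement, commutatorElement_def, hA, hB, mab, pow_succ]; group
  have hmod : μ * l * (d * ρ + 1) ≡ μ * l [MOD d * μ] := by
    have : μ * l * (d * ρ + 1) = μ * l + (d * μ) * (l * ρ) := by ring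
    rw [this]
    exact Nat.add_mul_mod_self_left _ _ _
  have hmodel := model (M := d * μ) (n := n) (r := d * ρ + 1) (s := μ * l) (Nat.mul_pos hd hμ) hn hrn hmod
  apply ker_cyclic hσ hcomm (t := μ) (k := Nat.gcd l κ)
  · intro j hj
    rw [hσc, ← zpow_natCast, ← zpow_mul] at hj
    have h1 := hmodel.1 _ hj
    push_cast at h1
    have h2 : (μ : ℤ) ∣ ρ * j := by
      have h3 : ((d : ℤ) * μ) ∣ d * (ρ * j) := by rw [← mul_assoc]; exact h1
      exact Int.dvd_of_mul_dvd_mul_left (by omega) h3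
    have h4 : IsCoprime (μ : ℤ) ρ := by
      rw [Int.isCoprime_iff_gcd_eq_one]; exact hcop
    exact h4.dvd_of_dvd_mul_left h2
  · rw [hσc, ← pow_mul]
    have : d * ρ * μ = d * μ * ρ := by ring
    rw [this, pow_mul, ma_pow, one_pow]
  · exact orderOf_dvd_iff_pow_eq_one.1 hord

/-! ### existence -/

theorem exists_unit {μ k ρ : ℕ} (hμ : 0 < μ) (hk : 0 < k) (hcop : Nat.Coprime μ ρ) :
    ∃ ρ' t : ℕ, ρ' ≡ ρ [MOD μ] ∧ ρ' * t ≡ μ [MOD μ * k] := by
  have : NeZero (μ * k) := ⟨(Nat.mul_pos hμ hk).ne'⟩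
  have h1 : μ ∣ μ * k := Dvd.intro k rfl
  obtain ⟨v, hv⟩ := ZMod.unitsMap_surjective h1 (ZMod.unitOfCoprime ρ hcop.symm)
  refine ⟨(v : ZMod (μ * k)).val, ((v⁻¹ : (ZMod (μ * k))ˣ) * (μ : ZMod (μ * k)) : ZMod (μ * k)).val, ?_, ?_⟩
  · rw [← ZMod.natCast_eq_natCast_iff]
    have h2 := congrArg Units.val hv
    rw [ZMod.coe_unitOfCoprime] at h2
    rw [← h2]
    have h3 : ((ZMod.unitsMap h1 v : (ZMod μ)ˣ) : ZMod μ) = ZMod.castHom h1 (ZMod μ) (v : ZMod (μ * k)) := rfl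
    rw [h3]
    conv_rhs => rw [← ZMod.natCast_zmod_val (v : ZMod (μ * k))]
    rw [map_natCast]
  · rw [← ZMod.natCast_eq_natCast_iff, Nat.cast_mul, ZMod.natCast_zmod_val, ZMod.natCast_zmod_val, ← mul_assoc, Units.mul_inv, one_mul]

theorem m_exist {d μ ρ n l κ : ℕ} (hd : 0 < d) (hμ : 0 < μ) (hn : 0 < n) (hcop : Nat.Coprime μ ρ)
    (hrn : (d * ρ + 1) ^ n ≡ 1 [MOD d * μ]) (hκ : Nat.gcd (d * μ) (∑ i ∈ Finset.range n, (d * ρ + 1) ^ i) = μ * κ) :
    ∃ (Γ : Type) (_ : Group Γ) (_ : Finite Γ) (σ : Γ →* MC (d * μ) n (d * ρ + 1) (μ * l)), IsStemExtension σ ∧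
      Nonempty (σ.ker ≃* Multiplicative (ZMod (Nat.gcd l κ))) := by
  have hκ0 : 0 < κ := by
    rcases Nat.eq_zero_or_pos κ with h | h
    · rw [h, mul_zero, Nat.gcd_eq_zero_iff] at hκ
      have := Nat.mul_pos hd hμ
      omega
    · exact h
  obtain ⟨k, hkd⟩ : ∃ k, k = Nat.gcd l κ := ⟨_, rfl⟩
  rw [← hkd]
  have hk : 0 < k := by rw [hkd]; exact Nat.gcd_pos_of_pos_right _ hκ0
  have hkl : k ∣ l := by rw [hkd]; exact Nat.gcd_dvd_left _ _
  have hkκ : k ∣ κ := by rw [hkd]; exact Nat.gcd_dvd_right _ _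
  have hκd : κ ∣ d := by
    have h1 : μ * κ ∣ d * μ := by rw [← hκ]; exact Nat.gcd_dvd_left _ _
    rw [mul_comm d] at h1
    exact Nat.dvd_of_mul_dvd_mul_left hμ h1
  have hkd' : k ∣ d := hkκ.trans hκd
  obtain ⟨ρ', t, hρ, ht⟩ := exists_unit hμ hk hcop
  have hr' : d * ρ' + 1 ≡ d * ρ + 1 [MOD d * μ] := (Nat.ModEq.mul_left' d hρ).add_right 1
  have hM : 0 < d * μ * k := Nat.mul_pos (Nat.mul_pos hd hμ) hk
  have hNN : μ * k ∣ ∑ i ∈ Finset.range n, (d * ρ' + 1) ^ i := by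
    have h1 : ∀ j : ℕ, ∑ i ∈ Finset.range j, (d * ρ' + 1) ^ i ≡ ∑ i ∈ Finset.range j, (d * ρ + 1) ^ i [MOD d * μ] := by
      intro j
      induction j with
      | zero => exact Nat.ModEq.refl _
      | succ j ih => rw [Finset.sum_range_succ, Finset.sum_range_succ]; exact ih.add (hr'.pow j)
    have h2 : μ * k ∣ d * μ := by rw [mul_comm d]; exact Nat.mul_dvd_mul_left μ hkd'
    have h3 : μ * k ∣ ∑ i ∈ Finset.range n, (d * ρ + 1) ^ i := by
      have h4 : μ * κ ∣ ∑ i ∈ Finset.range n, (d * ρ + 1) ^ i := by rw [← hκ]; exact Nat.gcd_dvd_right _ _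
      exact (Nat.mul_dvd_mul_left μ hkκ).trans h4
    exact (((h1 n).of_dvd h2).dvd_iff dvd_rfl).2 h3
  have hmod1 : (d * ρ' + 1) ^ n ≡ 1 [MOD d * μ * k] := by
    rw [← geom]
    obtain ⟨q, hq⟩ := hNN
    rw [hq]
    have : d * ρ' * (μ * k * q) + 1 = 1 + (d * μ * k) * (ρ' * q) := by ring
    rw [this]
    exact Nat.add_mul_mod_self_left _ _ _
  have hmod2 : μ * l * (d * ρ' + 1) ≡ μ * l [MOD d * μ * k] := by
    obtain ⟨q, hq⟩ := hkl
    have : μ * l * (d * ρ' + 1) = μ * l + (d * μ * k) * (q * ρ') := by rw [hq]; ring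
    rw [this]
    exact Nat.add_mul_mod_self_left _ _ _
  have hmod3 : μ * l * (d * ρ + 1) ≡ μ * l [MOD d * μ] := by
    have : μ * l * (d * ρ + 1) = μ * l + (d * μ) * (l * ρ) := by ring
    rw [this]
    exact Nat.add_mul_mod_self_left _ _ _
  have mod1 := model hM hn hmod1 hmod2
  have mod2 := model (Nat.mul_pos hd hμ) hn hrn hmod3
  set a := ma (d * μ) n (d * ρ + 1) (μ * l) with ha
  set b := mb (d * μ) n (d * ρ + 1) (μ * l) with hb
  set a' := ma (d * μ * k) n (d * ρ' + 1) (μ * l) with ha'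
  set b' := mb (d * μ * k) n (d * ρ' + 1) (μ * l) with hb'
  have haM : a ^ (d * μ) = 1 := ma_pow _ _ _ _
  have haM' : a' ^ (d * μ * k) = 1 := ma_pow _ _ _ _
  have hab' : b' * a' * b'⁻¹ = a' ^ (d * ρ' + 1) := mab _ _ _ _
  have hbn' : b' ^ n = a' ^ (μ * l) := mb_pow _ _ _ _
  obtain ⟨σ, hσa, hσb⟩ := exists_mlift (d * μ * k) n (d * ρ' + 1) (μ * l) a b (by rw [pow_mul, haM, one_pow]) (mb_pow _ _ _ _) (by
    rw [ha, hb, mab, ← ha]
    exact pow_eq_pow_iff_modEq.2 ((hr'.of_dvd (orderOf_dvd_of_pow_eq_one haM)).symm))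
  rw [← ha'] at hσa
  rw [← hb'] at hσb
  have hsurj : Function.Surjective σ := by
    rw [← MonoidHom.range_eq_top, eq_top_iff, ← mgen, Subgroup.closure_le]
    rintro x (rfl | rfl)
    · exact ⟨b', hσb⟩
    · exact ⟨a', hσa⟩
  have hkerle : σ.ker ≤ Subgroup.zpowers (a' ^ (d * μ)) := by
    intro x hx
    obtain ⟨i, j, rfl⟩ := m_nf hM x
    rw [← ha', ← hb'] at hx ⊢
    rw [MonoidHom.mem_ker, map_mul, map_zpow, map_zpow, hσa, hσb] at hx
    have h1 : b ^ j = a ^ (-i) := by rw [zpow_neg]; exact (inv_eq_of_mul_eq_one_right hx).symm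
    obtain ⟨q, rfl⟩ := mod2.2 _ _ h1
    have h2 : b' ^ ((n : ℤ) * q) = a' ^ (((μ * l : ℕ) : ℤ) * q) := by
      rw [zpow_mul, zpow_natCast, hbn', zpow_mul, zpow_natCast]
    have h3 : b ^ ((n : ℤ) * q) = a ^ (((μ * l : ℕ) : ℤ) * q) := by
      rw [zpow_mul, zpow_natCast, hb, mb_pow, ← ha, zpow_mul, zpow_natCast]
    rw [h3, ← zpow_add] at hx
    obtain ⟨e, he⟩ := mod2.1 _ hx
    rw [h2, ← zpow_add, he]
    refine ⟨e, ?_⟩
    show (a' ^ (d * μ)) ^ e = _
    rw [← zpow_natCast, ← zpow_mul]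
  have hz1 : a' ^ (d * μ) ∈ σ.ker := by rw [MonoidHom.mem_ker, map_pow, hσa, haM]
  have hker : σ.ker = Subgroup.zpowers (a' ^ (d * μ)) := le_antisymm hkerle (by rw [Subgroup.zpowers_le]; exact hz1)
  have hcen : a' ^ (d * μ) ∈ Subgroup.center (MC (d * μ * k) n (d * ρ' + 1) (μ * l)) := by
    have h1 : (⊤ : Subgroup (MC (d * μ * k) n (d * ρ' + 1) (μ * l))) ≤ Subgroup.centralizer {a' ^ (d * μ)} := by
      rw [← mgen, Subgroup.closure_le]
      rintro x (rfl | rfl)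
      · rw [SetLike.mem_coe, Subgroup.mem_centralizer_singleton_iff, ← hb', ← mul_inv_eq_iff_eq_mul, ← conj_pow, hab', ← pow_mul]
        obtain ⟨q, hq⟩ := hkd'
        have h2 : (d * ρ' + 1) * (d * μ) = (d * μ * k) * (q * ρ') + d * μ := by
          calc (d * ρ' + 1) * (d * μ) = d * μ * d * ρ' + d * μ := by ring
            _ = d * μ * (k * q) * ρ' + d * μ := by rw [← hq]
            _ = _ := by ring
        rw [h2, pow_add, pow_mul, haM', one_pow, one_mul]
      · rw [SetLike.mem_coe, Subgroup.mem_centralizer_singleton_iff, ← ha', ← pow_succ, ← pow_succ']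
    rw [Subgroup.mem_center_iff]
    intro g
    exact Subgroup.mem_centralizer_singleton_iff.1 (h1 (Subgroup.mem_top g))
  have hcomm : a' ^ (d * μ) ∈ commutator (MC (d * μ * k) n (d * ρ' + 1) (μ * l)) := by
    have h1 : ⁅b', a'⁆ = a' ^ (d * ρ') := by
      rw [commutatorElement_def, hab', pow_succ]; group
    have h2 : a' ^ (d * μ) = ⁅b', a'⁆ ^ t := by
      rw [h1, ← pow_mul]
      apply pow_eq_pow_iff_modEq.2
      have h3 : d * ρ' * t ≡ d * μ [MOD d * μ * k] := by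
        have := Nat.ModEq.mul_left' d ht
        rw [← mul_assoc, ← mul_assoc] at this
        exact this
      exact (h3.of_dvd (orderOf_dvd_of_pow_eq_one haM')).symm
    rw [h2]
    exact Subgroup.pow_mem _ (Subgroup.commutator_mem_commutator (Subgroup.mem_top _) (Subgroup.mem_top _)) _
  have hord : orderOf (a' ^ (d * μ)) = k := by
    apply Nat.dvd_antisymm
    · apply orderOf_dvd_of_pow_eq_one
      rw [← pow_mul, haM']
    · have h1 : a' ^ (((d * μ * orderOf (a' ^ (d * μ)) : ℕ) : ℤ)) = 1 := by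
        rw [zpow_natCast, pow_mul, pow_orderOf_eq_one]
      have h2 := mod1.1 _ h1
      have h3 : d * μ * k ∣ d * μ * orderOf (a' ^ (d * μ)) := by exact_mod_cast h2
      exact Nat.dvd_of_mul_dvd_mul_left (Nat.mul_pos hd hμ) h3
  refine ⟨MC (d * μ * k) n (d * ρ' + 1) (μ * l), inferInstance, m_finite hM hn, σ, ⟨hsurj, ?_, ?_⟩, ?_⟩
  · rw [hker, Subgroup.zpowers_le]; exact hcen
  · rw [hker, Subgroup.zpowers_le]; exact hcomm
  · rw [hker]
    refine ⟨mulEquivOfCyclicCardEq ?_⟩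
    rw [Nat.card_zpowers, hord, Nat.card_congr Multiplicative.toAdd, Nat.card_zmod]

theorem metacyclic (m n r l : ℕ) (hm : 0 < m) (hn : 0 < n) (hr : 0 < r) (hrn : r ^ n ≡ 1 [MOD m]) :
    HasCyclicSchurMultiplier (MC m n r (m * l / Nat.gcd m (r - 1))) (Nat.gcd l (Nat.gcd m (r - 1) * Nat.gcd m (∑ i ∈ Finset.range n, r ^ i) / m)) := by
  obtain ⟨d, hdd⟩ : ∃ d, d = Nat.gcd m (r - 1) := ⟨_, rfl⟩
  have hd : 0 < d := by rw [hdd]; exact Nat.gcd_pos_of_pos_left _ hm
  obtain ⟨μ, hμ⟩ : d ∣ m := by rw [hdd]; exact Nat.gcd_dvd_left _ _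
  obtain ⟨ρ, hρ⟩ : d ∣ r - 1 := by rw [hdd]; exact Nat.gcd_dvd_right _ _
  have hr' : r = d * ρ + 1 := by omega
  rw [← hdd]
  subst hr'
  subst hμ
  have hμ0 : 0 < μ := Nat.pos_of_mul_pos_left hm
  have hcop : Nat.Coprime μ ρ := by
    rw [Nat.add_sub_cancel, Nat.gcd_mul_left] at hdd
    have : d * Nat.gcd μ ρ = d * 1 := by omega
    exact Nat.eq_of_mul_eq_mul_left hd this
  -- `μ` divides the geometric sum
  have hμN : μ ∣ ∑ i ∈ Finset.range n, (d * ρ + 1) ^ i := by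
    have h1 := hrn
    rw [← geom] at h1
    have h2 : d * ρ * (∑ i ∈ Finset.range n, (d * ρ + 1) ^ i) ≡ 0 [MOD d * μ] := Nat.ModEq.add_right_cancel' 1 (by rw [zero_add]; exact h1)
    have h3 := (Nat.modEq_zero_iff_dvd).1 h2
    rw [mul_assoc] at h3
    exact (hcop.dvd_of_dvd_mul_left (Nat.dvd_of_mul_dvd_mul_left hd h3))
  obtain ⟨κ, hκ⟩ : μ ∣ Nat.gcd (d * μ) (∑ i ∈ Finset.range n, (d * ρ + 1) ^ i) := Nat.dvd_gcd (Dvd.intro_left d rfl) hμN
  have e1 : d * μ * l / d = μ * l := by rw [mul_assoc, Nat.mul_div_cancel_left _ hd]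
  have e2 : d * Nat.gcd (d * μ) (∑ i ∈ Finset.range n, (d * ρ + 1) ^ i) / (d * μ) = κ := by
    rw [hκ, ← mul_assoc, Nat.mul_div_cancel_left _ hm]
  rw [e1, e2]
  exact ⟨m_exist hd hμ0 hn hcop hrn hκ, fun Γ _ _ σ hσ => m_upper hd hμ0 hn hcop hrn hκ σ hσ⟩

end Cfsg.Agent.H9.SM
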