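import Cfsg.Agent.H9.SM.Cover
set_option autoImplicit false

/-! Refinement of covers; perfect groups. -/

namespace Cfsg.Agent.H9.SM
open Cfsg
open scoped commutatorElement
universe u v w

theorem cover_over {Q : Type u} [Group Q] [Finite Q] {A : Type v} [CommGroup A] (hA : HasSchurMultiplier Q A) {Δ : Type w} [Group Δ] [Finite Δ] (τ : Δ →* Q) (hτ : IsStemExtension τ) : ∃ (Γ : Type u) (_ : Group Γ) (_ : Finite Γ) (σ : Γ →* Q), IsStemExtension σ ∧ Nonempty (σ.ker ≃* A) ∧ ∃ β : Γ →* Δ, Function.Surjective β ∧ τ.comp β = σ := by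
  obtain ⟨η, hη⟩ := exists_lift (std Q) hτ.cext
  obtain ⟨C, hCn, hC, c1, c2, c3⟩ := exists_cover_over (std Q) (std_surj Q) hτ hη
  have hfin : Finite (FE (std Q) ⧸ C) := cov_finite (std Q) (std_surj Q) C hC c1 c2
  obtain ⟨e⟩ := cov_iso (std Q) C hC c1 c2
  obtain ⟨e2⟩ := has_iff.1 hA
  refine ⟨FE (std Q) ⧸ C, inferInstance, hfin, cov (std Q) C hC, cov_stem (std Q) (std_surj Q) C hC c2, ⟨(e2.trans e).symm⟩,
    QuotientGroup.lift C η (fun x hx => c3 hx), ?_, ?_⟩
  · intro y
    obtain ⟨x, hx⟩ := surj_of_stem hτ (pr_surj (std Q) (std_surj Q)) hη y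
    exact ⟨QuotientGroup.mk x, hx⟩
  · refine MonoidHom.ext fun x => ?_
    obtain ⟨x, rfl⟩ := QuotientGroup.mk_surjective x
    exact congrArg (fun f : FE (std Q) →* Q => f x) hη

/-- if the multiplier of the total space is trivial then the kernel is the multiplier -/
theorem iso_of_total {Q : Type u} [Group Q] [Finite Q] {Γ : Type v} [Group Γ] [Finite Γ] (σ : Γ →* Q) (hσ : IsStemExtension σ)
    (hΓ : HasCyclicSchurMultiplier Γ 1) : Nonempty (σ.ker ≃* Mu (std Q)) := by
  obtain ⟨η, hη⟩ := exists_lift (std Q) hσ.cext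
  have hs := surj_of_stem hσ (pr_surj (std Q) (std_surj Q)) hη
  have hk : η.ker ≤ (pr (std Q)).ker := by
    intro x hx
    rw [MonoidHom.mem_ker] at hx ⊢
    rw [← hη]; show σ (η x) = 1; rw [hx, map_one]
  have h1 : η.ker ⊓ commutator (FE (std Q)) = ⊥ := trivial_ext hΓ ⟨hs, hk.trans (pr_central _)⟩
  have h2 := Mu_map (std Q) (std_surj Q) hσ.cext hη
  rw [inf_eq_left.2 hσ.2.2] at h2
  let f : Mu (std Q) →* σ.ker := (η.comp (Mu (std Q)).subtype).codRestrict _ (fun x => by rw [h2]; exact ⟨x, x.2, rfl⟩)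
  refine ⟨(MulEquiv.ofBijective f ⟨?_, ?_⟩).symm⟩
  · rw [injective_iff_map_eq_one]
    intro x hx
    have h3 : η (x : FE (std Q)) = 1 := congrArg Subtype.val hx
    have h4 : (x : FE (std Q)) ∈ η.ker ⊓ commutator (FE (std Q)) := ⟨h3, x.2.2⟩
    rw [h1, Subgroup.mem_bot] at h4
    exact Subtype.ext h4
  · rintro ⟨x, hx⟩
    have hx' := hx
    rw [h2] at hx'
    obtain ⟨m, hm, rfl⟩ := hx'
    exact ⟨⟨m, hm⟩, rfl⟩

theorem total_trivial {Q : Type u} [Group Q] [Finite Q] {Γ : Type v} [Group Γ] [Finite Γ] (σ : Γ →* Q) (hσ : IsStemExtension σ)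
    (hΓ : HasCyclicSchurMultiplier Γ 1) {Δ : Type w} [Group Δ] (τ : Δ →* Q) (hτ : IsStemExtension τ) :
    ∃ π : σ.ker →* τ.ker, Function.Surjective π := by
  obtain ⟨e⟩ := iso_of_total σ hσ hΓ
  obtain ⟨f, hf⟩ := exists_surj_stem (std Q) (std_surj Q) hτ
  exact ⟨f.comp e.toMonoidHom, hf.comp e.surjective⟩

/-! ### perfect groups -/

/-- homomorphisms from a perfect group that agree modulo a central kernel agree -/
theorem lift_unique {G : Type u} {X : Type v} {Q : Type w} [Group G] [Group X] [Group Q] (hG : commutator G = ⊤) {ξ : X →* Q}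
    (hξ : ξ.ker ≤ Subgroup.center X) {η θ : G →* X} (h : ξ.comp η = ξ.comp θ) : η = θ := by
  have h1 : ∀ x, η x * (θ x)⁻¹ ∈ Subgroup.center X := by
    intro x
    apply hξ
    have : ξ (η x) = ξ (θ x) := congrArg (fun f : G →* Q => f x) h
    rw [MonoidHom.mem_ker, map_mul, map_inv, this, mul_inv_cancel]
  have h2 : commutator G ≤ (η.eqLocus θ) := by
    rw [commutator_def, Subgroup.commutator_le]
    intro a _ b _
    show η ⁅a, b⁆ = θ ⁅a, b⁆
    have e1 : η a = (η a * (θ a)⁻¹) * θ a := by group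
    have e2 : η b = (η b * (θ b)⁻¹) * θ b := by group
    rw [map_commutatorElement, map_commutatorElement, e1, e2, comm_eq_of_center (h1 a) (h1 b)]
  rw [hG] at h2
  exact MonoidHom.ext fun x => h2 (Subgroup.mem_top x)

theorem commutator_of_sup {G : Type u} [Group G] {H : Subgroup G} (h : ∀ x : G, ∃ z ∈ Subgroup.center G, ∃ y ∈ H, x = z * y) :
    commutator G = ⁅H, H⁆ := by
  apply le_antisymm
  · rw [commutator_def, Subgroup.commutator_le]
    intro a _ b _
    obtain ⟨z, hz, a', ha, rfl⟩ := h a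
    obtain ⟨y, hy, b', hb, rfl⟩ := h b
    rw [comm_eq_of_center hz hy]
    exact Subgroup.commutator_mem_commutator ha hb
  · rw [commutator_def]
    exact Subgroup.commutator_mono le_top le_top

theorem stem_perfect {G : Type u} {Γ : Type v} [Group G] [Group Γ] (hG : commutator G = ⊤) {σ : Γ →* G} (hσ : IsStemExtension σ) :
    commutator Γ = ⊤ := by
  rw [eq_top_iff]
  intro x _
  have h1 : (commutator Γ).map σ = ⊤ := by
    rw [← hG, commutator_def, Subgroup.map_commutator, commutator_def, ← MonoidHom.range_eq_map, MonoidHom.range_eq_top.2 hσ.1]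
  have h2 : σ x ∈ (commutator Γ).map σ := by rw [h1]; exact Subgroup.mem_top _
  obtain ⟨y, hy, h3⟩ := h2
  have h4 : x * y⁻¹ ∈ σ.ker := by rw [MonoidHom.mem_ker, map_mul, map_inv, h3, mul_inv_cancel]
  have h5 := (commutator Γ).mul_mem (hσ.2.2 h4) hy
  rwa [inv_mul_cancel_right] at h5

/-- in a perfect group, an element centralizing everything modulo the centre is central -/
theorem center_of_perfect {Γ : Type u} [Group Γ] (hΓ : commutator Γ = ⊤) {k : Γ} (h : ∀ x : Γ, ⁅x, k⁆ ∈ Subgroup.center Γ) : k ∈ Subgroup.center Γ := by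
  let f : Γ →* Γ :=
    { toFun := fun x => ⁅x, k⁆
      map_one' := by simp
      map_mul' := fun x y => by
        have e : ⁅x * y, k⁆ = x * ⁅y, k⁆ * x⁻¹ * ⁅x, k⁆ := by simp only [commutatorElement_def]; group
        rw [e, Subgroup.mem_center_iff.1 (h y) x, mul_inv_cancel_right, Subgroup.mem_center_iff.1 (h y)] }
  have h1 : commutator Γ ≤ f.ker := by
    rw [commutator_def, Subgroup.commutator_le]
    intro a _ b _
    rw [MonoidHom.mem_ker, map_commutatorElement, commutatorElement_eq_one_iff_mul_comm]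
    exact Subgroup.mem_center_iff.1 (h b) _
  rw [hΓ] at h1
  rw [Subgroup.mem_center_iff]
  intro x
  have h2 : ⁅x, k⁆ = 1 := h1 (Subgroup.mem_top x)
  exact commutatorElement_eq_one_iff_mul_comm.1 h2

theorem perfect_universal {Q : Type u} [Group Q] [Finite Q] (hQ : commutator Q = ⊤) : ∃ (G : Type u) (_ : Group G) (_ : Finite G) (π : G →* Q), commutator G = ⊤ ∧ Function.Surjective π ∧ π.ker ≤ Subgroup.center G ∧ ∀ (X : Type w) [Group X] (ξ : X →* Q), Function.Surjective ξ → ξ.ker ≤ Subgroup.center X → ∃! η : G →* X, ξ.comp η = π := by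
  set E := FE (std Q) with hE
  have hmap : (commutator E).map (pr (std Q)) = ⊤ := by
    rw [← hQ, commutator_def, Subgroup.map_commutator, commutator_def, ← MonoidHom.range_eq_map,
      MonoidHom.range_eq_top.2 (pr_surj (std Q) (std_surj Q))]
  have hdec : ∀ x : E, ∃ z ∈ Subgroup.center E, ∃ y ∈ commutator E, x = z * y := by
    intro x
    have h2 : pr (std Q) x ∈ (commutator E).map (pr (std Q)) := by rw [hmap]; exact Subgroup.mem_top _
    obtain ⟨y, hy, h3⟩ := h2
    refine ⟨x * y⁻¹, pr_central (std Q) ?_, y, hy, by group⟩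
    rw [MonoidHom.mem_ker, map_mul, map_inv, h3, mul_inv_cancel]
  have hperf : ⁅commutator E, commutator E⁆ = commutator E := (commutator_of_sup hdec).symm
  have hperf2 : commutator (commutator E) = ⊤ := by
    apply Subgroup.map_injective (commutator E).subtype_injective
    rw [Subgroup.map_subtype_commutator, hperf, ← MonoidHom.range_eq_map, Subgroup.range_subtype]
  let π : commutator E →* Q := (pr (std Q)).comp (commutator E).subtype
  have hπs : Function.Surjective π := by
    intro q
    have h2 : q ∈ (commutator E).map (pr (std Q)) := by rw [hmap]; exact Subgroup.mem_top _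
    obtain ⟨y, hy, h3⟩ := h2
    exact ⟨⟨y, hy⟩, h3⟩
  have hπk : π.ker ≤ Subgroup.center (commutator E) := by
    intro x hx
    have h1 : (x : E) ∈ (pr (std Q)).ker := hx
    rw [Subgroup.mem_center_iff]
    intro y
    exact Subtype.ext (Subgroup.mem_center_iff.1 (pr_central (std Q) h1) y)
  have : (Subgroup.center E).FiniteIndex := center_finiteIndex (std Q)
  refine ⟨commutator E, inferInstance, finite_commutator, π, hperf2, hπs, hπk, ?_⟩
  intro X _ ξ h1 h2
  obtain ⟨η, hη⟩ := exists_lift (std Q) (⟨h1, h2⟩ : CExt ξ)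
  have h3 : ξ.comp (η.comp (commutator E).subtype) = π := by
    rw [← MonoidHom.comp_assoc, hη]
  refine ⟨η.comp (commutator E).subtype, h3, ?_⟩
  intro θ hθ
  exact lift_unique hperf2 h2 (hθ.trans h3.symm)

theorem perfect_iff {G : Type u} {Q : Type v} [Group G] [Group Q] [Finite G] (hG : commutator G = ⊤) (π : G →* Q) (hπ : Function.Surjective π) (hker : π.ker ≤ Subgroup.center G) : (∀ (X : Type u) [Group X] (ξ : X →* Q), Function.Surjective ξ → ξ.ker ≤ Subgroup.center X → ∃ η : G →* X, ξ.comp η = π) ↔ HasCyclicSchurMultiplier G 1 := by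
  constructor
  · intro h
    apply trivial_of
    intro Γ _ _ σ hσ
    have hΓ := stem_perfect hG hσ
    have h1 : (π.comp σ).ker ≤ Subgroup.center Γ := by
      intro k hk
      apply center_of_perfect hΓ
      intro x
      apply hσ.2.1
      rw [MonoidHom.mem_ker, map_commutatorElement, commutatorElement_eq_one_iff_mul_comm]
      exact Subgroup.mem_center_iff.1 (hker hk) (σ x)
    obtain ⟨η, hη⟩ := h Γ (π.comp σ) (hπ.comp hσ.1) h1
    have h2 : σ.comp η = MonoidHom.id G := lift_unique hG hker hη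
    have h3 : ∀ x : Γ, ∃ z ∈ Subgroup.center Γ, ∃ y ∈ η.range, x = z * y := by
      intro x
      refine ⟨x * (η (σ x))⁻¹, hσ.2.1 ?_, η (σ x), ⟨_, rfl⟩, by group⟩
      rw [MonoidHom.mem_ker, map_mul, map_inv]
      have : σ (η (σ x)) = σ x := congrArg (fun f : G →* G => f (σ x)) h2
      rw [this, mul_inv_cancel]
    have h4 : commutator Γ ≤ η.range := by
      rw [commutator_of_sup h3, Subgroup.commutator_le]
      intro a ha b hb
      exact (η.range).mul_mem (η.range.mul_mem (η.range.mul_mem ha hb) (η.range.inv_mem ha)) (η.range.inv_mem hb)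
    rw [eq_bot_iff]
    intro x hx
    obtain ⟨g, rfl⟩ := h4 (hσ.2.2 hx)
    have h5 : σ (η g) = g := congrArg (fun f : G →* G => f g) h2
    have h6 : σ (η g) = 1 := hx
    rw [h5] at h6
    rw [h6, map_one]; exact Subgroup.one_mem _
  · intro h X _ ξ hξ1 hξ2
    -- the pullback
    let P : Subgroup (G × X) :=
      { carrier := {p | π p.1 = ξ p.2}
        mul_mem' := fun {a b} ha hb => by
          show π (a.1 * b.1) = ξ (a.2 * b.2)
          rw [map_mul, map_mul]
          have h1 : π a.1 = ξ a.2 := ha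
          have h2 : π b.1 = ξ b.2 := hb
          rw [h1, h2]
        one_mem' := by show π 1 = ξ 1; rw [map_one, map_one]
        inv_mem' := fun {a} ha => by
          show π a.1⁻¹ = ξ a.2⁻¹
          have h1 : π a.1 = ξ a.2 := ha
          rw [map_inv, map_inv, h1] }
    let f : P →* G := (MonoidHom.fst G X).comp P.subtype
    have hf : CExt f := by
      constructor
      · intro g
        obtain ⟨x, hx⟩ := hξ1 (π g)
        exact ⟨⟨(g, x), hx.symm⟩, rfl⟩
      · rintro ⟨⟨g, x⟩, hp⟩ hg
        have hg' : g = 1 := hg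
        subst hg'
        have hx : x ∈ ξ.ker := by
          have : π 1 = ξ x := hp
          rw [MonoidHom.mem_ker, ← this, map_one]
        rw [Subgroup.mem_center_iff]
        rintro ⟨⟨a, b⟩, hab⟩
        apply Subtype.ext
        show (a * 1, b * x) = (1 * a, x * b)
        rw [mul_one, one_mul, Subgroup.mem_center_iff.1 (hξ2 hx) b]
    have h1 := trivial_ext h hf
    let g : commutator P →* G := f.comp (commutator P).subtype
    have hg : Function.Bijective g := by
      constructor
      · rw [injective_iff_map_eq_one]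
        intro x hx
        have h4 : (x : P) ∈ f.ker ⊓ commutator P := ⟨hx, x.2⟩
        rw [h1, Subgroup.mem_bot] at h4
        exact Subtype.ext h4
      · intro x
        have h2 : (commutator P).map f = ⊤ := by
          rw [← hG, commutator_def, Subgroup.map_commutator, commutator_def, ← MonoidHom.range_eq_map, MonoidHom.range_eq_top.2 hf.1]
        have h3 : x ∈ (commutator P).map f := by rw [h2]; exact Subgroup.mem_top _
        obtain ⟨y, hy, h4⟩ := h3
        exact ⟨⟨y, hy⟩, h4⟩
    let e := MulEquiv.ofBijective g hg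
    refine ⟨((MonoidHom.snd G X).comp P.subtype).comp ((commutator P).subtype.comp e.symm.toMonoidHom), ?_⟩
    refine MonoidHom.ext fun x => ?_
    obtain ⟨y, rfl⟩ := e.surjective x
    show ξ ((((e.symm (e y)) : commutator P) : P) : G × X).2 = π (e y)
    rw [e.symm_apply_apply]
    exact (((y : P).2 : π _ = ξ _)).symm

end Cfsg.Agent.H9.SM
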