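import Cfsg.Agent.H9.SM.Two
import Mathlib.LinearAlgebra.TensorProduct.Basic
import Mathlib.RingTheory.TensorProduct.Finite
set_option autoImplicit false

/-! The multiplier of a direct product. -/

namespace Cfsg.Agent.H9.SM
open Cfsg
open scoped commutatorElement
universe u v w x y

/-- factoring a bimultiplicative map -/
theorem lift2 {G₁ : Type u} {G₂ : Type v} {A₁ : Type w} {A₂ : Type x} {Z : Type y} [Group G₁] [Group G₂] [Group A₁] [Group A₂] [CommGroup Z]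
    (p₁ : G₁ →* A₁) (p₂ : G₂ →* A₂) (hp₁ : Function.Surjective p₁) (hp₂ : Function.Surjective p₂) (c : G₁ →* G₂ →* Z)
    (h1 : p₁.ker ≤ c.ker) (h2 : ∀ g, p₂.ker ≤ (c g).ker) : ∃ F : A₁ →* A₂ →* Z, ∀ g h, F (p₁ g) (p₂ h) = c g h := by
  choose s₁ hs₁ using hp₁
  choose s₂ hs₂ using hp₂
  have e1 : ∀ g g' h, p₁ g = p₁ g' → c g h = c g' h := by
    intro g g' h hg
    have : g * g'⁻¹ ∈ c.ker := h1 (by rw [MonoidHom.mem_ker, map_mul, map_inv, hg, mul_inv_cancel])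
    rw [MonoidHom.mem_ker, map_mul, map_inv, mul_inv_eq_one] at this
    rw [this]
  have e2 : ∀ g h h', p₂ h = p₂ h' → c g h = c g h' := by
    intro g h h' hh
    have : h * h'⁻¹ ∈ (c g).ker := h2 g (by rw [MonoidHom.mem_ker, map_mul, map_inv, hh, mul_inv_cancel])
    rw [MonoidHom.mem_ker, map_mul, map_inv, mul_inv_eq_one] at this
    exact this
  refine ⟨MonoidHom.mk' (fun a => MonoidHom.mk' (fun b => c (s₁ a) (s₂ b)) ?_) ?_, ?_⟩
  · intro b b'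
    rw [← map_mul]
    exact e2 _ _ _ (by rw [map_mul, hs₂, hs₂, hs₂])
  · intro a a'
    ext b
    show c (s₁ (a * a')) (s₂ b) = c (s₁ a) (s₂ b) * c (s₁ a') (s₂ b)
    rw [← MonoidHom.mul_apply, ← map_mul]
    exact e1 _ _ _ (by rw [map_mul, hs₁, hs₁, hs₁])
  · intro g h
    show c (s₁ (p₁ g)) (s₂ (p₂ h)) = c g h
    rw [e1 _ g _ (hs₁ _), e2 _ _ h (hs₂ _)]

theorem ker_abel {G : Type u} {Q : Type v} {Z : Type w} [Group G] [Group Q] [CommGroup Z] {σ : G →* Q} (hσ : Function.Surjective σ)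
    (c : G →* Z) (h : σ.ker ≤ c.ker) : (Abelianization.of.comp σ).ker ≤ c.ker := by
  intro g hg
  have h1 : σ g ∈ commutator Q := (QuotientGroup.eq_one_iff _).1 hg
  let c' : Q →* Z := (σ.liftOfSurjective hσ) ⟨c, h⟩
  have h2 : c' (σ g) = c g := MonoidHom.liftOfRightInverse_comp_apply σ _ _ ⟨c, h⟩ g
  rw [MonoidHom.mem_ker, ← h2]
  exact Abelianization.commutator_subset_ker c' h1

/-- the tensor product of the abelianizations -/
abbrev TT (Q₁ : Type u) (Q₂ : Type v) [Group Q₁] [Group Q₂] : Type (max u v) :=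
  Multiplicative (TensorProduct ℤ (Additive (Abelianization Q₁)) (Additive (Abelianization Q₂)))

section
variable {Q₁ : Type u} {Q₂ : Type v} [Group Q₁] [Group Q₂]

/-- pure tensors -/
def tp (a : Q₁) (b : Q₂) : TT Q₁ Q₂ := Multiplicative.ofAdd ((Additive.ofMul (Abelianization.of a)) ⊗ₜ[ℤ] (Additive.ofMul (Abelianization.of b)))

theorem tp_mul_left (a a' : Q₁) (b : Q₂) : tp (a * a') b = tp a b * tp a' b := by
  unfold tp
  rw [map_mul, ofMul_mul, TensorProduct.add_tmul, ofAdd_add]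

theorem tp_mul_right (a : Q₁) (b b' : Q₂) : tp a (b * b') = tp a b * tp a b' := by
  unfold tp
  rw [map_mul, ofMul_mul, TensorProduct.tmul_add, ofAdd_add]

theorem tp_induction {P : TT Q₁ Q₂ → Prop} (h1 : P 1) (h2 : ∀ a b, P (tp a b)) (h3 : ∀ x y, P x → P y → P (x * y)) (t : TT Q₁ Q₂) : P t := by
  have : P (Multiplicative.ofAdd (Multiplicative.toAdd t)) := by
    induction Multiplicative.toAdd t using TensorProduct.induction_on with
    | zero => exact h1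
    | tmul a b =>
      obtain ⟨a, ha⟩ := QuotientGroup.mk_surjective (Additive.toMul a)
      obtain ⟨b, hb⟩ := QuotientGroup.mk_surjective (Additive.toMul b)
      have := h2 a b
      unfold tp at this
      convert this
      · exact ha.symm
      · exact hb.symm
    | add x y hx hy => exact h3 _ _ hx hy
  exact this

/-- the form on the product -/
def bt {Γ₁ : Type w} {Γ₂ : Type x} [Group Γ₁] [Group Γ₂] (σ₁ : Γ₁ →* Q₁) (σ₂ : Γ₂ →* Q₂) : Γ₁ × Γ₂ →* Γ₁ × Γ₂ →* TT Q₁ Q₂ :=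
  MonoidHom.mk' (fun g => MonoidHom.mk' (fun h => tp (σ₁ g.1) (σ₂ h.2)) (fun h h' => by
    show tp (σ₁ g.1) (σ₂ (h.2 * h'.2)) = _
    rw [map_mul, tp_mul_right])) (fun g g' => MonoidHom.ext fun h => by
    show tp (σ₁ (g.1 * g'.1)) (σ₂ h.2) = tp (σ₁ g.1) (σ₂ h.2) * tp (σ₁ g'.1) (σ₂ h.2)
    rw [map_mul, tp_mul_left])

theorem bt_apply {Γ₁ : Type w} {Γ₂ : Type x} [Group Γ₁] [Group Γ₂] (σ₁ : Γ₁ →* Q₁) (σ₂ : Γ₂ →* Q₂) (g h : Γ₁ × Γ₂) :
    bt σ₁ σ₂ g h = tp (σ₁ g.1) (σ₂ h.2) := rfl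

theorem tp_one_left (b : Q₂) : tp (1 : Q₁) b = 1 := by
  have := tp_mul_left (1 : Q₁) 1 b
  rw [mul_one] at this
  exact (mul_eq_left.1 this.symm)

theorem tp_one_right (a : Q₁) : tp a (1 : Q₂) = 1 := by
  have := tp_mul_right a (1 : Q₂) 1
  rw [mul_one] at this
  exact (mul_eq_left.1 this.symm)

instance [Finite Q₁] [Finite Q₂] : Finite (TT Q₁ Q₂) := by
  have h01 : Finite (Abelianization Q₁) := Finite.of_surjective (Abelianization.of : Q₁ → _) QuotientGroup.mk_surjective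
  have h02 : Finite (Abelianization Q₂) := Finite.of_surjective (Abelianization.of : Q₂ → _) QuotientGroup.mk_surjective
  have h1 : Finite (Additive (Abelianization Q₁)) := Finite.of_equiv (Abelianization Q₁) Additive.ofMul
  have h2 : Finite (Additive (Abelianization Q₂)) := Finite.of_equiv (Abelianization Q₂) Additive.ofMul
  have h0 : @Module.Finite ℤ (TensorProduct ℤ (Additive (Abelianization Q₁)) (Additive (Abelianization Q₂))) _ _ TensorProduct.instModule :=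
    Module.Finite.tensorProduct ℤ _ _
  have h3 : Finite (TensorProduct ℤ (Additive (Abelianization Q₁)) (Additive (Abelianization Q₂))) := by
    refine @Module.finite_of_fg_torsion _ TensorProduct.addCommGroup TensorProduct.instModule h0 ?_
    intro x
    refine ⟨⟨(Nat.card (Abelianization Q₁) : ℤ), ?_⟩, ?_⟩
    · rw [mem_nonZeroDivisors_iff_ne_zero]
      exact_mod_cast Nat.card_pos.ne'
    · show (Nat.card (Abelianization Q₁) : ℤ) • x = 0
      induction x using TensorProduct.induction_on with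
      | zero => rw [smul_zero]
      | tmul a b =>
        rw [TensorProduct.smul_tmul', natCast_zsmul]
        have : Nat.card (Abelianization Q₁) • a = 0 := by
          have := pow_card_eq_one' (x := Additive.toMul a)
          exact this
        rw [this, TensorProduct.zero_tmul]
      | add x y hx hy => rw [smul_add, hx, hy, add_zero]
  exact Finite.of_equiv _ Multiplicative.ofAdd

end

/-! ### existence -/
section exist
variable {Q₁ : Type u} {Q₂ : Type v} [Group Q₁] [Group Q₂] {Γ₁ : Type u} {Γ₂ : Type v} [Group Γ₁] [Group Γ₂] (σ₁ : Γ₁ →* Q₁) (σ₂ : Γ₂ →* Q₂)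

/-- the projection of the twisted product -/
def sg : Tw (bt σ₁ σ₂) →* Q₁ × Q₂ := (MonoidHom.prodMap σ₁ σ₂).comp (Tw.proj _)

variable {σ₁ σ₂}

theorem sg_ker {x : Tw (bt σ₁ σ₂)} : x ∈ (sg σ₁ σ₂).ker ↔ x.fst.1 ∈ σ₁.ker ∧ x.fst.2 ∈ σ₂.ker := by
  rw [MonoidHom.mem_ker]
  show (σ₁ x.fst.1, σ₂ x.fst.2) = (1, 1) ↔ _
  rw [Prod.mk.injEq]; rfl

theorem bt_left {g h : Γ₁ × Γ₂} (hg : g.1 ∈ σ₁.ker) : bt σ₁ σ₂ g h = 1 := by
  rw [bt_apply, MonoidHom.mem_ker.1 hg, tp_one_left]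

theorem bt_right {g h : Γ₁ × Γ₂} (hg : h.2 ∈ σ₂.ker) : bt σ₁ σ₂ g h = 1 := by
  rw [bt_apply, MonoidHom.mem_ker.1 hg, tp_one_right]

/-- first factor -/
def i1 (σ₁ : Γ₁ →* Q₁) (σ₂ : Γ₂ →* Q₂) : Γ₁ →* Tw (bt σ₁ σ₂) where
  toFun a := ⟨(a, 1), 1⟩
  map_one' := rfl
  map_mul' a b := by
    apply Tw.ext
    · simp
    · rw [Tw.mul_snd]
      show (1 : TT Q₁ Q₂) = 1 * 1 * bt σ₁ σ₂ (a, 1) (b, 1)
      rw [bt_right (Subgroup.one_mem _)]; simp

/-- second factor -/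
def i2 (σ₁ : Γ₁ →* Q₁) (σ₂ : Γ₂ →* Q₂) : Γ₂ →* Tw (bt σ₁ σ₂) where
  toFun a := ⟨(1, a), 1⟩
  map_one' := rfl
  map_mul' a b := by
    apply Tw.ext
    · simp
    · rw [Tw.mul_snd]
      show (1 : TT Q₁ Q₂) = 1 * 1 * bt σ₁ σ₂ (1, a) (1, b)
      rw [bt_left (Subgroup.one_mem _)]; simp

theorem map_comm_le {G : Type*} {H : Type*} [Group G] [Group H] (f : G →* H) : (commutator G).map f ≤ commutator H := by
  rw [commutator_def, Subgroup.map_commutator, commutator_def]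
  exact Subgroup.commutator_mono le_top le_top

theorem sg_stem (h1 : IsStemExtension σ₁) (h2 : IsStemExtension σ₂) : IsStemExtension (sg σ₁ σ₂) := by
  refine ⟨?_, ?_, ?_⟩
  · rintro ⟨a, b⟩
    obtain ⟨a', ha⟩ := h1.1 a
    obtain ⟨b', hb⟩ := h2.1 b
    exact ⟨⟨(a', b'), 1⟩, Prod.ext ha hb⟩
  · intro x hx
    rw [sg_ker] at hx
    rw [Subgroup.mem_center_iff]
    intro y
    apply Tw.ext
    · apply Prod.ext
      · exact Subgroup.mem_center_iff.1 (h1.2.1 hx.1) _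
      · exact Subgroup.mem_center_iff.1 (h2.2.1 hx.2) _
    · rw [Tw.mul_snd, Tw.mul_snd, bt_left hx.1, bt_right hx.2, mul_one, mul_one, mul_comm]
  · intro x hx
    rw [sg_ker] at hx
    have e : x = i1 σ₁ σ₂ x.fst.1 * i2 σ₁ σ₂ x.fst.2 * Tw.inj _ x.snd := by
      apply Tw.ext
      · apply Prod.ext
        · show x.fst.1 = x.fst.1 * 1 * 1
          rw [mul_one, mul_one]
        · show x.fst.2 = 1 * x.fst.2 * 1
          rw [mul_one, one_mul]
      · rw [Tw.mul_snd, Tw.mul_snd]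
        show x.snd = 1 * 1 * bt σ₁ σ₂ (x.fst.1, 1) (1, x.fst.2) * x.snd * bt σ₁ σ₂ _ 1
        rw [map_one, bt_left (g := (x.fst.1, 1)) hx.1]; simp
    rw [e]
    apply Subgroup.mul_mem _ (Subgroup.mul_mem _ _ _)
    · generalize x.snd = t
      induction t using tp_induction with
      | h1 => rw [map_one]; exact Subgroup.one_mem _
      | h2 a b =>
        obtain ⟨a', rfl⟩ := h1.1 a
        obtain ⟨b', rfl⟩ := h2.1 b
        have := Tw.inj_mem_commutator (β := bt σ₁ σ₂) (a', 1) (1, b') (by simp)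
        rw [bt_left (g := (1, b')) (Subgroup.one_mem _), inv_one, mul_one] at this
        exact this
      | h3 x y hx hy => rw [map_mul]; exact Subgroup.mul_mem _ hx hy
    · exact map_comm_le _ ⟨_, h1.2.2 hx.1, rfl⟩
    · exact map_comm_le _ ⟨_, h2.2.2 hx.2, rfl⟩

/-- the kernel -/
def sgKer {A B : Type*} [CommGroup A] [CommGroup B] (e₁ : σ₁.ker ≃* A) (e₂ : σ₂.ker ≃* B) : (sg σ₁ σ₂).ker ≃* A × B × TT Q₁ Q₂ where
  toFun x := (e₁ ⟨x.1.fst.1, (sg_ker.1 x.2).1⟩, e₂ ⟨x.1.fst.2, (sg_ker.1 x.2).2⟩, x.1.snd)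
  invFun y := ⟨⟨((e₁.symm y.1).1, (e₂.symm y.2.1).1), y.2.2⟩, sg_ker.2 ⟨(e₁.symm y.1).2, (e₂.symm y.2.1).2⟩⟩
  left_inv x := by
    apply Subtype.ext
    apply Tw.ext
    · apply Prod.ext
      · show (e₁.symm (e₁ _)).1 = _
        rw [e₁.symm_apply_apply]
      · show (e₂.symm (e₂ _)).1 = _
        rw [e₂.symm_apply_apply]
    · rfl
  right_inv y := by
    apply Prod.ext
    · show e₁ (e₁.symm y.1) = y.1
      rw [e₁.apply_symm_apply]
    · apply Prod.ext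
      · show e₂ (e₂.symm y.2.1) = y.2.1
        rw [e₂.apply_symm_apply]
      · rfl
  map_mul' x y := by
    apply Prod.ext
    · show e₁ _ = e₁ _ * e₁ _
      rw [← map_mul]; rfl
    · apply Prod.ext
      · show e₂ _ = e₂ _ * e₂ _
        rw [← map_mul]; rfl
      · show x.1.snd * y.1.snd * bt σ₁ σ₂ x.1.fst y.1.fst = x.1.snd * y.1.snd
        rw [bt_left (sg_ker.1 x.2).1, mul_one]

end exist

/-! ### upper bound -/

theorem prod_upper {Q₁ : Type u} {Q₂ : Type v} [Group Q₁] [Group Q₂] [Finite Q₁] [Finite Q₂] {A : Type w} {B : Type x} [CommGroup A] [CommGroup B]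
    (hA : HasSchurMultiplier Q₁ A) (hB : HasSchurMultiplier Q₂ B) {Γ : Type y} [Group Γ] (σ : Γ →* Q₁ × Q₂) (hσ : IsStemExtension σ) :
    ∃ π : A × B × TT Q₁ Q₂ →* σ.ker, Function.Surjective π := by
  have hcen : ∀ x : σ.ker, ∀ y : Γ, y * x = x * y := fun x => Subgroup.mem_center_iff.1 (hσ.2.1 x.2)
  let _ : CommGroup σ.ker := { (inferInstance : Group σ.ker) with mul_comm := fun a b => Subtype.ext ((hcen b a)) }
  set Γ₁ : Subgroup Γ := ((MonoidHom.snd Q₁ Q₂).comp σ).ker with hΓ₁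
  set Γ₂ : Subgroup Γ := ((MonoidHom.fst Q₁ Q₂).comp σ).ker with hΓ₂
  let σ₁ : Γ₁ →* Q₁ := ((MonoidHom.fst Q₁ Q₂).comp σ).comp Γ₁.subtype
  let σ₂ : Γ₂ →* Q₂ := ((MonoidHom.snd Q₁ Q₂).comp σ).comp Γ₂.subtype
  have k1 : ∀ g : Γ₁, (σ g).2 = 1 := fun g => g.2
  have k2 : ∀ g : Γ₂, (σ g).1 = 1 := fun g => g.2
  have m1 : ∀ g : Γ₁, g ∈ σ₁.ker → (g : Γ) ∈ σ.ker := fun g hg => Prod.ext hg (k1 g)
  have m2 : ∀ g : Γ₂, g ∈ σ₂.ker → (g : Γ) ∈ σ.ker := fun g hg => Prod.ext (k2 g) hg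
  have c1 : CExt σ₁ := by
    refine ⟨fun q => ?_, fun g hg => ?_⟩
    · obtain ⟨g, hg⟩ := hσ.1 (q, 1)
      exact ⟨⟨g, congrArg Prod.snd hg⟩, congrArg Prod.fst hg⟩
    · rw [Subgroup.mem_center_iff]
      intro y
      exact Subtype.ext (Subgroup.mem_center_iff.1 (hσ.2.1 (m1 g hg)) y)
  have c2 : CExt σ₂ := by
    refine ⟨fun q => ?_, fun g hg => ?_⟩
    · obtain ⟨g, hg⟩ := hσ.1 (1, q)
      exact ⟨⟨g, congrArg Prod.fst hg⟩, congrArg Prod.snd hg⟩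
    · rw [Subgroup.mem_center_iff]
      intro y
      exact Subtype.ext (Subgroup.mem_center_iff.1 (hσ.2.1 (m2 g hg)) y)
  obtain ⟨e1⟩ := has_iff.1 hA
  obtain ⟨e2⟩ := has_iff.1 hB
  obtain ⟨f1, hf1⟩ := exists_surj_Mu (std Q₁) (std_surj Q₁) c1
  obtain ⟨f2, hf2⟩ := exists_surj_Mu (std Q₂) (std_surj Q₂) c2
  -- inclusions into the kernel
  let j1 : ↥(σ₁.ker ⊓ commutator Γ₁) →* σ.ker :=
    { toFun := fun g => ⟨(g : Γ₁), m1 g g.2.1⟩, map_one' := rfl, map_mul' := fun _ _ => rfl }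
  let j2 : ↥(σ₂.ker ⊓ commutator Γ₂) →* σ.ker :=
    { toFun := fun g => ⟨(g : Γ₂), m2 g g.2.1⟩, map_one' := rfl, map_mul' := fun _ _ => rfl }
  -- the commutator pairing
  have hcom : ∀ (g : Γ₁) (h : Γ₂), ⁅(g : Γ), (h : Γ)⁆ ∈ σ.ker := by
    intro g h
    rw [MonoidHom.mem_ker, map_commutatorElement, commutatorElement_eq_one_iff_mul_comm]
    apply Prod.ext
    · rw [Prod.fst_mul, Prod.fst_mul, k2 h, mul_one, one_mul]
    · rw [Prod.snd_mul, Prod.snd_mul, k1 g, mul_one, one_mul]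
  let c : Γ₁ →* Γ₂ →* σ.ker :=
    MonoidHom.mk' (fun g => MonoidHom.mk' (fun h => ⟨⁅(g : Γ), (h : Γ)⁆, hcom g h⟩) (by
      intro h h'
      apply Subtype.ext
      show ⁅(g : Γ), (h : Γ) * h'⁆ = ⁅(g : Γ), (h : Γ)⁆ * ⁅(g : Γ), (h' : Γ)⁆
      have e : ⁅(g : Γ), (h : Γ) * h'⁆ = ⁅(g : Γ), (h : Γ)⁆ * (h * ⁅(g : Γ), (h' : Γ)⁆ * (h : Γ)⁻¹) := by
        simp only [commutatorElement_def]; group
      rw [e, hcen ⟨_, hcom g h'⟩ h, mul_inv_cancel_right])) (by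
      intro g g'
      refine MonoidHom.ext fun h => ?_
      apply Subtype.ext
      show ⁅(g : Γ) * g', (h : Γ)⁆ = ⁅(g : Γ), (h : Γ)⁆ * ⁅(g' : Γ), (h : Γ)⁆
      have e : ⁅(g : Γ) * g', (h : Γ)⁆ = (g * ⁅(g' : Γ), (h : Γ)⁆ * (g : Γ)⁻¹) * ⁅(g : Γ), (h : Γ)⁆ := by
        simp only [commutatorElement_def]; group
      rw [e, hcen ⟨_, hcom g' h⟩ g, mul_inv_cancel_right]
      exact hcen ⟨_, hcom g h⟩ _)
  have hc1 : σ₁.ker ≤ c.ker := by
    intro g hg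
    refine MonoidHom.ext fun h => ?_
    apply Subtype.ext
    show ⁅(g : Γ), (h : Γ)⁆ = 1
    exact commutatorElement_eq_one_iff_mul_comm.2 (hcen ⟨_, m1 g hg⟩ h).symm
  have hc2 : ∀ g, σ₂.ker ≤ (c g).ker := by
    intro g h hh
    apply Subtype.ext
    show ⁅(g : Γ), (h : Γ)⁆ = 1
    exact commutatorElement_eq_one_iff_mul_comm.2 (hcen ⟨_, m2 h hh⟩ g)
  obtain ⟨F, hF⟩ := lift2 (Abelianization.of.comp σ₁) (Abelianization.of.comp σ₂)
    (QuotientGroup.mk_surjective.comp c1.1) (QuotientGroup.mk_surjective.comp c2.1) c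
    (ker_abel c1.1 c hc1) (fun g => ker_abel c2.1 (c g) (hc2 g))
  let Fa : Additive (Abelianization Q₁) →+ Additive (Abelianization Q₂) →+ Additive σ.ker :=
    AddMonoidHom.mk' (fun a => MonoidHom.toAdditive (F (Additive.toMul a))) (by
      intro a b
      rw [toMul_add, map_mul]; rfl)
  let f3a : TensorProduct ℤ (Additive (Abelianization Q₁)) (Additive (Abelianization Q₂)) →+ Additive σ.ker :=
    TensorProduct.liftAddHom Fa (fun r m n => by
      rw [map_zsmul, map_zsmul]; rfl)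
  let f3 : TT Q₁ Q₂ →* σ.ker := AddMonoidHom.toMultiplicativeLeft f3a
  have hf3 : ∀ (g : Γ₁) (h : Γ₂), (f3 (tp (σ₁ g) (σ₂ h)) : Γ) = ⁅(g : Γ), (h : Γ)⁆ := by
    intro g h
    have := hF g h
    show ((Additive.toMul (f3a (Additive.ofMul (Abelianization.of (σ₁ g)) ⊗ₜ[ℤ] Additive.ofMul (Abelianization.of (σ₂ h)))) : σ.ker) : Γ) = _
    show ((F (Abelianization.of (σ₁ g)) (Abelianization.of (σ₂ h)) : σ.ker) : Γ) = _
    exact congrArg Subtype.val this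
  refine ⟨MonoidHom.coprod (j1.comp (f1.comp e1.toMonoidHom)) (MonoidHom.coprod (j2.comp (f2.comp e2.toMonoidHom)) f3), ?_⟩
  -- surjectivity
  have n1 : Γ₁.Normal := MonoidHom.normal_ker _
  have n2 : Γ₂.Normal := MonoidHom.normal_ker _
  have hgen : Subgroup.closure ((Γ₁ : Set Γ) ∪ Γ₂) = ⊤ := by
    rw [eq_top_iff]
    intro g _
    obtain ⟨g₁, hg₁⟩ := hσ.1 ((σ g).1, 1)
    have a1 : g₁ ∈ Γ₁ := congrArg Prod.snd hg₁
    have a2 : g₁⁻¹ * g ∈ Γ₂ := by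
      show (σ (g₁⁻¹ * g)).1 = 1
      rw [map_mul, map_inv, hg₁, Prod.fst_mul, Prod.fst_inv, inv_mul_cancel]
    have e : g = g₁ * (g₁⁻¹ * g) := by group
    rw [e]
    exact Subgroup.mul_mem _ (Subgroup.subset_closure (Or.inl a1)) (Subgroup.subset_closure (Or.inr a2))
  have hcommle : commutator Γ ≤ (⁅Γ₁, Γ₁⁆ ⊔ ⁅Γ₂, Γ₂⁆) ⊔ ⁅Γ₁, Γ₂⁆ := by
    apply comm_le_of_gen hgen
    rintro a (ha | ha) b (hb | hb)
    · exact (le_sup_left.trans le_sup_left : ⁅Γ₁, Γ₁⁆ ≤ _) (Subgroup.commutator_mem_commutator ha hb)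
    · exact (le_sup_right : ⁅Γ₁, Γ₂⁆ ≤ _) (Subgroup.commutator_mem_commutator ha hb)
    · have : ⁅b, a⁆ ∈ (⁅Γ₁, Γ₁⁆ ⊔ ⁅Γ₂, Γ₂⁆) ⊔ ⁅Γ₁, Γ₂⁆ := (le_sup_right : ⁅Γ₁, Γ₂⁆ ≤ _) (Subgroup.commutator_mem_commutator hb ha)
      rw [← commutatorElement_inv]; exact Subgroup.inv_mem _ this
    · exact (le_sup_right.trans le_sup_left : ⁅Γ₂, Γ₂⁆ ≤ _) (Subgroup.commutator_mem_commutator ha hb)
  have h12 : ⁅Γ₁, Γ₂⁆ ≤ f3.range.map σ.ker.subtype := by
    rw [Subgroup.commutator_le]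
    intro a ha b hb
    refine ⟨f3 (tp (σ₁ ⟨a, ha⟩) (σ₂ ⟨b, hb⟩)), ⟨_, rfl⟩, ?_⟩
    exact hf3 ⟨a, ha⟩ ⟨b, hb⟩
  rintro ⟨z, hz⟩
  obtain ⟨g12, hg12, t, ht, rfl⟩ := Subgroup.mem_sup_of_normal_left.1 (hcommle (hσ.2.2 hz))
  obtain ⟨g1, hg1, g2, hg2, rfl⟩ := Subgroup.mem_sup_of_normal_left.1 hg12
  obtain ⟨_, ⟨t, rfl⟩, rfl⟩ := h12 ht
  have hg1' : g1 ∈ Γ₁ := (Subgroup.commutator_le_left Γ₁ Γ₁) hg1
  have hg2' : g2 ∈ Γ₂ := (Subgroup.commutator_le_left Γ₂ Γ₂) hg2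
  have s1 : (σ g1).2 = 1 := hg1'
  have s2 : (σ g2).1 = 1 := hg2'
  have s3 : σ (f3 t : Γ) = 1 := (f3 t).2
  have s4 : σ (g1 * g2 * (f3 t : Γ)) = 1 := hz
  rw [map_mul, map_mul, s3, mul_one] at s4
  have s5 : (σ g1).1 = 1 := by
    have := congrArg Prod.fst s4
    rw [Prod.fst_mul, s2, mul_one] at this; exact this
  have s6 : (σ g2).2 = 1 := by
    have := congrArg Prod.snd s4
    rw [Prod.snd_mul, s1, one_mul] at this; exact this
  rw [← Subgroup.map_subtype_commutator] at hg1 hg2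
  obtain ⟨g1', hg1c, rfl⟩ := hg1
  obtain ⟨g2', hg2c, rfl⟩ := hg2
  obtain ⟨a, ha⟩ := hf1 ⟨g1', ⟨s5, hg1c⟩⟩
  obtain ⟨b, hb⟩ := hf2 ⟨g2', ⟨s6, hg2c⟩⟩
  refine ⟨(e1.symm a, e2.symm b, t), ?_⟩
  apply Subtype.ext
  show ((j1 (f1 (e1 (e1.symm a))) : σ.ker) : Γ) * (((j2 (f2 (e2 (e2.symm b))) : σ.ker) : Γ) * ((f3 t : σ.ker) : Γ)) = _
  rw [e1.apply_symm_apply, e2.apply_symm_apply, ha, hb, ← mul_assoc]
  rfl

theorem prod_has {Q₁ : Type u} {Q₂ : Type v} [Group Q₁] [Group Q₂] [Finite Q₁] [Finite Q₂] {A : Type w} {B : Type x} [CommGroup A] [CommGroup B]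
    (hA : HasSchurMultiplier Q₁ A) (hB : HasSchurMultiplier Q₂ B) : HasSchurMultiplier (Q₁ × Q₂) (A × B × TT Q₁ Q₂) := by
  refine ⟨?_, fun Γ _ _ σ hσ => prod_upper hA hB σ hσ⟩
  obtain ⟨⟨Γ₁, _, _, σ₁, h1, ⟨e1⟩⟩, _⟩ := hA
  obtain ⟨⟨Γ₂, _, _, σ₂, h2, ⟨e2⟩⟩, _⟩ := hB
  exact ⟨Tw (bt σ₁ σ₂), inferInstance, inferInstance, sg σ₁ σ₂, sg_stem h1 h2, ⟨sgKer e1 e2⟩⟩

theorem has_congr {Q : Type u} [Group Q] {A : Type v} {B : Type w} [CommGroup A] [CommGroup B] (e : A ≃* B) (h : HasSchurMultiplier Q A) :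
    HasSchurMultiplier Q B := by
  obtain ⟨⟨Γ, i1, i2, σ, hσ, ⟨e'⟩⟩, h2⟩ := h
  refine ⟨⟨Γ, i1, i2, σ, hσ, ⟨e'.trans e⟩⟩, fun Δ _ _ τ hτ => ?_⟩
  obtain ⟨π, hπ⟩ := h2 Δ τ hτ
  exact ⟨π.comp e.symm.toMonoidHom, hπ.comp e.symm.surjective⟩

theorem TT_trivial {Q₁ : Type u} {Q₂ : Type v} [Group Q₁] [Group Q₂] [Finite Q₁] [Finite Q₂]
    (hcop : Nat.Coprime (Nat.card (Abelianization Q₁)) (Nat.card (Abelianization Q₂))) : Subsingleton (TT Q₁ Q₂) := by
  refine ⟨fun x y => ?_⟩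
  have h : ∀ t : TT Q₁ Q₂, t = 1 := by
    intro t
    induction t using tp_induction with
    | h1 => rfl
    | h2 a b =>
      have p1 : ∀ k : ℕ, tp a b ^ k = tp (a ^ k) b := by
        intro k
        induction k with
        | zero => rw [pow_zero, pow_zero, tp_one_left]
        | succ k ih => rw [pow_succ, pow_succ, tp_mul_left, ih]
      have p2 : ∀ k : ℕ, tp a b ^ k = tp a (b ^ k) := by
        intro k
        induction k with
        | zero => rw [pow_zero, pow_zero, tp_one_right]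
        | succ k ih => rw [pow_succ, pow_succ, tp_mul_right, ih]
      have q1 : tp a b ^ Nat.card (Abelianization Q₁) = 1 := by
        rw [p1]
        have : Abelianization.of (a ^ Nat.card (Abelianization Q₁)) = 1 := by rw [map_pow, pow_card_eq_one']
        unfold tp
        rw [this, ofMul_one, TensorProduct.zero_tmul, ofAdd_zero]
      have q2 : tp a b ^ Nat.card (Abelianization Q₂) = 1 := by
        rw [p2]
        have : Abelianization.of (b ^ Nat.card (Abelianization Q₂)) = 1 := by rw [map_pow, pow_card_eq_one']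
        unfold tp
        rw [this, ofMul_one, TensorProduct.tmul_zero, ofAdd_zero]
      have := Nat.dvd_gcd (orderOf_dvd_of_pow_eq_one q1) (orderOf_dvd_of_pow_eq_one q2)
      rw [hcop] at this
      exact orderOf_eq_one_iff.1 (Nat.dvd_one.1 this)
    | h3 x y hx hy => rw [hx, hy, mul_one]
  rw [h x, h y]

theorem prod_coprime {Q₁ : Type u} {Q₂ : Type v} [Group Q₁] [Group Q₂] [Finite Q₁] [Finite Q₂] {A : Type w} {B : Type x} [CommGroup A] [CommGroup B]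
    (hA : HasSchurMultiplier Q₁ A) (hB : HasSchurMultiplier Q₂ B)
    (hcop : Nat.Coprime (Nat.card (Abelianization Q₁)) (Nat.card (Abelianization Q₂))) : HasSchurMultiplier (Q₁ × Q₂) (A × B) := by
  have := TT_trivial hcop
  refine has_congr ?_ (prod_has hA hB)
  exact
    { toFun := fun x => (x.1, x.2.1)
      invFun := fun x => (x.1, x.2, 1)
      left_inv := fun x => by
        apply Prod.ext
        · rfl
        · apply Prod.ext
          · rfl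
          · exact Subsingleton.elim _ _
      right_inv := fun x => rfl
      map_mul' := fun x y => rfl }

end Cfsg.Agent.H9.SM
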