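import Cfsg.Agent.H9.SM.Tra
import Mathlib.GroupTheory.PresentedGroup
import Mathlib.GroupTheory.Rank
import Mathlib.LinearAlgebra.Dimension.Localization
set_option autoImplicit false

/-! Relators and generators. -/

namespace Cfsg.Agent.H9.SM
open Cfsg
open scoped commutatorElement
universe u v w x y

/-- exponent sums -/
noncomputable def esum (α : Type u) : FreeGroup α →* Multiplicative (α →₀ ℤ) :=
  (AddMonoidHom.toMultiplicative (FreeAbelianGroup.toFinsupp : FreeAbelianGroup α →+ (α →₀ ℤ))).comp
    ((MulEquiv.refl _).toMonoidHom.comp (Abelianization.of : FreeGroup α →* Abelianization (FreeGroup α)))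

theorem esum_ker {α : Type u} {x : FreeGroup α} (h : esum α x = 1) : x ∈ commutator (FreeGroup α) := by
  have h1 : FreeAbelianGroup.toFinsupp (Additive.ofMul (Abelianization.of x) : FreeAbelianGroup α) = 0 := h
  obtain ⟨y, hy⟩ : ∃ y : FreeAbelianGroup α, y = Additive.ofMul (Abelianization.of x) := ⟨_, rfl⟩
  have h2 : FreeAbelianGroup.toFinsupp y = 0 := by rw [hy]; exact h1
  have h3' : y = 0 := by
    apply (FreeAbelianGroup.equivFinsupp α).injective
    rw [map_zero]; exact h2
  have h3 : (Additive.ofMul (Abelianization.of x) : FreeAbelianGroup α) = 0 := hy.symm.trans h3'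
  have h4 : Abelianization.of x = 1 := h3
  exact (QuotientGroup.eq_one_iff _).1 h4

theorem esum_of {α : Type u} (a : α) : esum α (FreeGroup.of a) = Multiplicative.ofAdd (Finsupp.single a 1) := by
  have : FreeAbelianGroup.toFinsupp (FreeAbelianGroup.of a) = Finsupp.single a (1 : ℤ) := FreeAbelianGroup.toFinsupp_of a
  exact this

theorem esum_comm {α : Type u} {x : FreeGroup α} (h : x ∈ commutator (FreeGroup α)) : esum α x = 1 :=
  Abelianization.commutator_subset_ker _ h

section
variable {α : Type u} {Q : Type v} [Group Q] (π : FreeGroup α →* Q)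

/-- exponent sums on `F/[R,F]` -/
noncomputable def esE : FE π →* Multiplicative (α →₀ ℤ) := QuotientGroup.lift _ (esum α) (fun x hx => by
  apply esum_comm
  exact (Subgroup.commutator_mono le_top le_rfl : ⁅π.ker, (⊤ : Subgroup (FreeGroup α))⁆ ≤ commutator (FreeGroup α)) hx)

theorem esE_ker {x : FE π} : esE π x = 1 ↔ x ∈ commutator (FE π) := by
  obtain ⟨x, rfl⟩ := QuotientGroup.mk_surjective x
  rw [mem_commutator_FE]
  exact ⟨esum_ker, esum_comm⟩

end

/-- the kernel is generated by the relators -/
theorem ker_gen {α : Type u} (rels : Set (FreeGroup α)) :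
    (pr (PresentedGroup.mk rels)).ker = Subgroup.closure ((QuotientGroup.mk : FreeGroup α → FE (PresentedGroup.mk rels)) '' rels) := by
  have hk : (PresentedGroup.mk rels).ker = Subgroup.normalClosure rels := QuotientGroup.ker_mk' _
  apply le_antisymm
  · intro x hx
    obtain ⟨x, rfl⟩ := QuotientGroup.mk_surjective x
    have hx' : x ∈ Subgroup.normalClosure rels := by rw [← hk]; exact hx
    have hcen : Subgroup.closure ((QuotientGroup.mk : FreeGroup α → FE (PresentedGroup.mk rels)) '' rels) ≤ Subgroup.center _ := by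
      rw [Subgroup.closure_le]
      rintro _ ⟨r, hr, rfl⟩
      apply pr_central
      show PresentedGroup.mk rels r = 1
      have : r ∈ (PresentedGroup.mk rels).ker := by rw [hk]; exact Subgroup.subset_normalClosure hr
      exact this
    have hN := central_normal hcen
    have : Subgroup.normalClosure rels ≤ (Subgroup.closure ((QuotientGroup.mk : FreeGroup α → FE (PresentedGroup.mk rels)) '' rels)).comap (QuotientGroup.mk' _) := by
      apply Subgroup.normalClosure_le_normal
      intro r hr
      exact Subgroup.subset_closure ⟨r, hr, rfl⟩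
    exact this hx'
  · rw [Subgroup.closure_le]
    rintro _ ⟨r, hr, rfl⟩
    show PresentedGroup.mk rels r = 1
    have : r ∈ (PresentedGroup.mk rels).ker := by rw [hk]; exact Subgroup.subset_normalClosure hr
    exact this

theorem rank_bound (n : ℕ) (rels : Finset (FreeGroup (Fin n))) [Finite (PresentedGroup (rels : Set (FreeGroup (Fin n))))] {A : Type u} [CommGroup A] [Finite A]
    (hA : HasSchurMultiplier (PresentedGroup (rels : Set (FreeGroup (Fin n)))) A) : Group.rank A ≤ rels.card - n := by
  classical
  set π := PresentedGroup.mk (rels : Set (FreeGroup (Fin n))) with hπd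
  have hπ : Function.Surjective π := QuotientGroup.mk'_surjective _
  obtain ⟨eA⟩ := has_iso hA hπ
  let _ : CommGroup (pr π).ker :=
    { (inferInstance : Group (pr π).ker) with mul_comm := fun a b => Subtype.ext (Subgroup.mem_center_iff.1 (pr_central π b.2) a) }
  have hkg : (pr π).ker = Subgroup.closure ((QuotientGroup.mk : FreeGroup (Fin n) → FE π) '' (rels : Set (FreeGroup (Fin n)))) := ker_gen _
  have hrel : ∀ r : rels, (QuotientGroup.mk (r : FreeGroup (Fin n)) : FE π) ∈ (pr π).ker := by
    intro r
    rw [hkg]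
    exact Subgroup.subset_closure ⟨r, r.2, rfl⟩
  let V := rels → ℤ
  let f : V →ₗ[ℤ] Additive (pr π).ker := Fintype.linearCombination ℤ (fun r : rels => Additive.ofMul (⟨_, hrel r⟩ : (pr π).ker))
  have hf : Function.Surjective f := by
    rw [← LinearMap.range_eq_top, Fintype.range_linearCombination, eq_top_iff]
    rintro x -
    obtain ⟨x, hx⟩ := x
    have key : ∀ y ∈ Subgroup.closure ((QuotientGroup.mk : FreeGroup (Fin n) → FE π) '' (rels : Set (FreeGroup (Fin n)))),
        ∃ h : y ∈ (pr π).ker, Additive.ofMul (⟨y, h⟩ : (pr π).ker) ∈ Submodule.span ℤ (Set.range (fun r : rels => Additive.ofMul (⟨_, hrel r⟩ : (pr π).ker))) := by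
      intro y hy
      induction hy using Subgroup.closure_induction with
      | mem y hy =>
        obtain ⟨r, hr, rfl⟩ := hy
        exact ⟨hrel ⟨r, hr⟩, Submodule.subset_span ⟨⟨r, hr⟩, rfl⟩⟩
      | one => exact ⟨Subgroup.one_mem _, Submodule.zero_mem _⟩
      | mul a b _ _ ha hb =>
        obtain ⟨h1, h2⟩ := ha
        obtain ⟨h3, h4⟩ := hb
        exact ⟨Subgroup.mul_mem _ h1 h3, Submodule.add_mem _ h2 h4⟩
      | inv a _ ha =>
        obtain ⟨h1, h2⟩ := ha
        exact ⟨Subgroup.inv_mem _ h1, Submodule.neg_mem _ h2⟩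
    have hx' := hx
    rw [hkg] at hx'
    exact (key x hx').2
  let χ : Additive (pr π).ker →ₗ[ℤ] (Fin n →₀ ℤ) := (MonoidHom.toAdditiveLeft ((esE π).comp (pr π).ker.subtype)).toIntLinearMap
  let ψ : V →ₗ[ℤ] (Fin n →₀ ℤ) := χ.comp f
  -- the range has rank `n`
  have hN : 0 < Nat.card (PresentedGroup (rels : Set (FreeGroup (Fin n)))) := Nat.card_pos
  obtain ⟨N, hNd⟩ : ∃ N, N = Nat.card (PresentedGroup (rels : Set (FreeGroup (Fin n)))) := ⟨_, rfl⟩
  rw [← hNd] at hN
  have hmem : ∀ v : Fin n →₀ ℤ, (N : ℤ) • v ∈ LinearMap.range ψ := by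
    have hb : ∀ i : Fin n, (N : ℤ) • (Finsupp.single i (1 : ℤ)) ∈ LinearMap.range ψ := by
      intro i
      have h1 : (QuotientGroup.mk (FreeGroup.of i ^ N) : FE π) ∈ (pr π).ker := by
        show π (FreeGroup.of i ^ N) = 1
        rw [map_pow, hNd, pow_card_eq_one']
      obtain ⟨v, hv⟩ := hf (Additive.ofMul ⟨_, h1⟩)
      refine ⟨v, ?_⟩
      show χ (f v) = _
      rw [hv]
      show Multiplicative.toAdd (esum (Fin n) (FreeGroup.of i ^ N)) = _
      rw [map_pow, esum_of, ← ofAdd_nsmul, toAdd_ofAdd, natCast_zsmul]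
    intro v
    induction v using Finsupp.induction_linear with
    | zero => rw [smul_zero]; exact Submodule.zero_mem _
    | add v w hv hw => rw [smul_add]; exact Submodule.add_mem _ hv hw
    | single i a =>
      have : (Finsupp.single i a : Fin n →₀ ℤ) = a • Finsupp.single i (1 : ℤ) := by
        rw [Finsupp.smul_single, smul_eq_mul, mul_one]
      rw [this, smul_comm]
      exact Submodule.smul_mem _ _ (hb i)
  have hrange : n ≤ Module.finrank ℤ (LinearMap.range ψ) := by
    let g : (Fin n →₀ ℤ) →ₗ[ℤ] LinearMap.range ψ := ((N : ℤ) • LinearMap.id).codRestrict _ hmem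
    have hg : Function.Injective g := by
      intro a b hab
      have h1 : (N : ℤ) • a = (N : ℤ) • b := congrArg Subtype.val hab
      exact smul_right_injective _ (by exact_mod_cast hN.ne') h1
    have := LinearMap.finrank_le_finrank_of_injective hg
    simpa using this
  have hsum : Module.finrank ℤ (LinearMap.range ψ) + Module.finrank ℤ (LinearMap.ker ψ) = rels.card := by
    have h1 := LinearMap.rank_range_add_rank_ker ψ
    rw [← Module.finrank_eq_rank, ← Module.finrank_eq_rank, ← Module.finrank_eq_rank] at h1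
    have h2 : Module.finrank ℤ (LinearMap.range ψ) + Module.finrank ℤ (LinearMap.ker ψ) = Module.finrank ℤ V := by exact_mod_cast h1
    rw [h2]
    show Module.finrank ℤ (rels → ℤ) = _
    rw [Module.finrank_fintype_fun_eq_card, Fintype.card_coe]
  set d := Module.finrank ℤ (LinearMap.ker ψ) with hd
  let b : Module.Basis (Fin d) ℤ (LinearMap.ker ψ) := Module.finBasis ℤ _
  -- the elements of the multiplier
  have hmu : ∀ v : LinearMap.ker ψ, ((Additive.toMul (f (v : V)) : (pr π).ker) : FE π) ∈ Mu π := by
    intro v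
    refine ⟨(Additive.toMul (f (v : V))).2, ?_⟩
    have : χ (f (v : V)) = 0 := v.2
    exact (esE_ker π).1 this
  let θ : Multiplicative (LinearMap.ker ψ) →* Mu π :=
    { toFun := fun v => ⟨_, hmu (Multiplicative.toAdd v)⟩
      map_one' := by
        apply Subtype.ext
        show ((Additive.toMul (f ((0 : LinearMap.ker ψ) : V)) : (pr π).ker) : FE π) = 1
        rw [Submodule.coe_zero, map_zero]; rfl
      map_mul' := fun v w => by
        apply Subtype.ext
        show ((Additive.toMul (f ((Multiplicative.toAdd v + Multiplicative.toAdd w : LinearMap.ker ψ) : V)) : (pr π).ker) : FE π) = _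
        rw [Submodule.coe_add, map_add]; rfl }
  have hθ : Function.Surjective θ := by
    rintro ⟨x, hx1, hx2⟩
    obtain ⟨v, hv⟩ := hf (Additive.ofMul ⟨x, hx1⟩)
    have h1 : v ∈ LinearMap.ker ψ := by
      show χ (f v) = 0
      rw [hv]
      exact (esE_ker π).2 hx2
    refine ⟨Multiplicative.ofAdd ⟨v, h1⟩, ?_⟩
    apply Subtype.ext
    show ((Additive.toMul (f v) : (pr π).ker) : FE π) = x
    rw [hv]; rfl
  let θ' : Multiplicative (LinearMap.ker ψ) →* A := eA.symm.toMonoidHom.comp θ
  have hθ' : Function.Surjective θ' := eA.symm.surjective.comp hθ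
  let S : Finset A := Finset.univ.image (fun i : Fin d => θ' (Multiplicative.ofAdd (b i)))
  have hS : Subgroup.closure (S : Set A) = ⊤ := by
    rw [eq_top_iff]
    intro a _
    obtain ⟨v, hv⟩ := hθ' a
    have h2 : v = ∏ i : Fin d, (Multiplicative.ofAdd (b i)) ^ (b.repr (Multiplicative.toAdd v) i) := by
      apply Multiplicative.toAdd.injective
      rw [toAdd_prod]
      conv_lhs => rw [← b.sum_repr (Multiplicative.toAdd v)]
      rfl
    rw [← hv, h2, map_prod]
    apply Subgroup.prod_mem
    intro i _
    rw [map_zpow]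
    apply Subgroup.zpow_mem
    exact Subgroup.subset_closure (by simp [S])
  have h3 := Group.rank_le hS
  have h4 : S.card ≤ d := Finset.card_image_le.trans (by simp)
  omega

end Cfsg.Agent.H9.SM
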