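import Cfsg.Agent.H9.SM.Tra
import Mathlib.Algebra.Category.Grp.Injective
import Mathlib.LinearAlgebra.Matrix.GeneralLinearGroup.Basic
set_option autoImplicit false

/-! Projective representations. -/

namespace Cfsg.Agent.H9.SM
open Cfsg Matrix
open scoped commutatorElement
universe u v w x y

/-- the kernel of the map to a cover meets the commutator subgroup trivially -/
theorem cover_ker {α : Type w} {Q : Type u} [Group Q] [Finite Q] {A : Type v} [CommGroup A] (hA : HasSchurMultiplier Q A) {π : FreeGroup α →* Q}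
    (hπ : Function.Surjective π) {Γ : Type x} [Group Γ] {σ : Γ →* Q} (hσ : IsStemExtension σ) (e : Nonempty (σ.ker ≃* A)) {η : FE π →* Γ}
    (hη : σ.comp η = pr π) : η.ker ⊓ commutator (FE π) = ⊥ := by
  obtain ⟨e⟩ := e
  obtain ⟨eA⟩ := has_iso hA hπ
  have hc1 : η.ker ≤ (pr π).ker := by
    intro x hx
    rw [MonoidHom.mem_ker] at hx
    rw [MonoidHom.mem_ker, ← hη]; show σ (η x) = 1; rw [hx, map_one]
  have hm1 := Mu_map π hπ hσ.cext hη
  rw [inf_eq_left.2 hσ.2.2] at hm1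
  have hbij : Function.Bijective (fun x : Mu π => (⟨η x, by rw [hm1]; exact ⟨x, x.2, rfl⟩⟩ : σ.ker)) := by
    rw [Nat.bijective_iff_surjective_and_card]
    refine ⟨?_, Nat.card_congr (eA.symm.trans e.symm).toEquiv⟩
    rintro ⟨y, hy⟩
    have hy' := hy
    rw [hm1] at hy'
    obtain ⟨m, hm, rfl⟩ := hy'
    exact ⟨⟨m, hm⟩, rfl⟩
  rw [eq_bot_iff]
  rintro x ⟨hx1, hx2⟩
  have hx3 : x ∈ Mu π := ⟨hc1 hx1, hx2⟩
  have h3 := hbij.1 (a₁ := ⟨x, hx3⟩) (a₂ := 1) (Subtype.ext (by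
    show η x = η 1
    rw [map_one]; exact hx1))
  rw [Subgroup.mem_bot]
  exact congrArg Subtype.val h3

theorem root_units (u : ℂˣ) {n : ℕ} (hn : n ≠ 0) : ∃ v : ℂˣ, v ^ n = u := by
  obtain ⟨z, hz⟩ := IsAlgClosed.exists_pow_nat_eq (u : ℂ) (Nat.pos_of_ne_zero hn)
  have hz0 : z ≠ 0 := by
    rintro rfl
    rw [zero_pow hn] at hz
    exact u.ne_zero hz.symm
  exact ⟨Units.mk0 z hz0, Units.ext (by rw [Units.val_pow_eq_pow_val]; exact hz)⟩

/-- homomorphisms into quotients of `ℂˣ` extend -/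
theorem ext_divisible {E : Type} [CommGroup E] {C : Type} [CommGroup C] (i : C →* E) (hi : Function.Injective i) {Z : Type} [CommGroup Z]
    (t : ℂˣ →* Z) (ht : Function.Surjective t) (f : C →* Z) : ∃ g : E →* Z, ∀ c, g (i c) = f c := by
  have hroot : ∀ (z : Z) (n : ℕ), n ≠ 0 → ∃ w : Z, w ^ n = z := by
    intro z n hn
    obtain ⟨u, rfl⟩ := ht z
    obtain ⟨v, rfl⟩ := root_units u hn
    exact ⟨t v, by rw [map_pow]⟩
  let d : DivisibleBy (Additive Z) ℕ :=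
    { div := fun z n => if h : n = 0 then 0 else Additive.ofMul (hroot (Additive.toMul z) n h).choose
      div_zero := fun z => by simp
      div_cancel := fun {n} z hn => by
        rw [dif_neg hn]
        exact (hroot (Additive.toMul z) n hn).choose_spec }
  let d' : DivisibleBy (Additive Z) ℤ := AddGroup.divisibleByIntOfDivisibleByNat (Additive Z)
  have hb : Module.Baer ℤ (Additive Z) := Module.Baer.of_divisible (Additive Z)
  obtain ⟨g, hg⟩ := hb.extension_property_addMonoidHom (MonoidHom.toAdditive i) hi (MonoidHom.toAdditive f)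
  refine ⟨MonoidHom.toAdditive.symm g, fun c => ?_⟩
  exact congrArg (fun k : Additive C →+ Additive Z => k (Additive.ofMul c)) hg

/-- the projective general linear group -/
abbrev PG (n : ℕ) := GL (Fin n) ℂ ⧸ Subgroup.center (GL (Fin n) ℂ)

theorem exists_pres (Q : Type u) [Group Q] [Finite Q] : ∃ π : FreeGroup (Fin (Nat.card Q)) →* Q, Function.Surjective π := by
  let e : Fin (Nat.card Q) ≃ Q := (Finite.equivFin Q).symm
  refine ⟨FreeGroup.lift e, fun q => ⟨FreeGroup.of (e.symm q), by simp⟩⟩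

theorem lift_proj {Q : Type u} [Group Q] [Finite Q] {A : Type v} [CommGroup A] (hA : HasSchurMultiplier Q A) {Γ : Type w} [Group Γ] (σ : Γ →* Q)
    (hσ : IsStemExtension σ) (hk : Nonempty (σ.ker ≃* A)) (n : ℕ) (γ : Q →* PG n) :
    ∃ ρ : Γ →* GL (Fin n) ℂ, (QuotientGroup.mk' (Subgroup.center (GL (Fin n) ℂ))).comp ρ = γ.comp σ := by
  obtain ⟨π, hπ⟩ := exists_pres Q
  obtain ⟨η, hη⟩ := exists_lift π hσ.cext
  have hs := surj_of_stem hσ (pr_surj π hπ) hη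
  have hC := cover_ker hA hπ hσ hk hη
  -- the pullback
  let X : Subgroup (GL (Fin n) ℂ × Q) :=
    { carrier := {p | (QuotientGroup.mk p.1 : PG n) = γ p.2}
      mul_mem' := fun {a b} ha hb => by
        have h1 : (QuotientGroup.mk a.1 : PG n) = γ a.2 := ha
        have h2 : (QuotientGroup.mk b.1 : PG n) = γ b.2 := hb
        show (QuotientGroup.mk (a.1 * b.1) : PG n) = γ (a.2 * b.2)
        rw [map_mul, ← h1, ← h2]; rfl
      one_mem' := by show (QuotientGroup.mk 1 : PG n) = γ 1; rw [map_one]; rfl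
      inv_mem' := fun {a} ha => by
        have h1 : (QuotientGroup.mk a.1 : PG n) = γ a.2 := ha
        show (QuotientGroup.mk a.1⁻¹ : PG n) = γ a.2⁻¹
        rw [map_inv, ← h1]; rfl }
  let ξ : X →* Q := (MonoidHom.snd _ _).comp X.subtype
  have hξ : CExt ξ := by
    constructor
    · intro q
      obtain ⟨g, hg⟩ := QuotientGroup.mk_surjective (γ q)
      exact ⟨⟨(g, q), hg⟩, rfl⟩
    · rintro ⟨⟨g, q⟩, hp⟩ hq
      have hq' : q = 1 := hq
      subst hq'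
      have hg : g ∈ Subgroup.center (GL (Fin n) ℂ) := by
        have h1 : (QuotientGroup.mk g : PG n) = γ 1 := hp
        rw [map_one] at h1
        exact (QuotientGroup.eq_one_iff _).1 h1
      rw [Subgroup.mem_center_iff]
      rintro ⟨⟨a, b⟩, hab⟩
      apply Subtype.ext
      show (a * g, b * 1) = (g * a, 1 * b)
      rw [mul_one, one_mul, Subgroup.mem_center_iff.1 hg a]
  obtain ⟨θ, hθ⟩ := exists_lift π hξ
  let η₀ : FE π →* GL (Fin n) ℂ := ((MonoidHom.fst _ _).comp X.subtype).comp θ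
  have hη₀ : ∀ x, (QuotientGroup.mk (η₀ x) : PG n) = γ (pr π x) := by
    intro x
    have h1 : (θ x : GL (Fin n) ℂ × Q).2 = pr π x := congrArg (fun f : FE π →* Q => f x) hθ
    rw [← h1]
    exact (θ x).2
  have hker : η.ker ≤ (pr π).ker := by
    intro x hx
    rw [MonoidHom.mem_ker] at hx
    rw [MonoidHom.mem_ker, ← hη]; show σ (η x) = 1; rw [hx, map_one]
  -- scalars
  let Z := Subgroup.center (GL (Fin n) ℂ)
  have hscal : ∀ c : η.ker, η₀ c ∈ Z := by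
    intro c
    apply (QuotientGroup.eq_one_iff _).1
    rw [hη₀, MonoidHom.mem_ker.1 (hker c.2), map_one]
  let f : η.ker →* Z := (η₀.comp η.ker.subtype).codRestrict Z hscal
  let _ : CommGroup η.ker := { (inferInstance : Group η.ker) with
    mul_comm := fun a b => Subtype.ext ((Subgroup.mem_center_iff.1 (pr_central π (hker b.2)) a)) }
  let _ : CommGroup Z := { (inferInstance : Group Z) with
    mul_comm := fun a b => Subtype.ext ((Subgroup.mem_center_iff.1 b.2 a)) }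
  let t : ℂˣ →* Z := (GeneralLinearGroup.scalar (Fin n)).codRestrict Z (fun u => by
    show GeneralLinearGroup.scalar (Fin n) u ∈ Subgroup.center (GL (Fin n) ℂ)
    rw [GeneralLinearGroup.center_eq_range_scalar]; exact ⟨u, rfl⟩)
  have ht : Function.Surjective t := by
    rintro ⟨z, hz⟩
    have hz' : z ∈ (GeneralLinearGroup.scalar (Fin n) : ℂˣ →* _).range := by
      rw [← GeneralLinearGroup.center_eq_range_scalar]; exact hz
    obtain ⟨u, hu⟩ := hz'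
    exact ⟨u, Subtype.ext hu⟩
  let i : η.ker →* Abelianization (FE π) := Abelianization.of.comp η.ker.subtype
  have hi : Function.Injective i := by
    rw [injective_iff_map_eq_one]
    intro x hx
    have h1 : (x : FE π) ∈ commutator (FE π) := (QuotientGroup.eq_one_iff _).1 hx
    have h2 : (x : FE π) ∈ η.ker ⊓ commutator (FE π) := ⟨x.2, h1⟩
    rw [hC, Subgroup.mem_bot] at h2
    exact Subtype.ext h2
  obtain ⟨g, hg⟩ := ext_divisible i hi t ht f
  let χ : FE π →* Z := g.comp Abelianization.of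
  let ρ₀ : FE π →* GL (Fin n) ℂ := MonoidHom.mk' (fun x => η₀ x * ((χ x : GL (Fin n) ℂ))⁻¹) (by
    intro a b
    have h3 := Subgroup.mem_center_iff.1 (Subgroup.inv_mem _ (χ a).2) (η₀ b)
    have h4 : ((χ a * χ b : Z) : GL (Fin n) ℂ)⁻¹ = (χ a : GL (Fin n) ℂ)⁻¹ * (χ b : GL (Fin n) ℂ)⁻¹ := by
      rw [mul_comm (χ a), Subgroup.coe_mul, _root_.mul_inv_rev]
    rw [map_mul, map_mul, h4]
    calc η₀ a * η₀ b * ((χ a : GL (Fin n) ℂ)⁻¹ * (χ b : GL (Fin n) ℂ)⁻¹) = η₀ a * (η₀ b * (χ a : GL (Fin n) ℂ)⁻¹) * (χ b : GL (Fin n) ℂ)⁻¹ := by group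
      _ = η₀ a * ((χ a : GL (Fin n) ℂ)⁻¹ * η₀ b) * (χ b : GL (Fin n) ℂ)⁻¹ := by rw [h3]
      _ = _ := by group)
  have hρk : η.ker ≤ ρ₀.ker := by
    intro x hx
    have h5 : χ x = f ⟨x, hx⟩ := hg ⟨x, hx⟩
    show η₀ x * ((χ x : GL (Fin n) ℂ))⁻¹ = 1
    rw [h5]
    exact mul_inv_cancel _
  refine ⟨(η.liftOfSurjective hs) ⟨ρ₀, hρk⟩, ?_⟩
  refine MonoidHom.ext fun y => ?_
  obtain ⟨x, rfl⟩ := hs y
  have h6 : ((η.liftOfSurjective hs) ⟨ρ₀, hρk⟩) (η x) = ρ₀ x := MonoidHom.liftOfRightInverse_comp_apply η _ _ ⟨ρ₀, hρk⟩ x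
  have h7 : σ (η x) = pr π x := congrArg (fun f : FE π →* Q => f x) hη
  show (QuotientGroup.mk (((η.liftOfSurjective hs) ⟨ρ₀, hρk⟩) (η x)) : PG n) = γ (σ (η x))
  rw [h6, h7, ← hη₀]
  show (QuotientGroup.mk (η₀ x * ((χ x : GL (Fin n) ℂ))⁻¹) : PG n) = _
  rw [QuotientGroup.eq]
  have e : (η₀ x * ((χ x : GL (Fin n) ℂ))⁻¹)⁻¹ * η₀ x = χ x := by group
  rw [e]; exact (χ x).2

/-! ### the induced representation -/
section mono
variable {Δ : Type v} {Q : Type u} [Group Δ] [Group Q] {τ : Δ →* Q} (hτ : CExt τ)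

theorem mono_mem (s : Q → Δ) (hs : ∀ q, τ (s q) = q) (d : Δ) (p : Q) : d * s ((τ d)⁻¹ * p) * (s p)⁻¹ ∈ τ.ker := by
  rw [MonoidHom.mem_ker, map_mul, map_mul, map_inv, hs, hs, mul_inv_cancel_left, mul_inv_cancel]

/-- the operator attached to `d` -/
def monoOp (s : Q → Δ) (hs : ∀ q, τ (s q) = q) (lam : τ.ker →* ℂˣ) (d : Δ) : (Q → ℂ) →ₗ[ℂ] (Q → ℂ) where
  toFun v p := (lam ⟨_, mono_mem s hs d p⟩ : ℂˣ) * v ((τ d)⁻¹ * p)
  map_add' v w := by ext p; simp [mul_add]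
  map_smul' c v := by ext p; simp; ring

theorem monoOp_mul (hτ : τ.ker ≤ Subgroup.center Δ) (s : Q → Δ) (hs : ∀ q, τ (s q) = q) (lam : τ.ker →* ℂˣ) (d d' : Δ) :
    monoOp s hs lam (d * d') = (monoOp s hs lam d).comp (monoOp s hs lam d') := by
  apply LinearMap.ext
  intro v
  funext p
  have e0 : (τ (d * d'))⁻¹ * p = (τ d')⁻¹ * ((τ d)⁻¹ * p) := by rw [map_mul, _root_.mul_inv_rev, mul_assoc]
  have e1 : (⟨_, mono_mem s hs (d * d') p⟩ : τ.ker) = ⟨_, mono_mem s hs d p⟩ * ⟨_, mono_mem s hs d' ((τ d)⁻¹ * p)⟩ := by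
    apply Subtype.ext
    show d * d' * s ((τ (d * d'))⁻¹ * p) * (s p)⁻¹ = (d * s ((τ d)⁻¹ * p) * (s p)⁻¹) * (d' * s ((τ d')⁻¹ * ((τ d)⁻¹ * p)) * (s ((τ d)⁻¹ * p))⁻¹)
    rw [e0]
    have h1 := Subgroup.mem_center_iff.1 (hτ (mono_mem s hs d' ((τ d)⁻¹ * p))) (s ((τ d)⁻¹ * p) * (s p)⁻¹)
    calc d * d' * s ((τ d')⁻¹ * ((τ d)⁻¹ * p)) * (s p)⁻¹
        = d * ((d' * s ((τ d')⁻¹ * ((τ d)⁻¹ * p)) * (s ((τ d)⁻¹ * p))⁻¹) * (s ((τ d)⁻¹ * p) * (s p)⁻¹)) := by group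
      _ = d * ((s ((τ d)⁻¹ * p) * (s p)⁻¹) * (d' * s ((τ d')⁻¹ * ((τ d)⁻¹ * p)) * (s ((τ d)⁻¹ * p))⁻¹)) := by rw [h1]
      _ = _ := by group
  show ((lam ⟨_, mono_mem s hs (d * d') p⟩ : ℂˣ) : ℂ) * v ((τ (d * d'))⁻¹ * p) =
    ((lam ⟨_, mono_mem s hs d p⟩ : ℂˣ) : ℂ) * (((lam ⟨_, mono_mem s hs d' ((τ d)⁻¹ * p)⟩ : ℂˣ) : ℂ) * v ((τ d')⁻¹ * ((τ d)⁻¹ * p)))
  rw [e1, map_mul, Units.val_mul, e0, mul_assoc]

theorem monoOp_ker (s : Q → Δ) (hs : ∀ q, τ (s q) = q) (lam : τ.ker →* ℂˣ) (z : τ.ker) (v : Q → ℂ) :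
    monoOp s hs lam (z : Δ) v = ((lam z : ℂˣ) : ℂ) • v := by
  funext p
  have h0 : τ (z : Δ) = 1 := z.2
  have e0 : (τ (z : Δ))⁻¹ * p = p := by rw [h0, inv_one, one_mul]
  have e1 : (⟨_, mono_mem s hs (z : Δ) p⟩ : τ.ker) = z := by
    apply Subtype.ext
    show (z : Δ) * s ((τ (z : Δ))⁻¹ * p) * (s p)⁻¹ = z
    rw [e0, mul_inv_cancel_right]
  show ((lam ⟨_, mono_mem s hs (z : Δ) p⟩ : ℂˣ) : ℂ) * v ((τ (z : Δ))⁻¹ * p) = ((lam z : ℂˣ) : ℂ) * v p
  rw [e1, e0]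

/-- the monomial representation -/
theorem exists_mono [Finite Q] (hτ : CExt τ) (lam : τ.ker →* ℂˣ) : ∃ M : Δ →* GL (Fin (Nat.card Q)) ℂ, ∀ z : τ.ker,
    M z = GeneralLinearGroup.scalar (Fin (Nat.card Q)) (lam z) := by
  choose s hs using hτ.1
  let M0 : Δ →* ((Q → ℂ) →ₗ[ℂ] (Q → ℂ)) :=
    { toFun := monoOp s hs lam
      map_one' := by
        apply LinearMap.ext
        intro v
        have := monoOp_ker s hs lam 1 v
        rw [map_one, Units.val_one, one_smul] at this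
        exact this
      map_mul' := fun d d' => monoOp_mul hτ.2 s hs lam d d' }
  let e : Q ≃ Fin (Nat.card Q) := Finite.equivFin Q
  let L : (Q → ℂ) ≃ₗ[ℂ] (Fin (Nat.card Q) → ℂ) := LinearEquiv.funCongrLeft ℂ ℂ e.symm
  let M1 : Δ →* ((Fin (Nat.card Q) → ℂ) →ₗ[ℂ] (Fin (Nat.card Q) → ℂ)) := (L.conjRingEquiv.toMonoidHom : ((Q → ℂ) →ₗ[ℂ] (Q → ℂ)) →* _).comp M0
  let M2 : Δ →* Matrix (Fin (Nat.card Q)) (Fin (Nat.card Q)) ℂ := (LinearMap.toMatrixAlgEquiv' (R := ℂ)).toMonoidHom.comp M1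
  refine ⟨M2.toHomUnits, fun z => ?_⟩
  apply Units.ext
  have h1 : M1 z = ((lam z : ℂˣ) : ℂ) • (1 : Module.End ℂ (Fin (Nat.card Q) → ℂ)) := by
    apply LinearMap.ext
    intro v
    show L (monoOp s hs lam (z : Δ) (L.symm v)) = _
    rw [monoOp_ker, map_smul, L.apply_symm_apply]; rfl
  have h2 : M2 z = ((lam z : ℂˣ) : ℂ) • (1 : Matrix (Fin (Nat.card Q)) (Fin (Nat.card Q)) ℂ) := by
    show (LinearMap.toMatrixAlgEquiv' (R := ℂ)) (M1 z) = _
    rw [h1, map_smul, map_one]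
  show M2 z = _
  rw [h2]
  show _ = Matrix.scalar (Fin (Nat.card Q)) ((lam z : ℂˣ) : ℂ)
  rw [Matrix.scalar_apply, Matrix.smul_one_eq_diagonal]

end mono

theorem agree_comm {G : Type u} {X : Type v} [Group G] [Group X] {η θ : G →* X} (h : ∀ x, η x * (θ x)⁻¹ ∈ Subgroup.center X) :
    commutator G ≤ η.eqLocus θ := by
  rw [commutator_def, Subgroup.commutator_le]
  intro a _ b _
  show η ⁅a, b⁆ = θ ⁅a, b⁆
  have e1 : η a = (η a * (θ a)⁻¹) * θ a := by group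
  have e2 : η b = (η b * (θ b)⁻¹) * θ b := by group
  rw [map_commutatorElement, map_commutatorElement, e1, e2, comm_eq_of_center (h a) (h b)]

theorem of_lifting {Q : Type u} [Group Q] [Finite Q] {Γ : Type v} [Group Γ] (σ : Γ →* Q) (hσ : IsStemExtension σ)
    (hlift : ∀ (n : ℕ) (γ : Q →* PG n), ∃ ρ : Γ →* GL (Fin n) ℂ, (QuotientGroup.mk' (Subgroup.center (GL (Fin n) ℂ))).comp ρ = γ.comp σ)
    {Δ : Type w} [Group Δ] [Finite Δ] (τ : Δ →* Q) (hτ : IsStemExtension τ) : ∃ π : σ.ker →* τ.ker, Function.Surjective π := by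
  obtain ⟨η, hη⟩ := exists_lift (std Q) hσ.cext
  obtain ⟨θ, hθ⟩ := exists_lift (std Q) hτ.cext
  have m1 := Mu_map (std Q) (std_surj Q) hσ.cext hη
  have m2 := Mu_map (std Q) (std_surj Q) hτ.cext hθ
  rw [inf_eq_left.2 hσ.2.2] at m1
  rw [inf_eq_left.2 hτ.2.2] at m2
  let η' : Mu (std Q) →* σ.ker := (η.comp (Mu (std Q)).subtype).codRestrict _ (fun x => by rw [m1]; exact ⟨x, x.2, rfl⟩)
  let θ' : Mu (std Q) →* τ.ker := (θ.comp (Mu (std Q)).subtype).codRestrict _ (fun x => by rw [m2]; exact ⟨x, x.2, rfl⟩)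
  have s1 : Function.Surjective η' := by
    rintro ⟨x, hx⟩
    have hx' := hx
    rw [m1] at hx'
    obtain ⟨m, hm, rfl⟩ := hx'
    exact ⟨⟨m, hm⟩, rfl⟩
  have s2 : Function.Surjective θ' := by
    rintro ⟨x, hx⟩
    have hx' := hx
    rw [m2] at hx'
    obtain ⟨m, hm, rfl⟩ := hx'
    exact ⟨⟨m, hm⟩, rfl⟩
  have key : η'.ker ≤ θ'.ker := by
    intro m hm
    by_contra hne
    have hne' : θ' m ≠ 1 := hne
    let _ : CommGroup τ.ker := { (inferInstance : Group τ.ker) with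
      mul_comm := fun a b => Subtype.ext ((Subgroup.mem_center_iff.1 (hτ.2.1 b.2) a)) }
    have : HasEnoughRootsOfUnity ℂ (Monoid.exponent τ.ker) := inferInstance
    obtain ⟨lam, hlam⟩ := CommGroup.exists_apply_ne_one_of_hasEnoughRootsOfUnity τ.ker ℂ hne'
    obtain ⟨M, hM⟩ := exists_mono hτ.cext lam
    -- the projective representation
    have hMk : τ.ker ≤ ((QuotientGroup.mk' (Subgroup.center (GL (Fin (Nat.card Q)) ℂ))).comp M).ker := by
      intro z hz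
      show (QuotientGroup.mk (M z) : PG (Nat.card Q)) = 1
      rw [QuotientGroup.eq_one_iff, hM ⟨z, hz⟩, GeneralLinearGroup.center_eq_range_scalar]
      exact ⟨_, rfl⟩
    let γ : Q →* PG (Nat.card Q) := (τ.liftOfSurjective hτ.1) ⟨_, hMk⟩
    have hγ : ∀ d, γ (τ d) = QuotientGroup.mk (M d) := fun d => MonoidHom.liftOfRightInverse_comp_apply τ _ _ ⟨_, hMk⟩ d
    obtain ⟨ρ, hρ⟩ := hlift _ γ
    have hagree : ∀ x, (M.comp θ) x * ((ρ.comp η) x)⁻¹ ∈ Subgroup.center (GL (Fin (Nat.card Q)) ℂ) := by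
      intro x
      apply (QuotientGroup.eq_one_iff _).1
      have a1 : (QuotientGroup.mk (ρ (η x)) : PG (Nat.card Q)) = γ (σ (η x)) := congrArg (fun f : Γ →* PG (Nat.card Q) => f (η x)) hρ
      have a2 : σ (η x) = pr (std Q) x := congrArg (fun f : FE (std Q) →* Q => f x) hη
      have a3 : τ (θ x) = pr (std Q) x := congrArg (fun f : FE (std Q) →* Q => f x) hθ
      show (QuotientGroup.mk (M (θ x)) : PG (Nat.card Q)) * (QuotientGroup.mk (ρ (η x)) : PG (Nat.card Q))⁻¹ = 1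
      rw [a1, a2, ← a3, hγ, mul_inv_cancel]
    have h1 := agree_comm hagree m.2.2
    have h2 : M (θ m) = ρ (η m) := h1
    have h3 : η (m : FE (std Q)) = 1 := congrArg Subtype.val hm
    rw [h3, map_one] at h2
    have h4 : M ((θ' m : τ.ker) : Δ) = 1 := h2
    rw [hM] at h4
    apply hlam
    have hn : Nonempty (Fin (Nat.card Q)) := ⟨⟨0, Nat.card_pos⟩⟩
    have h5 : Matrix.scalar (Fin (Nat.card Q)) ((lam (θ' m) : ℂˣ) : ℂ) = 1 := congrArg Units.val h4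
    apply Units.ext
    have h6 := congrFun (congrFun h5 hn.some) hn.some
    rw [Matrix.scalar_apply, Matrix.diagonal_apply_eq, Matrix.one_apply_eq] at h6
    exact h6
  refine ⟨(η'.liftOfSurjective s1) ⟨θ', key⟩, ?_⟩
  intro y
  obtain ⟨m, rfl⟩ := s2 y
  exact ⟨η' m, MonoidHom.liftOfRightInverse_comp_apply η' _ _ ⟨θ', key⟩ m⟩

theorem trivial_iff_lifting {Q : Type u} [Group Q] [Finite Q] : HasCyclicSchurMultiplier Q 1 ↔
    ∀ (n : ℕ) (γ : Q →* PG n), ∃ ρ : Q →* GL (Fin n) ℂ, (QuotientGroup.mk' (Subgroup.center (GL (Fin n) ℂ))).comp ρ = γ := by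
  have hkb : (MonoidHom.id Q).ker = ⊥ := by
    rw [eq_bot_iff]; intro x hx; exact hx
  constructor
  · intro h n γ
    have e : Nonempty ((MonoidHom.id Q).ker ≃* Multiplicative (ZMod 1)) := by
      rw [hkb]
      have h1 : Subsingleton (Multiplicative (ZMod 1)) := inferInstanceAs (Subsingleton (ZMod 1))
      exact ⟨MulEquiv.ofBijective (1 : (⊥ : Subgroup Q) →* Multiplicative (ZMod 1))
        ⟨fun _ _ _ => Subsingleton.elim _ _, fun x => ⟨1, Subsingleton.elim _ _⟩⟩⟩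
    obtain ⟨ρ, hρ⟩ := lift_proj h (MonoidHom.id Q) id_stem e n γ
    exact ⟨ρ, hρ⟩
  · intro h
    apply trivial_of
    intro Δ _ _ τ hτ
    obtain ⟨f, hf⟩ := of_lifting (MonoidHom.id Q) id_stem h τ hτ
    have h1 : Subsingleton (MonoidHom.id Q).ker := by rw [hkb]; infer_instance
    have h2 : Subsingleton τ.ker := hf.subsingleton
    exact Subgroup.eq_bot_of_subsingleton _

end Cfsg.Agent.H9.SM
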