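import Cfsg.Agent.H9.SM.Tra
import Mathlib.GroupTheory.Torsion
import Mathlib.GroupTheory.Sylow
set_option autoImplicit false

/-! Restriction and corestriction on multipliers. -/

namespace Cfsg.Agent.H9.SM
open Cfsg
open scoped commutatorElement
universe u v w x y

/-- the algebra of a split -/
theorem split_p {M : Type u} {N : Type v} [CommGroup M] [Finite M] [CommGroup N] (s : M →* N) (c : N →* M) (m : ℕ)
    (h : ∀ x, c (s x) = x ^ m) (p : ℕ) [Fact p.Prime] (hm : ¬ p ∣ m) :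
    ∃ C D : Subgroup N, C ⊓ D = ⊥ ∧ C ⊔ D = ⊤ ∧ Nonempty (CommGroup.primaryComponent M p ≃* C) := by
  have hp : p.Prime := Fact.out
  set a := (Nat.card M).factorization p with ha
  set b := Nat.card M / p ^ a with hb
  have hab : p ^ a * b = Nat.card M := Nat.ordProj_mul_ordCompl_eq_self _ _
  have hcop : Nat.Coprime (p ^ a) b := (Nat.coprime_ordCompl hp Nat.card_pos.ne').pow_left a
  obtain ⟨k, hk1, hk2⟩ := Nat.chineseRemainder hcop 1 0
  have hP : ∀ x : M, x ∈ CommGroup.primaryComponent M p ↔ x ^ (p ^ a) = 1 := by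
    intro x
    rw [CommGroup.mem_primaryComponent_iff_orderOf]
    constructor
    · rintro ⟨n, hn⟩
      rw [← orderOf_dvd_iff_pow_eq_one, hn]
      have h1 : p ^ n ∣ Nat.card M := hn ▸ orderOf_dvd_natCard x
      exact (Nat.pow_dvd_pow_iff_le_right hp.one_lt).2 ((hp.pow_dvd_iff_le_factorization Nat.card_pos.ne').1 h1)
    · intro hx
      obtain ⟨n, _, hn⟩ := (Nat.dvd_prime_pow hp).1 (orderOf_dvd_of_pow_eq_one hx)
      exact ⟨n, hn⟩
  have hkx : ∀ x : M, x ^ (p ^ a) = 1 → x ^ k = x := by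
    intro x hx
    have h1 := (Nat.ModEq.of_dvd (orderOf_dvd_of_pow_eq_one hx) hk1)
    have h2 := pow_eq_pow_iff_modEq.2 h1
    rw [h2, pow_one]
  let e : M →* CommGroup.primaryComponent M p := (powMonoidHom k).codRestrict _ (fun x => by
    rw [hP, powMonoidHom_apply, ← pow_mul]
    obtain ⟨j, hj⟩ := (Nat.modEq_zero_iff_dvd.1 hk2)
    rw [hj]
    have : b * j * p ^ a = Nat.card M * j := by rw [← hab]; ring
    rw [this, pow_mul, pow_card_eq_one', one_pow])
  let s' : CommGroup.primaryComponent M p →* N := s.comp (CommGroup.primaryComponent M p).subtype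
  have hinv : ∀ y : M, y ^ (p ^ a) = 1 → ∃ j : ℤ, (y ^ j) ^ m = y := by
    intro y hy
    have hc : Nat.Coprime m (p ^ a) := (Nat.Coprime.pow_left a ((Nat.Prime.coprime_iff_not_dvd hp).2 hm)).symm
    refine ⟨Nat.gcdA m (p ^ a), ?_⟩
    have h1 := Nat.gcd_eq_gcd_ab m (p ^ a)
    rw [hc, Nat.cast_one] at h1
    rw [← zpow_natCast, ← zpow_mul]
    have h2 : m.gcdA (p ^ a) * (m : ℤ) = 1 + ((p ^ a : ℕ) : ℤ) * (-(m.gcdB (p ^ a))) := by linarith
    rw [h2, zpow_add, zpow_one, zpow_mul, zpow_natCast, hy, one_zpow, mul_one]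
  have hinj : ∀ x : M, x ^ (p ^ a) = 1 → x ^ m = 1 → x = 1 := by
    intro x h1 h2
    have := Nat.dvd_gcd (orderOf_dvd_of_pow_eq_one h1) (orderOf_dvd_of_pow_eq_one h2)
    rw [(Nat.Coprime.pow_left a ((Nat.Prime.coprime_iff_not_dvd hp).2 hm) : Nat.gcd (p ^ a) m = 1)] at this
    exact orderOf_eq_one_iff.1 (Nat.dvd_one.1 this)
  have hs' : Function.Injective s' := by
    rw [injective_iff_map_eq_one]
    intro x hx
    have h1 : s (x : M) = 1 := hx
    apply Subtype.ext
    apply hinj _ ((hP _).1 x.2)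
    rw [← h, h1, map_one]
  refine ⟨s'.range, (e.comp c).ker, ?_, ?_, ⟨MonoidHom.ofInjective hs'⟩⟩
  · rw [eq_bot_iff]
    rintro _ ⟨⟨x, rfl⟩, hx⟩
    have h1 : (c (s (x : M))) ^ k = 1 := congrArg Subtype.val (hx : e (c (s' x)) = 1)
    rw [h, hkx _ (by rw [← pow_mul, mul_comm, pow_mul, (hP _).1 x.2, one_pow])] at h1
    have h2 : (x : M) = 1 := hinj _ ((hP _).1 x.2) h1
    rw [Subgroup.mem_bot]
    show s (x : M) = 1
    rw [h2, map_one]
  · rw [eq_top_iff]
    intro n _
    obtain ⟨y, hy⟩ : ∃ y, y = e (c n) := ⟨_, rfl⟩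
    obtain ⟨j, hj⟩ := hinv y ((hP _).1 y.2)
    have h1 : n = s' (y ^ j) * ((s' (y ^ j))⁻¹ * n) := by group
    rw [h1]
    refine Subgroup.mul_mem_sup (MonoidHom.mem_range.2 ⟨y ^ j, rfl⟩) ?_
    show e (c ((s' (y ^ j))⁻¹ * n)) = 1
    rw [map_mul, map_inv, map_mul, map_inv, ← hy, inv_mul_eq_one]
    apply Subtype.ext
    show (c (s ((y ^ j : CommGroup.primaryComponent M p) : M))) ^ k = y
    have h2 : ((y ^ j : CommGroup.primaryComponent M p) : M) = (y : M) ^ j := rfl
    rw [h, h2, hj, hkx _ ((hP _).1 y.2)]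

instance kerComm {α : Type u} {Q : Type v} [Group Q] (π : FreeGroup α →* Q) : CommGroup (pr π).ker :=
  { (inferInstance : Group (pr π).ker) with
    mul_comm := fun a b => Subtype.ext (Subgroup.mem_center_iff.1 (pr_central π b.2) a) }

section res
variable {α : Type u} {G : Type v} [Group G] (π : FreeGroup α →* G) (H : Subgroup G) {β : Type w}
  (φ : (H.comap π) ≃* FreeGroup β)

/-- the presentation of the subgroup -/
def rho : FreeGroup β →* H := ((π.comp (H.comap π).subtype).codRestrict H (fun x => x.2)).comp φ.symm.toMonoidHom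

theorem rho_phi (x : H.comap π) : (rho π H φ (φ x) : G) = π x := by
  show π ((φ.symm (φ x) : H.comap π) : FreeGroup α) = π x
  rw [φ.symm_apply_apply]

theorem rho_surj (hπ : Function.Surjective π) : Function.Surjective (rho π H φ) := by
  rintro ⟨h, hh⟩
  obtain ⟨x, rfl⟩ := hπ h
  exact ⟨φ ⟨x, hh⟩, Subtype.ext (rho_phi π H φ ⟨x, hh⟩)⟩

/-- the class map -/
def kap : (H.comap π) →* FE (rho π H φ) := (QuotientGroup.mk' _).comp φ.toMonoidHom

theorem pr_kap (x : H.comap π) : (pr (rho π H φ) (kap π H φ x) : G) = π x := rho_phi π H φ x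

theorem ker_le_comap : π.ker ≤ H.comap π := by
  intro x hx
  rw [MonoidHom.mem_ker] at hx
  rw [Subgroup.mem_comap, hx]; exact H.one_mem

/-- restriction of `kap` to the relators -/
def tht : π.ker →* (pr (rho π H φ)).ker :=
  ((kap π H φ).comp (Subgroup.inclusion (ker_le_comap π H))).codRestrict _ (fun r => by
    rw [MonoidHom.mem_ker]
    apply Subtype.ext
    exact (pr_kap π H φ _).trans r.2)

theorem conj_mem (r : π.ker) (f : FreeGroup α) : f⁻¹ * r * f ∈ π.ker := by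
  have := (inferInstance : π.ker.Normal).conj_mem r.1 r.2 f⁻¹
  rwa [inv_inv] at this

theorem tht_conj (r : π.ker) (h : FreeGroup α) (hh : h ∈ H.comap π) : tht π H φ ⟨h⁻¹ * r * h, conj_mem π r h⟩ = tht π H φ r := by
  apply Subtype.ext
  show kap π H φ ⟨h⁻¹ * r * h, _⟩ = kap π H φ ⟨r, _⟩
  have e : (⟨h⁻¹ * r * h, ker_le_comap π H (conj_mem π r h)⟩ : H.comap π) = (⟨h, hh⟩ : H.comap π)⁻¹ * ⟨r, ker_le_comap π H r.2⟩ * ⟨h, hh⟩ := rfl
  have hc : kap π H φ ⟨r, ker_le_comap π H r.2⟩ ∈ Subgroup.center (FE (rho π H φ)) := pr_central _ (tht π H φ r).2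
  refine (congrArg (kap π H φ) e).trans ?_
  rw [map_mul, map_mul, map_inv, mul_assoc, ← Subgroup.mem_center_iff.1 hc, inv_mul_cancel_left]

variable [(H.comap π).FiniteIndex]

noncomputable local instance : Fintype (FreeGroup α ⧸ H.comap π) := Subgroup.fintypeQuotientOfFiniteIndex

/-- the transfer on relators -/
noncomputable def SS : π.ker →* (pr (rho π H φ)).ker where
  toFun r := ∏ q : FreeGroup α ⧸ H.comap π, tht π H φ ⟨q.out⁻¹ * r * q.out, conj_mem π r _⟩
  map_one' := by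
    apply Finset.prod_eq_one
    intro q _
    have : (⟨q.out⁻¹ * ((1 : π.ker) : FreeGroup α) * q.out, conj_mem π 1 _⟩ : π.ker) = 1 := by
      apply Subtype.ext
      show q.out⁻¹ * 1 * q.out = 1
      group
    rw [this, map_one]
  map_mul' r s := by
    rw [← Finset.prod_mul_distrib]
    refine Finset.prod_congr rfl fun q _ => ?_
    rw [← map_mul]
    congr 1
    apply Subtype.ext
    show q.out⁻¹ * (r * s : FreeGroup α) * q.out = (q.out⁻¹ * r * q.out) * (q.out⁻¹ * s * q.out)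
    group

theorem SS_apply (r : π.ker) : SS π H φ r = ∏ q : FreeGroup α ⧸ H.comap π, tht π H φ ⟨q.out⁻¹ * r * q.out, conj_mem π r _⟩ := rfl

theorem SS_conj (r : π.ker) (f : FreeGroup α) : SS π H φ ⟨f⁻¹ * r * f, conj_mem π r f⟩ = SS π H φ r := by
  rw [SS_apply, SS_apply]
  refine Fintype.prod_equiv (MulAction.toPerm f) _ _ fun q => ?_
  -- `f * q.out = (f • q).out * h`
  obtain ⟨h, hh⟩ : ∃ h : H.comap π, f * q.out = (f • q).out * h := by
    have h1 : (QuotientGroup.mk (f • q).out : FreeGroup α ⧸ H.comap π) = QuotientGroup.mk (f * q.out) := by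
      rw [QuotientGroup.out_eq']
      conv_lhs => rw [← QuotientGroup.out_eq' q]
      rfl
    rw [QuotientGroup.eq] at h1
    exact ⟨⟨_, h1⟩, by group⟩
  have h2 : (⟨q.out⁻¹ * (f⁻¹ * r * f) * q.out, conj_mem π ⟨f⁻¹ * r * f, conj_mem π r f⟩ _⟩ : π.ker) =
      ⟨(h : FreeGroup α)⁻¹ * ((f • q).out⁻¹ * r * (f • q).out) * h, conj_mem π ⟨(f • q).out⁻¹ * r * (f • q).out, conj_mem π r _⟩ _⟩ := by
    apply Subtype.ext
    show q.out⁻¹ * (f⁻¹ * r * f) * q.out = (h : FreeGroup α)⁻¹ * ((f • q).out⁻¹ * r * (f • q).out) * h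
    have h3 : q.out = f⁻¹ * ((f • q).out * h) := by rw [← hh]; group
    calc q.out⁻¹ * (f⁻¹ * r * f) * q.out = (f * q.out)⁻¹ * r * (f * q.out) := by group
      _ = _ := by rw [hh]; group
  refine (congrArg (tht π H φ) h2).trans ?_
  exact tht_conj π H φ ⟨(f • q).out⁻¹ * r * (f • q).out, conj_mem π r _⟩ h h.2

theorem SS_comm {r : FreeGroup α} (hr : r ∈ ⁅π.ker, (⊤ : Subgroup (FreeGroup α))⁆) : SS π H φ ⟨r, comm_le_ker π hr⟩ = 1 := by
  have : ⁅π.ker, (⊤ : Subgroup (FreeGroup α))⁆ ≤ (SS π H φ).ker.map π.ker.subtype := by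
    rw [Subgroup.commutator_le]
    intro a ha b _
    refine ⟨⟨a, ha⟩ * (⟨b⁻¹⁻¹ * a * b⁻¹, conj_mem π ⟨a, ha⟩ b⁻¹⟩)⁻¹, ?_, ?_⟩
    · show SS π H φ _ = 1
      rw [map_mul, map_inv, mul_inv_eq_one]
      exact (SS_conj π H φ ⟨a, ha⟩ b⁻¹).symm
    · show a * (b⁻¹⁻¹ * a * b⁻¹)⁻¹ = ⁅a, b⁆
      rw [commutatorElement_def]; group
  obtain ⟨r', h1, h2⟩ := this hr
  have : (⟨r, comm_le_ker π hr⟩ : π.ker) = r' := Subtype.ext h2.symm
  rw [this]; exact h1

/-- `R → R/[R,F]` -/
def mm : π.ker →* (pr π).ker := ((QuotientGroup.mk' _).comp π.ker.subtype).codRestrict _ (fun r => r.2)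

omit [(H.comap π).FiniteIndex] in
theorem mm_surj : Function.Surjective (mm π) := by
  rintro ⟨x, hx⟩
  obtain ⟨r, rfl⟩ := QuotientGroup.mk_surjective x
  exact ⟨⟨r, hx⟩, rfl⟩

theorem mm_ker : (mm π).ker ≤ (SS π H φ).ker := by
  intro r hr
  have h1 : (QuotientGroup.mk (r : FreeGroup α) : FE π) = 1 := congrArg Subtype.val hr
  have h2 := (QuotientGroup.eq_one_iff _).1 h1
  exact SS_comm π H φ h2

/-- restriction -/
noncomputable def resK : (pr π).ker →* (pr (rho π H φ)).ker := ((mm π).liftOfSurjective (mm_surj π)) ⟨SS π H φ, mm_ker π H φ⟩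

theorem resK_mm (r : π.ker) : resK π H φ (mm π r) = SS π H φ r :=
  MonoidHom.liftOfRightInverse_comp_apply (mm π) _ _ ⟨SS π H φ, mm_ker π H φ⟩ r

omit [(H.comap π).FiniteIndex] in
theorem cor_aux : ⁅(rho π H φ).ker, (⊤ : Subgroup (FreeGroup β))⁆ ≤ ((QuotientGroup.mk' (⁅π.ker, (⊤ : Subgroup (FreeGroup α))⁆)).comp
    ((H.comap π).subtype.comp φ.symm.toMonoidHom)).ker := by
  rw [Subgroup.commutator_le]
  intro a ha b _
  have h1 : ((φ.symm a : H.comap π) : FreeGroup α) ∈ π.ker := congrArg Subtype.val ha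
  rw [MonoidHom.mem_ker, map_commutatorElement]
  have h2 : ⁅((φ.symm a : H.comap π) : FreeGroup α), ((φ.symm b : H.comap π) : FreeGroup α)⁆ ∈ ⁅π.ker, (⊤ : Subgroup (FreeGroup α))⁆ :=
    Subgroup.commutator_mem_commutator h1 (Subgroup.mem_top _)
  exact (QuotientGroup.eq_one_iff _).2 h2

/-- corestriction -/
def cor : FE (rho π H φ) →* FE π := QuotientGroup.lift _ _ (fun _ hx => cor_aux π H φ hx)

omit [(H.comap π).FiniteIndex] in
theorem cor_kap (x : H.comap π) : cor π H φ (kap π H φ x) = QuotientGroup.mk (x : FreeGroup α) := by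
  show (QuotientGroup.mk ((φ.symm (φ x) : H.comap π) : FreeGroup α) : FE π) = _
  rw [φ.symm_apply_apply]

omit [(H.comap π).FiniteIndex] in
theorem cor_ker (x : (pr (rho π H φ)).ker) : cor π H φ x ∈ (pr π).ker := by
  obtain ⟨x, hx⟩ := x
  obtain ⟨x, rfl⟩ := QuotientGroup.mk_surjective x
  obtain ⟨y, rfl⟩ := φ.surjective x
  show pr π (cor π H φ (kap π H φ y)) = 1
  rw [cor_kap, pr_mk, ← rho_phi π H φ y]
  exact congrArg Subtype.val hx

/-- corestriction on kernels -/
def corK : (pr (rho π H φ)).ker →* (pr π).ker := ((cor π H φ).comp (pr (rho π H φ)).ker.subtype).codRestrict _ (cor_ker π H φ)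

omit [(H.comap π).FiniteIndex] in
theorem corK_tht (r : π.ker) : corK π H φ (tht π H φ r) = mm π r := Subtype.ext (cor_kap π H φ _)

omit [(H.comap π).FiniteIndex] in
theorem mm_conj (r : π.ker) (f : FreeGroup α) : mm π ⟨f⁻¹ * r * f, conj_mem π r f⟩ = mm π r := by
  apply Subtype.ext
  show (QuotientGroup.mk (f⁻¹ * r * f) : FE π) = QuotientGroup.mk (r : FreeGroup α)
  have hc : (QuotientGroup.mk (r : FreeGroup α) : FE π) ∈ Subgroup.center (FE π) := pr_central π (mm π r).2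
  have e : (QuotientGroup.mk (f⁻¹ * r * f) : FE π) = (QuotientGroup.mk f)⁻¹ * QuotientGroup.mk (r : FreeGroup α) * QuotientGroup.mk f := rfl
  rw [e, mul_assoc, ← Subgroup.mem_center_iff.1 hc, inv_mul_cancel_left]

theorem cor_res (x : (pr π).ker) : corK π H φ (resK π H φ x) = x ^ (H.comap π).index := by
  obtain ⟨r, rfl⟩ := mm_surj π x
  rw [resK_mm, SS_apply, map_prod]
  have : ∀ q : FreeGroup α ⧸ H.comap π, corK π H φ (tht π H φ ⟨q.out⁻¹ * r * q.out, conj_mem π r _⟩) = mm π r := by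
    intro q
    rw [corK_tht, mm_conj]
  simp only [this, Finset.prod_const, Finset.card_univ]
  rw [Subgroup.index_eq_card, Nat.card_eq_fintype_card]

theorem resK_comm {x : (pr π).ker} (hx : (x : FE π) ∈ commutator (FE π)) : (resK π H φ x : FE (rho π H φ)) ∈ commutator (FE (rho π H φ)) := by
  obtain ⟨r, rfl⟩ := mm_surj π x
  have hr : (r : FreeGroup α) ∈ commutator (FreeGroup α) := (mem_commutator_FE π).1 hx
  let ϕ : H.comap π →* Abelianization (FE (rho π H φ)) := Abelianization.of.comp (kap π H φ)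
  have h1 := transfer_eq_prod ϕ (r : FreeGroup α) (fun f => ker_le_comap π H (conj_mem π r f))
  have h2 : MonoidHom.transfer ϕ (r : FreeGroup α) = 1 := Abelianization.commutator_subset_ker _ hr
  have h3 : (Abelianization.of.comp (pr (rho π H φ)).ker.subtype) (SS π H φ r) = 1 := by
    rw [SS_apply, map_prod, ← h2, h1]
    rfl
  rw [resK_mm]
  exact (QuotientGroup.eq_one_iff _).1 h3

omit [(H.comap π).FiniteIndex] in
theorem cor_comm {x : FE (rho π H φ)} (hx : x ∈ commutator (FE (rho π H φ))) : cor π H φ x ∈ commutator (FE π) :=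
  map_comm_le (cor π H φ) ⟨x, hx, rfl⟩

/-- restriction on multipliers -/
noncomputable def resM : Mu π →* Mu (rho π H φ) where
  toFun x := ⟨(resK π H φ ⟨x, x.2.1⟩ : FE (rho π H φ)), (resK π H φ ⟨x, x.2.1⟩).2, resK_comm π H φ x.2.2⟩
  map_one' := by
    apply Subtype.ext
    show (resK π H φ 1 : FE (rho π H φ)) = 1
    rw [map_one]; rfl
  map_mul' x y := by
    apply Subtype.ext
    show (resK π H φ (⟨x, x.2.1⟩ * ⟨y, y.2.1⟩) : FE (rho π H φ)) = _
    rw [map_mul]; rfl

/-- corestriction on multipliers -/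
def corM : Mu (rho π H φ) →* Mu π where
  toFun x := ⟨cor π H φ x, cor_ker π H φ ⟨x, x.2.1⟩, cor_comm π H φ x.2.2⟩
  map_one' := by
    apply Subtype.ext
    show cor π H φ 1 = 1
    rw [map_one]
  map_mul' x y := by
    apply Subtype.ext
    show cor π H φ (x * y) = _
    rw [map_mul]; rfl

theorem corM_resM (x : Mu π) : corM π H φ (resM π H φ x) = x ^ (H.comap π).index := by
  apply Subtype.ext
  have := cor_res π H φ ⟨x, x.2.1⟩
  have h2 := congrArg (Subtype.val : (pr π).ker → FE π) this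
  exact h2

end res

theorem sylow_summand {G : Type u} [Group G] [Finite G] (p : ℕ) [Fact p.Prime] (P : Sylow p G) {A : Type v} {B : Type w} [CommGroup A] [CommGroup B]
    (hA : HasSchurMultiplier G A) (hB : HasSchurMultiplier P B) :
    ∃ C D : Subgroup B, C ⊓ D = ⊥ ∧ C ⊔ D = ⊤ ∧ Nonempty (CommGroup.primaryComponent A p ≃* C) := by
  obtain ⟨eA⟩ := has_iff.1 hA
  let φ := IsFreeGroup.toFreeGroup ((P : Subgroup G).comap (std G))
  have hidx : ((P : Subgroup G).comap (std G)).index = (P : Subgroup G).index := Subgroup.index_comap_of_surjective _ (std_surj G)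
  have hfi : ((P : Subgroup G).comap (std G)).FiniteIndex := ⟨by rw [hidx]; exact Subgroup.FiniteIndex.index_ne_zero⟩
  obtain ⟨eB⟩ := has_iso hB (rho_surj (std G) (P : Subgroup G) φ (std_surj G))
  have : Finite A := Finite.of_equiv _ eA.symm.toEquiv
  refine split_p (eB.symm.toMonoidHom.comp ((resM (std G) (P : Subgroup G) φ).comp eA.toMonoidHom))
    (eA.symm.toMonoidHom.comp ((corM (std G) (P : Subgroup G) φ).comp eB.toMonoidHom)) (P : Subgroup G).index ?_ p P.not_dvd_index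
  intro x
  show eA.symm (corM (std G) (P : Subgroup G) φ (eB (eB.symm (resM (std G) (P : Subgroup G) φ (eA x))))) = _
  rw [eB.apply_symm_apply, corM_resM, map_pow, eA.symm_apply_apply, hidx]

end Cfsg.Agent.H9.SM
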