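import Cfsg.Agent.H9.SM.Prod
import Mathlib.GroupTheory.Transfer
import Mathlib.GroupTheory.FiniteAbelian.Duality
import Mathlib.Analysis.Complex.Polynomial.Basic
import Mathlib.RingTheory.RootsOfUnity.AlgebraicallyClosed
set_option autoImplicit false

/-! Transfer arguments. -/

namespace Cfsg.Agent.H9.SM
open Cfsg
open scoped commutatorElement
universe u v w x y

theorem dual_iso (A : Type u) [CommGroup A] [Finite A] : Nonempty ((A →* ℂˣ) ≃* A) := by
  have : HasEnoughRootsOfUnity ℂ (Monoid.exponent A) := inferInstance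
  exact CommGroup.monoidHom_mulEquiv_of_hasEnoughRootsOfUnity A ℂ

/-- sections of finite abelian groups embed -/
theorem embed_section {A : Type u} {B : Type v} {C : Type w} [CommGroup A] [CommGroup B] [Finite B] [Group C] (f : B →* C)
    (hf : Function.Surjective f) (g : A →* C) (hg : Function.Injective g) : ∃ D : Subgroup B, Nonempty (A ≃* D) := by
  have hcomm : ∀ a b : C, a * b = b * a := by
    intro a b
    obtain ⟨a, rfl⟩ := hf a
    obtain ⟨b, rfl⟩ := hf b
    rw [← map_mul, mul_comm, map_mul]
  let _ : CommGroup C := { (inferInstance : Group C) with mul_comm := hcomm }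
  have : Finite C := Finite.of_surjective f hf
  obtain ⟨e1⟩ := dual_iso C
  obtain ⟨e2⟩ := dual_iso B
  let j : (C →* ℂˣ) →* (B →* ℂˣ) := { toFun := fun φ => φ.comp f, map_one' := rfl, map_mul' := fun _ _ => rfl }
  have hj : Function.Injective j := by
    intro φ ψ h
    ext c
    obtain ⟨b, rfl⟩ := hf c
    exact congrArg Units.val (congrArg (fun θ : B →* ℂˣ => θ b) h)
  let k : A →* B := (e2.toMonoidHom.comp j).comp (e1.symm.toMonoidHom.comp g)
  have hk : Function.Injective k := (e2.injective.comp hj).comp (e1.symm.injective.comp hg)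
  exact ⟨k.range, ⟨MonoidHom.ofInjective hk⟩⟩

/-- the transfer of an element all of whose conjugates lie in the subgroup -/
theorem transfer_eq_prod {G : Type u} [Group G] {H : Subgroup G} [H.FiniteIndex] {A : Type v} [CommGroup A] (ϕ : H →* A) (g : G)
    (hg : ∀ x : G, x⁻¹ * g * x ∈ H) :
    let _ := H.fintypeQuotientOfFiniteIndex
    MonoidHom.transfer ϕ g = ∏ q : G ⧸ H, ϕ ⟨q.out⁻¹ * g * q.out, hg _⟩ := by
  intro _
  rw [MonoidHom.transfer_def ϕ default g]
  unfold Subgroup.leftTransversals.diff
  refine Finset.prod_congr rfl fun q _ => ?_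
  congr 1
  apply Subtype.ext
  have h1 : ((default : H.LeftTransversal).2.leftQuotientEquiv q : G) = q.out :=
    Subgroup.IsComplement.leftQuotientEquiv_apply (Quotient.out_eq') q
  have h2 : g⁻¹ • q = q := by
    rw [inv_smul_eq_iff]
    have h3 : (QuotientGroup.mk q.out : G ⧸ H) = q := QuotientGroup.out_eq' q
    rw [← h3]
    show _ = (QuotientGroup.mk (g * _) : G ⧸ H)
    rw [QuotientGroup.eq]
    have := hg q.out
    rwa [mul_assoc] at this
  have h4 : ((g • (default : H.LeftTransversal)).2.leftQuotientEquiv q : G) = g * q.out := by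
    rw [Subgroup.smul_apply_eq_smul_apply_inv_smul, h2, h1]; rfl
  show ((default : H.LeftTransversal).2.leftQuotientEquiv q : G)⁻¹ * ((g • (default : H.LeftTransversal)).2.leftQuotientEquiv q : G) = q.out⁻¹ * g * q.out
  rw [h1, h4, mul_assoc]

/-- central elements of the commutator subgroup -/
theorem pow_index_mem {E : Type u} [Group E] (H : Subgroup E) [H.FiniteIndex] {x : E} (hx : x ∈ Subgroup.center E) (hc : x ∈ commutator E) :
    ∃ h : x ^ H.index ∈ H, (⟨x ^ H.index, h⟩ : H) ∈ commutator H := by
  have key : ∀ (k : ℕ) (g₀ : E), g₀⁻¹ * x ^ k * g₀ ∈ H → g₀⁻¹ * x ^ k * g₀ = x ^ k := by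
    intro k g₀ _
    have := Subgroup.mem_center_iff.1 ((Subgroup.center E).pow_mem hx k) g₀
    rw [mul_assoc, ← this, inv_mul_cancel_left]
  refine ⟨MonoidHom.transfer_eq_pow_aux x key, ?_⟩
  have h1 := MonoidHom.transfer_eq_pow (Abelianization.of : H →* Abelianization H) x key
  have h2 : MonoidHom.transfer (Abelianization.of : H →* Abelianization H) x = 1 := Abelianization.commutator_subset_ker _ hc
  rw [h2] at h1
  exact (QuotientGroup.eq_one_iff _).1 h1.symm

theorem pow_embed {G : Type u} [Group G] [Finite G] (U : Subgroup G) {A : Type v} {B : Type w} [CommGroup A] [CommGroup B]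
    (hA : HasSchurMultiplier G A) (hB : HasSchurMultiplier U B) :
    ∃ C : Subgroup B, Nonempty ((powMonoidHom U.index : A →* A).range ≃* C) := by
  obtain ⟨eA⟩ := has_iff.1 hA
  obtain ⟨eB⟩ := has_iff.1 hB
  have : Finite B := Finite.of_equiv _ eB.symm.toEquiv
  set H : Subgroup (FE (std G)) := U.comap (pr (std G)) with hH
  have hidx : H.index = U.index := Subgroup.index_comap_of_surjective U (pr_surj (std G) (std_surj G))
  have hfi : H.FiniteIndex := ⟨by rw [hidx]; exact Subgroup.FiniteIndex.index_ne_zero⟩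
  let σ : H →* U := ((pr (std G)).comp H.subtype).codRestrict U (fun x => x.2)
  have hσk : ∀ x : H, x ∈ σ.ker ↔ (x : FE (std G)) ∈ (pr (std G)).ker := by
    intro x
    constructor
    · intro h; exact congrArg Subtype.val h
    · intro h; exact Subtype.ext h
  have hσ : CExt σ := by
    constructor
    · rintro ⟨u, hu⟩
      obtain ⟨x, rfl⟩ := pr_surj (std G) (std_surj G) u
      exact ⟨⟨x, hu⟩, rfl⟩
    · intro x hx
      rw [Subgroup.mem_center_iff]
      intro y
      exact Subtype.ext (Subgroup.mem_center_iff.1 (pr_central (std G) ((hσk x).1 hx)) y)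
  obtain ⟨f, hf⟩ := exists_surj_Mu (std U) (std_surj U) hσ
  have hmem : ∀ a : (powMonoidHom U.index : A →* A).range, ∃ h : (eA a : FE (std G)) ∈ H, (⟨eA a, h⟩ : H) ∈ σ.ker ⊓ commutator H := by
    rintro ⟨_, a, rfl⟩
    have h1 : eA (powMonoidHom U.index a) = (eA a) ^ U.index := by rw [powMonoidHom_apply, map_pow]
    obtain ⟨h2, h3⟩ := pow_index_mem H (Mu_le_center (std G) (eA a).2) (eA a).2.2
    have h4 : ((eA (powMonoidHom U.index a) : Mu (std G)) : FE (std G)) = (eA a : FE (std G)) ^ H.index := by
      rw [h1, hidx]; rfl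
    refine ⟨by rw [h4]; exact h2, ?_⟩
    constructor
    · exact (hσk _).2 (eA (powMonoidHom U.index a)).2.1
    · have : (⟨((eA (powMonoidHom U.index a) : Mu (std G)) : FE (std G)), by rw [h4]; exact h2⟩ : H) = ⟨(eA a : FE (std G)) ^ H.index, h2⟩ := Subtype.ext h4
      rw [this]; exact h3
  let g : (powMonoidHom U.index : A →* A).range →* ↥(σ.ker ⊓ commutator H) :=
    { toFun := fun a => ⟨⟨(eA a : FE (std G)), (hmem a).1⟩, (hmem a).2⟩
      map_one' := by
        apply Subtype.ext; apply Subtype.ext
        show ((eA ((1 : (powMonoidHom U.index : A →* A).range) : A) : Mu (std G)) : FE (std G)) = 1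
        rw [Subgroup.coe_one, map_one]; rfl
      map_mul' := fun a b => by
        apply Subtype.ext; apply Subtype.ext
        show ((eA ((a * b : (powMonoidHom U.index : A →* A).range) : A) : Mu (std G)) : FE (std G)) = _
        rw [Subgroup.coe_mul, map_mul]; rfl }
  refine embed_section (f.comp eB.toMonoidHom) (hf.comp eB.surjective) g ?_
  intro a b hab
  have h1 : ((eA a : Mu (std G)) : FE (std G)) = (eA b : Mu (std G)) := congrArg (fun z : ↥(σ.ker ⊓ commutator H) => ((z : H) : FE (std G))) hab
  exact Subtype.ext (eA.injective (Subtype.ext h1))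

end Cfsg.Agent.H9.SM
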