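import Cfsg.Agent.H9.SM.Perf
import Mathlib.GroupTheory.FiniteAbelian.Basic
import Mathlib.Algebra.GCDMonoid.FinsetLemmas
import Mathlib.GroupTheory.Exponent
set_option autoImplicit false

/-! The central extension attached to a bimultiplicative map; abelian groups with trivial multiplier. -/

namespace Cfsg.Agent.H9.SM
open Cfsg
open scoped commutatorElement
universe u v w

/-- the set `G × A` with product twisted by `β` -/
@[ext] structure Tw {G : Type u} {A : Type v} [Group G] [CommGroup A] (β : G →* G →* A) where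
  fst : G
  snd : A

namespace Tw
variable {G : Type u} {A : Type v} [Group G] [CommGroup A] {β : G →* G →* A}

instance : Mul (Tw β) := ⟨fun x y => ⟨x.fst * y.fst, x.snd * y.snd * β x.fst y.fst⟩⟩
instance : One (Tw β) := ⟨⟨1, 1⟩⟩
instance : Inv (Tw β) := ⟨fun x => ⟨x.fst⁻¹, x.snd⁻¹ * β x.fst x.fst⟩⟩

@[simp] theorem mul_fst (x y : Tw β) : (x * y).fst = x.fst * y.fst := rfl
@[simp] theorem mul_snd (x y : Tw β) : (x * y).snd = x.snd * y.snd * β x.fst y.fst := rfl
@[simp] theorem one_fst : (1 : Tw β).fst = 1 := rfl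
@[simp] theorem one_snd : (1 : Tw β).snd = 1 := rfl
@[simp] theorem inv_fst (x : Tw β) : (x⁻¹).fst = x.fst⁻¹ := rfl
@[simp] theorem inv_snd (x : Tw β) : (x⁻¹).snd = x.snd⁻¹ * β x.fst x.fst := rfl

instance : Group (Tw β) where
  mul_assoc x y z := by
    apply Tw.ext
    · simp [mul_assoc]
    · simp only [mul_snd, mul_fst, map_mul, MonoidHom.mul_apply]
      simp only [mul_comm, mul_left_comm, mul_assoc]
  one_mul x := by apply Tw.ext <;> simp
  mul_one x := by apply Tw.ext <;> simp
  inv_mul_cancel x := by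
    apply Tw.ext
    · simp
    · simp only [mul_snd, inv_snd, inv_fst, map_inv, MonoidHom.inv_apply, one_snd]
      rw [mul_comm x.snd⁻¹, mul_assoc (β x.fst x.fst), inv_mul_cancel, mul_one, mul_inv_cancel]

/-- projection -/
def proj (β : G →* G →* A) : Tw β →* G where
  toFun := Tw.fst
  map_one' := rfl
  map_mul' _ _ := rfl

@[simp] theorem proj_apply (x : Tw β) : proj β x = x.fst := rfl

theorem proj_surj : Function.Surjective (proj β) := fun g => ⟨⟨g, 1⟩, rfl⟩

/-- injection of the kernel -/
def inj (β : G →* G →* A) : A →* Tw β where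
  toFun a := ⟨1, a⟩
  map_one' := rfl
  map_mul' a b := by apply Tw.ext <;> simp

@[simp] theorem inj_fst (a : A) : (inj β a).fst = 1 := rfl
@[simp] theorem inj_snd (a : A) : (inj β a).snd = a := rfl

theorem inj_injective : Function.Injective (inj β) := fun a b h => congrArg Tw.snd h

theorem inj_central (a : A) : inj β a ∈ Subgroup.center (Tw β) := by
  rw [Subgroup.mem_center_iff]
  intro x
  apply Tw.ext
  · simp
  · simp [mul_comm]

theorem mem_ker {x : Tw β} : x ∈ (proj β).ker ↔ x = inj β x.snd := by
  rw [MonoidHom.mem_ker, proj_apply]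
  constructor
  · intro h
    exact Tw.ext h rfl
  · intro h; rw [h]; rfl

theorem cext : CExt (proj β) := by
  refine ⟨proj_surj, fun x hx => ?_⟩
  rw [mem_ker.1 hx]; exact inj_central _

instance [Finite G] [Finite A] : Finite (Tw β) :=
  Finite.of_injective (fun x : Tw β => (x.fst, x.snd)) (fun x y h => by
    simp only [Prod.mk.injEq] at h
    exact Tw.ext h.1 h.2)

theorem mul_eq (g h : G) (hgh : g * h = h * g) (a b : A) :
    (⟨g, a⟩ * ⟨h, b⟩ : Tw β) = inj β (β g h * (β h g)⁻¹) * (⟨h, b⟩ * ⟨g, a⟩) := by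
  apply Tw.ext
  · simp [hgh]
  · simp only [mul_snd, inj_snd, inj_fst, map_one, MonoidHom.one_apply, mul_one, mul_fst]
    calc a * b * β g h = (a * b) * β g h * ((β h g)⁻¹ * β h g) := by rw [inv_mul_cancel, mul_one]
      _ = β g h * (β h g)⁻¹ * (b * a * β h g) := by rw [mul_comm a b]; ac_rfl

theorem comm_eq (g h : G) (hgh : g * h = h * g) (a b : A) :
    ⁅(⟨g, a⟩ : Tw β), (⟨h, b⟩ : Tw β)⁆ = inj β (β g h * (β h g)⁻¹) := by
  rw [commutatorElement_def, mul_eq g h hgh a b]
  group

theorem inj_mem_commutator (g h : G) (hgh : g * h = h * g) : inj β (β g h * (β h g)⁻¹) ∈ commutator (Tw β) := by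
  rw [← comm_eq g h hgh 1 1]
  exact Subgroup.commutator_mem_commutator (Subgroup.mem_top _) (Subgroup.mem_top _)

end Tw

/-- trivial multiplier forces bimultiplicative maps to be symmetric on commuting pairs -/
theorem symm_of_trivial {G : Type u} [Group G] [Finite G] (h : HasCyclicSchurMultiplier G 1) {A : Type v} [CommGroup A]
    (β : G →* G →* A) (x y : G) (hxy : x * y = y * x) : β x y = β y x := by
  have h1 := trivial_ext h (Tw.cext (β := β))
  have h2 : Tw.inj β (β x y * (β y x)⁻¹) ∈ (Tw.proj β).ker ⊓ commutator (Tw β) :=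
    ⟨rfl, Tw.inj_mem_commutator x y hxy⟩
  rw [h1, Subgroup.mem_bot] at h2
  have h3 : β x y * (β y x)⁻¹ = 1 := Tw.inj_injective (h2.trans (map_one _).symm)
  exact mul_inv_eq_one.1 h3

/-- the product of two `ZMod d`-valued homomorphisms -/
def biZ {G : Type u} {H : Type v} [Group G] [Group H] {d : ℕ} (a : G →* Multiplicative (ZMod d)) (b : H →* Multiplicative (ZMod d)) :
    G →* H →* Multiplicative (ZMod d) :=
  MonoidHom.mk' (fun g => MonoidHom.mk' (fun h => Multiplicative.ofAdd (Multiplicative.toAdd (a g) * Multiplicative.toAdd (b h)))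
    (fun x y => by
      have : Multiplicative.toAdd (a g) * Multiplicative.toAdd (b (x * y)) =
          Multiplicative.toAdd (a g) * Multiplicative.toAdd (b x) + Multiplicative.toAdd (a g) * Multiplicative.toAdd (b y) := by
        rw [map_mul b x y, toAdd_mul, mul_add]
      exact congrArg Multiplicative.ofAdd this))
    (fun x y => MonoidHom.ext fun z => by
      have : Multiplicative.toAdd (a (x * y)) * Multiplicative.toAdd (b z) =
          Multiplicative.toAdd (a x) * Multiplicative.toAdd (b z) + Multiplicative.toAdd (a y) * Multiplicative.toAdd (b z) := by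
        rw [map_mul a x y, toAdd_mul, add_mul]
      exact congrArg Multiplicative.ofAdd this)

theorem biZ_apply {G : Type u} {H : Type v} [Group G] [Group H] {d : ℕ} (a : G →* Multiplicative (ZMod d)) (b : H →* Multiplicative (ZMod d))
    (g : G) (h : H) : biZ a b g h = Multiplicative.ofAdd (Multiplicative.toAdd (a g) * Multiplicative.toAdd (b h)) := rfl

theorem abelian_cyclic {G : Type u} [CommGroup G] [Finite G] (h : HasCyclicSchurMultiplier G 1) : IsCyclic G := by
  obtain ⟨ι, hι, n, hn, ⟨e⟩⟩ := CommGroup.equiv_prod_multiplicative_zmod_of_finite G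
  classical
  by_cases hc : ∀ i j, i ≠ j → Nat.Coprime (n i) (n j)
  · rw [IsCyclic.iff_exponent_eq_card, Monoid.exponent_eq_of_mulEquiv e, Nat.card_congr e.toEquiv, Monoid.exponent_pi, Nat.card_pi]
    have h1 : ∀ i, Monoid.exponent (Multiplicative (ZMod (n i))) = n i := by
      intro i
      rw [Monoid.exponent_multiplicative, ZMod.exponent]
    have h2 : ∀ i, Nat.card (Multiplicative (ZMod (n i))) = n i := by
      intro i
      rw [Nat.card_congr Multiplicative.toAdd, Nat.card_zmod]
    simp only [h1, h2]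
    exact Finset.lcm_eq_prod (fun i _ j _ hij => hc i j hij)
  · exfalso
    push Not at hc
    obtain ⟨i, j, hij, hd⟩ := hc
    set d := Nat.gcd (n i) (n j) with hdd
    have hni : 1 < n i := hn i
    have hd1 : d ≠ 1 := hd
    let fi : Multiplicative (ZMod (n i)) →* Multiplicative (ZMod d) := (ZMod.castHom (Nat.gcd_dvd_left _ _) (ZMod d)).toAddMonoidHom.toMultiplicative
    let fj : Multiplicative (ZMod (n j)) →* Multiplicative (ZMod d) := (ZMod.castHom (Nat.gcd_dvd_right _ _) (ZMod d)).toAddMonoidHom.toMultiplicative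
    let a : G →* Multiplicative (ZMod d) := fi.comp ((Pi.evalMonoidHom _ i).comp e.toMonoidHom)
    let b : G →* Multiplicative (ZMod d) := fj.comp ((Pi.evalMonoidHom _ j).comp e.toMonoidHom)
    let x : G := e.symm (Pi.mulSingle i (Multiplicative.ofAdd 1))
    let y : G := e.symm (Pi.mulSingle j (Multiplicative.ofAdd 1))
    have h1 := symm_of_trivial h (biZ a b) x y (mul_comm x y)
    have hax : a x = Multiplicative.ofAdd 1 := by
      show fi ((e (e.symm (Pi.mulSingle i (Multiplicative.ofAdd 1)))) i) = _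
      rw [e.apply_symm_apply, Pi.mulSingle_eq_same]
      show Multiplicative.ofAdd (ZMod.castHom (Nat.gcd_dvd_left (n i) (n j)) (ZMod d) 1) = _
      rw [map_one]
    have hby : b y = Multiplicative.ofAdd 1 := by
      show fj ((e (e.symm (Pi.mulSingle j (Multiplicative.ofAdd 1)))) j) = _
      rw [e.apply_symm_apply, Pi.mulSingle_eq_same]
      show Multiplicative.ofAdd (ZMod.castHom (Nat.gcd_dvd_right (n i) (n j)) (ZMod d) 1) = _
      rw [map_one]
    have hay : a y = 1 := by
      show fi ((e (e.symm (Pi.mulSingle j (Multiplicative.ofAdd 1)))) i) = _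
      rw [e.apply_symm_apply, Pi.mulSingle_eq_of_ne hij, map_one]
    have h2 : Multiplicative.ofAdd (Multiplicative.toAdd (a x) * Multiplicative.toAdd (b y)) =
        Multiplicative.ofAdd (Multiplicative.toAdd (a y) * Multiplicative.toAdd (b x)) := h1
    rw [hax, hby, hay, toAdd_one, zero_mul, toAdd_ofAdd, one_mul] at h2
    have h3 : (1 : ZMod d) = 0 := h2
    have hd0 : d ≠ 0 := by
      intro h0
      have := Nat.eq_zero_of_gcd_eq_zero_left h0
      omega
    have : Fact (1 < d) := ⟨by omega⟩
    exact one_ne_zero h3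

end Cfsg.Agent.H9.SM
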