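import Cfsg.Agent.H9.SM.Tw
import Mathlib.GroupTheory.SpecificGroups.Quaternion
import Mathlib.GroupTheory.SpecificGroups.Dihedral
set_option autoImplicit false

/-! Two-generator groups: abelian of rank two, dihedral, quaternion. -/

namespace Cfsg.Agent.H9.SM
open Cfsg
open scoped commutatorElement
universe u v w

theorem comm_le_of_gen {Γ : Type*} [Group Γ] {N : Subgroup Γ} [N.Normal] {S : Set Γ} (hS : Subgroup.closure S = ⊤)
    (h : ∀ a ∈ S, ∀ b ∈ S, ⁅a, b⁆ ∈ N) : commutator Γ ≤ N := by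
  have key : ∀ a b : Γ, ⁅a, b⁆ ∈ N ↔ (QuotientGroup.mk a * QuotientGroup.mk b : Γ ⧸ N) = QuotientGroup.mk b * QuotientGroup.mk a := by
    intro a b
    rw [← QuotientGroup.eq_one_iff, ← commutatorElement_eq_one_iff_mul_comm]
    rfl
  have h1 : ∀ a ∈ S, ∀ b : Γ, ⁅a, b⁆ ∈ N := by
    intro a ha b
    have : (⊤ : Subgroup Γ) ≤ (Subgroup.centralizer {(QuotientGroup.mk a : Γ ⧸ N)}).comap (QuotientGroup.mk' N) := by
      rw [← hS, Subgroup.closure_le]
      intro c hc
      show (QuotientGroup.mk c : Γ ⧸ N) ∈ Subgroup.centralizer {(QuotientGroup.mk a : Γ ⧸ N)}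
      rw [Subgroup.mem_centralizer_singleton_iff]
      exact ((key a c).1 (h a ha c hc)).symm
    have h2 : (QuotientGroup.mk b : Γ ⧸ N) ∈ Subgroup.centralizer {(QuotientGroup.mk a : Γ ⧸ N)} := this (Subgroup.mem_top b)
    rw [Subgroup.mem_centralizer_singleton_iff] at h2
    exact (key a b).2 h2.symm
  rw [commutator_def, Subgroup.commutator_le]
  intro b _ c _
  have : (⊤ : Subgroup Γ) ≤ (Subgroup.centralizer {(QuotientGroup.mk c : Γ ⧸ N)}).comap (QuotientGroup.mk' N) := by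
    rw [← hS, Subgroup.closure_le]
    intro a ha
    show (QuotientGroup.mk a : Γ ⧸ N) ∈ Subgroup.centralizer {(QuotientGroup.mk c : Γ ⧸ N)}
    rw [Subgroup.mem_centralizer_singleton_iff]
    exact ((key a c).1 (h1 a ha c))
  have h2 : (QuotientGroup.mk b : Γ ⧸ N) ∈ Subgroup.centralizer {(QuotientGroup.mk c : Γ ⧸ N)} := this (Subgroup.mem_top b)
  rw [Subgroup.mem_centralizer_singleton_iff] at h2
  exact (key b c).2 h2

section two
variable {Γ : Type u} {Q : Type v} [Group Γ] [Group Q] {σ : Γ →* Q} {x y : Γ}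

theorem gen_two (hσ : CExt σ) (hg : Subgroup.closure {σ x, σ y} = ⊤) :
    Subgroup.closure ((Subgroup.center Γ : Set Γ) ∪ {x, y}) = ⊤ := by
  rw [eq_top_iff]
  intro g _
  have h1 : σ g ∈ (Subgroup.closure {x, y}).map σ := by
    rw [MonoidHom.map_closure, Set.image_pair, hg]; exact Subgroup.mem_top _
  obtain ⟨k, hk, h2⟩ := h1
  have h3 : g * k⁻¹ ∈ Subgroup.center Γ := hσ.2 (by rw [MonoidHom.mem_ker, map_mul, map_inv, h2, mul_inv_cancel])
  have h4 : g = (g * k⁻¹) * k := by group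
  rw [h4]
  exact Subgroup.mul_mem _ (Subgroup.subset_closure (Or.inl h3)) (Subgroup.closure_mono Set.subset_union_right hk)

theorem comm_le_two (hσ : CExt σ) (hg : Subgroup.closure {σ x, σ y} = ⊤) {N : Subgroup Γ} [N.Normal] (h : ⁅x, y⁆ ∈ N) :
    commutator Γ ≤ N := by
  apply comm_le_of_gen (gen_two hσ hg)
  have hz : ∀ a ∈ Subgroup.center Γ, ∀ b, ⁅a, b⁆ ∈ N := by
    intro a ha b
    have : ⁅a, b⁆ = 1 := commutatorElement_eq_one_iff_mul_comm.2 (Subgroup.mem_center_iff.1 ha b).symm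
    rw [this]; exact N.one_mem
  have hs : ∀ a b : Γ, ⁅a, b⁆ ∈ N → ⁅b, a⁆ ∈ N := by
    intro a b hab
    rw [← commutatorElement_inv]; exact N.inv_mem hab
  intro a ha b hb
  rcases ha with ha | ha
  · exact hz a ha b
  rcases hb with hb | hb
  · exact hs _ _ (hz b hb a)
  rcases ha with rfl | rfl <;> rcases hb with rfl | rfl
  · rw [commutatorElement_self]; exact N.one_mem
  · exact h
  · exact hs _ _ h
  · rw [commutatorElement_self]; exact N.one_mem

theorem normal_zpowers [Finite Γ] (hσ : CExt σ) (hg : Subgroup.closure {σ x, σ y} = ⊤) {c : Γ}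
    (hx : x * c * x⁻¹ ∈ Subgroup.zpowers c) (hy : y * c * y⁻¹ ∈ Subgroup.zpowers c) : (Subgroup.zpowers c).Normal := by
  have h0 : ∀ g : Γ, g * c * g⁻¹ ∈ Subgroup.zpowers c → g ∈ Subgroup.normalizer (Subgroup.zpowers c : Set Γ) := by
    intro g h
    apply Subgroup.mem_normalizer_fintype
    rintro n ⟨k, rfl⟩
    have : g * c ^ k * g⁻¹ = (g * c * g⁻¹) ^ k := by rw [conj_zpow]
    show g * c ^ k * g⁻¹ ∈ _
    rw [this]
    exact Subgroup.zpow_mem _ h k
  rw [← Subgroup.normalizer_eq_top_iff, eq_top_iff, ← gen_two hσ hg, Subgroup.closure_le]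
  intro g hgg
  rcases hgg with hz | rfl | rfl
  · apply h0
    have : g * c * g⁻¹ = c := by rw [← Subgroup.mem_center_iff.1 hz c]; group
    rw [this]; exact Subgroup.mem_zpowers c
  · exact h0 _ hx
  · exact h0 _ hy

/-- the kernel of a stem extension is cyclic with order dividing `k`, when the commutator subgroup is in `⟨c⟩` -/
theorem ker_cyclic (hσ : IsStemExtension σ) {c : Γ} (hc : commutator Γ ≤ Subgroup.zpowers c) {t k : ℕ} (ht : ∀ j : ℤ, σ c ^ j = 1 → (t : ℤ) ∣ j)
    (hct : σ c ^ t = 1) (hk : c ^ (t * k) = 1) : ∃ π : Multiplicative (ZMod k) →* σ.ker, Function.Surjective π := by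
  let z : σ.ker := ⟨c ^ t, by rw [MonoidHom.mem_ker, map_pow, hct]⟩
  have hz : z ^ k = 1 := by
    apply Subtype.ext
    show (c ^ t) ^ k = 1
    rw [← pow_mul, hk]
  let f : ℤ →+ Additive σ.ker := zmultiplesHom _ (Additive.ofMul z)
  have hf : f k = 0 := by
    show (k : ℤ) • Additive.ofMul z = 0
    rw [natCast_zsmul]
    exact hz
  refine ⟨(ZMod.lift k ⟨f, hf⟩).toMultiplicativeLeft, ?_⟩
  rintro ⟨g, hg⟩
  obtain ⟨j, hj⟩ := hc (hσ.2.2 hg)
  have hj' : c ^ j = g := hj
  have h1 : σ c ^ j = 1 := by rw [← map_zpow, hj']; exact hg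
  obtain ⟨i, rfl⟩ := ht j h1
  refine ⟨Multiplicative.ofAdd (i : ZMod k), ?_⟩
  apply Subtype.ext
  have h2 : (ZMod.lift k ⟨f, hf⟩) (i : ZMod k) = i • Additive.ofMul z := by
    rw [ZMod.lift_coe]; rfl
  show ((Additive.toMul ((ZMod.lift k ⟨f, hf⟩) (i : ZMod k)) : σ.ker) : Γ) = g
  rw [h2, ← hj', zpow_mul, zpow_natCast]
  rfl

/-- groups with an inverting generator -/
theorem dih_core [Finite Γ] (hσ : IsStemExtension σ) {a : Γ} (hg : Subgroup.closure {σ y, σ a} = ⊤) (hrel : σ y * σ a * (σ y)⁻¹ = (σ a)⁻¹)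
    {K t k : ℕ} (hK : y * a ^ K * y⁻¹ = a ^ K) (ht : ∀ j : ℤ, σ a ^ (2 * j) = 1 → (t : ℤ) ∣ j) (htt : σ a ^ (2 * t) = 1) (hk : K ∣ t * k) :
    ∃ π : Multiplicative (ZMod k) →* σ.ker, Function.Surjective π := by
  have hw : y * a * y⁻¹ * a ∈ Subgroup.center Γ := by
    apply hσ.2.1
    rw [MonoidHom.mem_ker, map_mul, map_mul, map_mul, map_inv, hrel, inv_mul_cancel]
  obtain ⟨w, hwd⟩ : ∃ w, w = y * a * y⁻¹ * a := ⟨_, rfl⟩
  rw [← hwd] at hw
  have hwc := Subgroup.mem_center_iff.1 hw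
  have e1 : y * a * y⁻¹ = w * a⁻¹ := by rw [hwd]; group
  obtain ⟨c, hcd⟩ : ∃ c, c = ⁅y, a⁆ := ⟨_, rfl⟩
  have e2 : c = w * (a⁻¹ * a⁻¹) := by rw [hcd, commutatorElement_def, e1]; group
  have hwi := Subgroup.mem_center_iff.1 ((Subgroup.center Γ).inv_mem hw)
  have e3 : y * c * y⁻¹ = c⁻¹ := by
    have h1 : y * c * y⁻¹ = w * ((y * a * y⁻¹)⁻¹ * (y * a * y⁻¹)⁻¹) := by
      rw [e2, ← mul_assoc, hwc y]; group
    rw [h1, e1, e2]
    have h2 : (w * a⁻¹)⁻¹ = a * w⁻¹ := by group
    rw [h2, hwi a, mul_inv_rev, mul_inv_rev, inv_inv]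
    calc w * (w⁻¹ * a * (w⁻¹ * a)) = a * w⁻¹ * a := by group
      _ = a * (w⁻¹ * a) := by group
      _ = a * (a * w⁻¹) := by rw [hwi a]
      _ = a * a * w⁻¹ := by group
  have e4 : a * c * a⁻¹ = c := by
    rw [e2, ← mul_assoc, hwc a]; group
  have hN : (Subgroup.zpowers c).Normal := by
    apply normal_zpowers hσ.cext hg
    · rw [e3]; exact Subgroup.inv_mem _ (Subgroup.mem_zpowers c)
    · rw [e4]; exact Subgroup.mem_zpowers c
  have hcomm : commutator Γ ≤ Subgroup.zpowers c := comm_le_two hσ.cext hg (by rw [← hcd]; exact Subgroup.mem_zpowers c)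
  have hcw : Commute w a⁻¹ := ((hwc a⁻¹).symm)
  have hpow : ∀ i : ℕ, c ^ i = w ^ i * (a ^ (2 * i))⁻¹ := by
    intro i
    have h3 : Commute w (a⁻¹ * a⁻¹) := (hwc (a⁻¹ * a⁻¹)).symm
    rw [e2, h3.mul_pow]
    congr 1
    rw [pow_mul, ← inv_pow, pow_two, mul_inv_rev]
  have hcK : c ^ K = 1 := by
    have h1 : y * a ^ K * y⁻¹ = w ^ K * (a ^ K)⁻¹ := by
      rw [← conj_pow, e1, hcw.mul_pow, inv_pow]
    rw [hK] at h1
    have h2 : w ^ K = a ^ K * a ^ K := by rw [eq_mul_inv_iff_mul_eq] at h1; exact h1.symm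
    rw [hpow, h2, ← pow_add, two_mul, mul_inv_cancel]
  have hσc : σ c = (σ a)⁻¹ * (σ a)⁻¹ := by
    rw [hcd, map_commutatorElement, commutatorElement_def, hrel]
  have hz : ∀ j : ℤ, σ c ^ j = (σ a ^ (2 * j))⁻¹ := by
    intro j
    rw [hσc, ← mul_inv_rev, inv_zpow, ← zpow_two, ← zpow_mul]
  apply ker_cyclic hσ hcomm (t := t) (k := k)
  · intro j hj
    rw [hz, inv_eq_one] at hj
    exact ht j hj
  · have := hz t
    rw [zpow_natCast] at this
    rw [this, inv_eq_one]
    have h5 : (2 * (t : ℤ)) = ((2 * t : ℕ) : ℤ) := by push_cast; ring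
    rw [h5, zpow_natCast]; exact htt
  · obtain ⟨q, hq⟩ := hk
    rw [hq, pow_mul, hcK, one_pow]

end two

theorem ker_bot_of_surj {Γ : Type u} {Q : Type v} [Group Γ] [Group Q] {σ : Γ →* Q} (h : ∃ π : Multiplicative (ZMod 1) →* σ.ker, Function.Surjective π) :
    σ.ker = ⊥ := by
  obtain ⟨π, hπ⟩ := h
  have h1 : Subsingleton (Multiplicative (ZMod 1)) := inferInstanceAs (Subsingleton (ZMod 1))
  have h2 : Subsingleton σ.ker := hπ.subsingleton
  exact Subgroup.eq_bot_of_subsingleton _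

/-! ### dihedral groups -/
section dihedral
variable (n : ℕ)

theorem dih_gen : Subgroup.closure ({DihedralGroup.sr (0 : ZMod n), DihedralGroup.r (1 : ZMod n)} : Set (DihedralGroup n)) = ⊤ := by
  rw [eq_top_iff]
  have hr : DihedralGroup.r 1 ∈ Subgroup.closure ({DihedralGroup.sr (0 : ZMod n), DihedralGroup.r (1 : ZMod n)} : Set (DihedralGroup n)) :=
    Subgroup.subset_closure (by simp)
  have hs : DihedralGroup.sr 0 ∈ Subgroup.closure ({DihedralGroup.sr (0 : ZMod n), DihedralGroup.r (1 : ZMod n)} : Set (DihedralGroup n)) :=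
    Subgroup.subset_closure (by simp)
  have h1 : ∀ i : ZMod n, DihedralGroup.r i ∈ Subgroup.closure ({DihedralGroup.sr (0 : ZMod n), DihedralGroup.r (1 : ZMod n)} : Set (DihedralGroup n)) := by
    intro i
    obtain ⟨k, rfl⟩ := ZMod.intCast_surjective i
    have : (DihedralGroup.r ((k : ℤ) : ZMod n)) = (DihedralGroup.r 1) ^ k := by rw [DihedralGroup.r_one_zpow]
    rw [this]
    exact Subgroup.zpow_mem _ hr k
  intro g _
  rcases g with i | i
  · exact h1 i
  · have : (DihedralGroup.sr i) = DihedralGroup.sr 0 * DihedralGroup.r i := by simp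
    rw [this]
    exact Subgroup.mul_mem _ hs (h1 i)

theorem dih_rel : (DihedralGroup.sr (0 : ZMod n)) * DihedralGroup.r 1 * (DihedralGroup.sr 0)⁻¹ = (DihedralGroup.r 1)⁻¹ := by
  simp

variable [NeZero n] {Γ : Type u} [Group Γ] [Finite Γ] {σ : Γ →* DihedralGroup n}

theorem dih_ker (hσ : IsStemExtension σ) {t k : ℕ} (ht : ∀ j : ℤ, (n : ℤ) ∣ 2 * j → (t : ℤ) ∣ j) (htt : n ∣ 2 * t) (hk : n ∣ t * k) :
    ∃ π : Multiplicative (ZMod k) →* σ.ker, Function.Surjective π := by
  obtain ⟨y, hy⟩ := hσ.1 (DihedralGroup.sr 0)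
  obtain ⟨a, ha⟩ := hσ.1 (DihedralGroup.r 1)
  refine dih_core (y := y) (a := a) (K := n) (t := t) hσ ?_ ?_ ?_ ?_ ?_ ?_
  · rw [hy, ha]; exact dih_gen n
  · rw [hy, ha]; exact dih_rel n
  · have h1 : a ^ n ∈ Subgroup.center Γ := by
      apply hσ.2.1
      rw [MonoidHom.mem_ker, map_pow, ha, DihedralGroup.r_one_pow_n]
    rw [Subgroup.mem_center_iff.1 h1 y, mul_inv_cancel_right]
  · intro j hj
    rw [ha, DihedralGroup.r_one_zpow, DihedralGroup.one_def, DihedralGroup.r.injEq] at hj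
    exact ht j ((ZMod.intCast_zmod_eq_zero_iff_dvd _ _).1 hj)
  · rw [ha, DihedralGroup.r_one_pow, DihedralGroup.one_def, DihedralGroup.r.injEq]
    exact (ZMod.natCast_eq_zero_iff _ _).2 htt
  · exact hk

end dihedral

theorem dih_odd (n : ℕ) (hn : Odd n) : HasCyclicSchurMultiplier (DihedralGroup n) 1 := by
  have : NeZero n := ⟨by rintro rfl; exact absurd hn (by decide)⟩
  apply trivial_of
  intro Γ _ _ σ hσ
  apply ker_bot_of_surj
  apply dih_ker n hσ (t := n) (k := 1)
  · intro j hj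
    have hc : IsCoprime (n : ℤ) 2 := by
      rw [Int.isCoprime_iff_gcd_eq_one]
      have := Nat.Coprime.symm ((Nat.coprime_two_left).2 hn)
      exact this
    exact hc.dvd_of_dvd_mul_left hj
  · exact ⟨2, by ring⟩
  · simp

/-- the natural map from the quaternion to the dihedral group -/
def quatDih (n : ℕ) [NeZero n] : QuaternionGroup n →* DihedralGroup n where
  toFun x := match x with
    | QuaternionGroup.a i => DihedralGroup.r (ZMod.castHom (Dvd.intro_left 2 rfl : n ∣ 2 * n) (ZMod n) i)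
    | QuaternionGroup.xa i => DihedralGroup.sr (ZMod.castHom (Dvd.intro_left 2 rfl : n ∣ 2 * n) (ZMod n) i)
  map_one' := by
    rw [QuaternionGroup.one_def]
    simp
  map_mul' x y := by
    rcases x with i | i <;> rcases y with j | j <;> simp

theorem quatDih_a (n : ℕ) [NeZero n] (i : ZMod (2 * n)) : quatDih n (QuaternionGroup.a i) =
    DihedralGroup.r (ZMod.castHom (Dvd.intro_left 2 rfl : n ∣ 2 * n) (ZMod n) i) := rfl
theorem quatDih_xa (n : ℕ) [NeZero n] (i : ZMod (2 * n)) : quatDih n (QuaternionGroup.xa i) =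
    DihedralGroup.sr (ZMod.castHom (Dvd.intro_left 2 rfl : n ∣ 2 * n) (ZMod n) i) := rfl

theorem quatDih_surj (n : ℕ) [NeZero n] : Function.Surjective (quatDih n) := by
  rintro (i | i)
  · obtain ⟨k, rfl⟩ := ZMod.intCast_surjective i
    exact ⟨QuaternionGroup.a (k : ZMod (2 * n)), by rw [quatDih_a, map_intCast]⟩
  · obtain ⟨k, rfl⟩ := ZMod.intCast_surjective i
    exact ⟨QuaternionGroup.xa (k : ZMod (2 * n)), by rw [quatDih_xa, map_intCast]⟩

theorem quatDih_ker (n : ℕ) [NeZero n] {x : QuaternionGroup n} (hx : x ∈ (quatDih n).ker) : x = 1 ∨ x = QuaternionGroup.a (n : ZMod (2 * n)) := by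
  rw [MonoidHom.mem_ker, DihedralGroup.one_def] at hx
  rcases x with i | i
  · rw [quatDih_a, DihedralGroup.r.injEq] at hx
    obtain ⟨k, rfl⟩ := ZMod.intCast_surjective i
    rw [map_intCast, ZMod.intCast_zmod_eq_zero_iff_dvd] at hx
    obtain ⟨q, rfl⟩ := hx
    rcases Int.even_or_odd' q with ⟨r, rfl | rfl⟩
    · left
      rw [QuaternionGroup.one_def]
      congr 1
      rw [ZMod.intCast_zmod_eq_zero_iff_dvd]
      exact ⟨r, by push_cast; ring⟩
    · right
      congr 1
      have : ((n : ℤ) * (2 * r + 1)) = ((2 * n : ℕ) : ℤ) * r + n := by push_cast; ring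
      rw [this, Int.cast_add, Int.cast_mul, Int.cast_natCast, Int.cast_natCast, ZMod.natCast_self, zero_mul, zero_add]
  · rw [quatDih_xa] at hx
    cases hx

theorem quat_stem (n : ℕ) [NeZero n] (hn : Even n) : IsStemExtension (quatDih n) ∧ Nat.card (quatDih n).ker = 2 := by
  refine ⟨⟨quatDih_surj n, ?_, ?_⟩, ?_⟩
  · intro x hx
    rcases quatDih_ker n hx with rfl | rfl
    · exact Subgroup.one_mem _
    · rw [Subgroup.mem_center_iff]
      rintro (i | i)
      · simp [add_comm]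
      · rw [QuaternionGroup.xa_mul_a, QuaternionGroup.a_mul_xa]
        congr 1
        rw [sub_eq_add_neg]
        congr 1
        have : ((n : ZMod (2 * n)) + n) = 0 := by
          have := ZMod.natCast_self (2 * n)
          rw [← this]; push_cast; ring
        exact eq_neg_of_add_eq_zero_left this
  · intro x hx
    rcases quatDih_ker n hx with rfl | rfl
    · exact Subgroup.one_mem _
    · obtain ⟨m, rfl⟩ := hn
      have : QuaternionGroup.a (((m + m : ℕ)) : ZMod (2 * (m + m))) = ⁅QuaternionGroup.a (m : ZMod (2 * (m + m))), QuaternionGroup.xa 0⁆ := by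
        rw [commutatorElement_def, eq_mul_inv_iff_mul_eq, eq_mul_inv_iff_mul_eq]
        simp
      rw [this]
      exact Subgroup.commutator_mem_commutator (Subgroup.mem_top _) (Subgroup.mem_top _)
  · have h1 := Subgroup.card_mul_index (quatDih n).ker
    rw [Subgroup.index_ker, MonoidHom.range_eq_top.2 (quatDih_surj n), Subgroup.card_top] at h1
    rw [Nat.card_eq_fintype_card, Nat.card_eq_fintype_card (α := DihedralGroup n), DihedralGroup.card, Nat.card_eq_fintype_card, QuaternionGroup.card] at h1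
    rw [Nat.card_eq_fintype_card]
    have hn := NeZero.pos n
    have : Fintype.card (quatDih n).ker * (2 * n) = 2 * (2 * n) := by rw [h1]; ring
    exact Nat.eq_of_mul_eq_mul_right (by omega) this

theorem dih_even (n : ℕ) [NeZero n] (hn : Even n) : HasCyclicSchurMultiplier (DihedralGroup n) 2 := by
  refine ⟨⟨QuaternionGroup n, inferInstance, inferInstance, quatDih n, (quat_stem n hn).1, ⟨?_⟩⟩, ?_⟩
  · have : Fact (Nat.Prime 2) := ⟨Nat.prime_two⟩
    exact mulEquivOfPrimeCardEq (quat_stem n hn).2 (by rw [Nat.card_congr Multiplicative.toAdd, Nat.card_zmod])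
  · intro Γ _ _ σ hσ
    obtain ⟨m, rfl⟩ := hn
    apply dih_ker (m + m) hσ (t := m) (k := 2)
    · rintro j ⟨q, hq⟩
      refine ⟨q, ?_⟩
      push_cast at hq
      linarith
    · exact ⟨1, by ring⟩
    · exact ⟨1, by ring⟩

theorem quat_gen (n : ℕ) : Subgroup.closure ({QuaternionGroup.xa (0 : ZMod (2 * n)), QuaternionGroup.a (1 : ZMod (2 * n))} : Set (QuaternionGroup n)) = ⊤ := by
  rw [eq_top_iff]
  have hr : QuaternionGroup.a 1 ∈ Subgroup.closure ({QuaternionGroup.xa (0 : ZMod (2 * n)), QuaternionGroup.a (1 : ZMod (2 * n))} : Set (QuaternionGroup n)) :=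
    Subgroup.subset_closure (by simp)
  have hs : QuaternionGroup.xa 0 ∈ Subgroup.closure ({QuaternionGroup.xa (0 : ZMod (2 * n)), QuaternionGroup.a (1 : ZMod (2 * n))} : Set (QuaternionGroup n)) :=
    Subgroup.subset_closure (by simp)
  have h0 : ∀ k : ℤ, (QuaternionGroup.a ((k : ℤ) : ZMod (2 * n)) : QuaternionGroup n) = (QuaternionGroup.a 1) ^ k := by
    intro k
    let f : Multiplicative (ZMod (2 * n)) →* QuaternionGroup n :=
      { toFun := fun i => QuaternionGroup.a (Multiplicative.toAdd i), map_one' := rfl, map_mul' := fun i j => by simp }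
    have h1 := map_zpow f (Multiplicative.ofAdd 1) k
    have h2 : (Multiplicative.ofAdd (1 : ZMod (2 * n))) ^ k = Multiplicative.ofAdd ((k : ℤ) : ZMod (2 * n)) := by
      rw [← ofAdd_zsmul, zsmul_eq_mul, mul_one]
    rw [h2] at h1
    exact h1
  have h1 : ∀ i : ZMod (2 * n), QuaternionGroup.a i ∈ Subgroup.closure ({QuaternionGroup.xa (0 : ZMod (2 * n)), QuaternionGroup.a (1 : ZMod (2 * n))} : Set (QuaternionGroup n)) := by
    intro i
    obtain ⟨k, rfl⟩ := ZMod.intCast_surjective i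
    rw [h0]
    exact Subgroup.zpow_mem _ hr k
  intro g _
  rcases g with i | i
  · exact h1 i
  · have : (QuaternionGroup.xa i) = QuaternionGroup.xa 0 * QuaternionGroup.a i := by simp
    rw [this]
    exact Subgroup.mul_mem _ hs (h1 i)

theorem quat_trivial (n : ℕ) [NeZero n] : HasCyclicSchurMultiplier (QuaternionGroup n) 1 := by
  apply trivial_of
  intro Γ _ _ σ hσ
  apply ker_bot_of_surj
  obtain ⟨y, hy⟩ := hσ.1 (QuaternionGroup.xa 0)
  obtain ⟨a, ha⟩ := hσ.1 (QuaternionGroup.a 1)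
  have hord : orderOf (QuaternionGroup.a (1 : ZMod (2 * n)) : QuaternionGroup n) = 2 * n := QuaternionGroup.orderOf_a_one
  have hz : ∀ j : ℤ, (QuaternionGroup.a (1 : ZMod (2 * n)) : QuaternionGroup n) ^ (2 * j) = 1 → (n : ℤ) ∣ j := by
    intro j hj
    rw [← orderOf_dvd_iff_zpow_eq_one, hord] at hj
    push_cast at hj
    exact Int.dvd_of_mul_dvd_mul_left (by norm_num) hj
  refine dih_core (y := y) (a := a) (K := n) (t := n) (k := 1) hσ ?_ ?_ ?_ ?_ ?_ ?_
  · rw [hy, ha]; exact quat_gen n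
  · rw [hy, ha, mul_inv_eq_iff_eq_mul, eq_inv_mul_iff_mul_eq]
    simp
  · have h1 : y * y * (a ^ n)⁻¹ ∈ Subgroup.center Γ := by
      apply hσ.2.1
      rw [MonoidHom.mem_ker, map_mul, map_mul, map_inv, map_pow, ha, hy, QuaternionGroup.a_one_pow, mul_inv_eq_one]
      simp
    obtain ⟨z, hz⟩ : ∃ z, z = y * y * (a ^ n)⁻¹ := ⟨_, rfl⟩
    rw [← hz] at h1
    have h2 : a ^ n = z⁻¹ * (y * y) := by rw [hz]; group
    have h3 := Subgroup.mem_center_iff.1 ((Subgroup.center Γ).inv_mem h1) y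
    rw [h2, ← mul_assoc y, h3]; group
  · intro j hj
    rw [ha] at hj
    exact hz j hj
  · rw [ha]; exact orderOf_dvd_iff_pow_eq_one.1 (by rw [hord])
  · simp

/-! ### abelian groups of rank two -/

theorem ab_gen (m n : ℕ) : Subgroup.closure ({Multiplicative.ofAdd ((1, 0) : ZMod m × ZMod n), Multiplicative.ofAdd ((0, 1) : ZMod m × ZMod n)} :
    Set (Multiplicative (ZMod m × ZMod n))) = ⊤ := by
  rw [eq_top_iff]
  intro g _
  have hr : Multiplicative.ofAdd ((1, 0) : ZMod m × ZMod n) ∈ Subgroup.closure ({Multiplicative.ofAdd ((1, 0) : ZMod m × ZMod n), Multiplicative.ofAdd ((0, 1) : ZMod m × ZMod n)} :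
    Set (Multiplicative (ZMod m × ZMod n))) := Subgroup.subset_closure (by simp)
  have hs : Multiplicative.ofAdd ((0, 1) : ZMod m × ZMod n) ∈ Subgroup.closure ({Multiplicative.ofAdd ((1, 0) : ZMod m × ZMod n), Multiplicative.ofAdd ((0, 1) : ZMod m × ZMod n)} :
    Set (Multiplicative (ZMod m × ZMod n))) := Subgroup.subset_closure (by simp)
  obtain ⟨i, hi⟩ := ZMod.intCast_surjective (Multiplicative.toAdd g).1
  obtain ⟨j, hj⟩ := ZMod.intCast_surjective (Multiplicative.toAdd g).2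
  have : g = (Multiplicative.ofAdd ((1, 0) : ZMod m × ZMod n)) ^ i * (Multiplicative.ofAdd ((0, 1) : ZMod m × ZMod n)) ^ j := by
    rw [← ofAdd_zsmul, ← ofAdd_zsmul, ← ofAdd_add]
    apply Multiplicative.toAdd.injective
    rw [toAdd_ofAdd]
    apply Prod.ext
    · simp [← hi]
    · simp [← hj]
  rw [this]
  exact Subgroup.mul_mem _ (Subgroup.zpow_mem _ hr i) (Subgroup.zpow_mem _ hs j)

theorem ab_two (m n : ℕ) [NeZero m] [NeZero n] (hnm : n ∣ m) : HasCyclicSchurMultiplier (Multiplicative (ZMod m × ZMod n)) n := by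
  let a : Multiplicative (ZMod m × ZMod n) →* Multiplicative (ZMod n) :=
    ((ZMod.castHom hnm (ZMod n)).toAddMonoidHom.comp (AddMonoidHom.fst _ _)).toMultiplicative
  let b : Multiplicative (ZMod m × ZMod n) →* Multiplicative (ZMod n) := (AddMonoidHom.snd _ _).toMultiplicative
  refine ⟨⟨Tw (biZ a b), inferInstance, inferInstance, Tw.proj (biZ a b), ⟨Tw.proj_surj, Tw.cext.2, ?_⟩, ⟨?_⟩⟩, ?_⟩
  · intro x hx
    rw [Tw.mem_ker.1 hx]
    obtain ⟨k, hk⟩ := ZMod.intCast_surjective (Multiplicative.toAdd x.snd)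
    have h1 := Tw.inj_mem_commutator (β := biZ a b) (Multiplicative.ofAdd ((k : ZMod m), (0 : ZMod n))) (Multiplicative.ofAdd ((0 : ZMod m), (1 : ZMod n)))
      (mul_comm _ _)
    convert h1 using 2
    rw [biZ_apply, biZ_apply]
    have e1 : Multiplicative.toAdd (a (Multiplicative.ofAdd ((k : ZMod m), (0 : ZMod n)))) = k := by
      show (ZMod.castHom hnm (ZMod n)) (k : ZMod m) = k
      rw [map_intCast]
    have e2 : Multiplicative.toAdd (b (Multiplicative.ofAdd ((0 : ZMod m), (1 : ZMod n)))) = 1 := rfl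
    have e3 : Multiplicative.toAdd (a (Multiplicative.ofAdd ((0 : ZMod m), (1 : ZMod n)))) = 0 := by
      show (ZMod.castHom hnm (ZMod n)) (0 : ZMod m) = 0
      rw [map_zero]
    rw [e1, e2, e3, mul_one, zero_mul, ofAdd_zero, inv_one, mul_one, hk]
    rfl
  · exact
      { toFun := fun x => x.1.snd
        invFun := fun a => ⟨Tw.inj _ a, rfl⟩
        left_inv := fun x => Subtype.ext (Tw.mem_ker.1 x.2).symm
        right_inv := fun a => rfl
        map_mul' := fun x y => by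
          show (x.1 * y.1).snd = x.1.snd * y.1.snd
          have hx : x.1.fst = 1 := x.2
          rw [Tw.mul_snd, hx, map_one, MonoidHom.one_apply, mul_one] }
  · intro Γ _ _ σ hσ
    obtain ⟨x, hx⟩ := hσ.1 (Multiplicative.ofAdd ((1, 0) : ZMod m × ZMod n))
    obtain ⟨y, hy⟩ := hσ.1 (Multiplicative.ofAdd ((0, 1) : ZMod m × ZMod n))
    have hc : ⁅x, y⁆ ∈ Subgroup.center Γ := by
      apply hσ.2.1
      rw [MonoidHom.mem_ker, map_commutatorElement]
      exact commutatorElement_eq_one_iff_mul_comm.2 (mul_comm _ _)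
    have hcc := Subgroup.mem_center_iff.1 hc
    have hN : (Subgroup.zpowers ⁅x, y⁆).Normal := central_normal (by rw [Subgroup.zpowers_le]; exact hc)
    have hcomm : commutator Γ ≤ Subgroup.zpowers ⁅x, y⁆ := comm_le_two hσ.cext (by rw [hx, hy]; exact ab_gen m n) (Subgroup.mem_zpowers _)
    have hpow : ∀ k : ℕ, x * y ^ k * x⁻¹ = ⁅x, y⁆ ^ k * y ^ k := by
      intro k
      rw [← conj_pow]
      have e : x * y * x⁻¹ = ⁅x, y⁆ * y := by rw [commutatorElement_def]; group
      rw [e]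
      have hcy : Commute ⁅x, y⁆ y := (hcc y).symm
      exact hcy.mul_pow k
    have hn : ⁅x, y⁆ ^ n = 1 := by
      have h1 := hpow n
      have h2 : y ^ n ∈ Subgroup.center Γ := by
        apply hσ.2.1
        rw [MonoidHom.mem_ker, map_pow, hy, ← ofAdd_nsmul]
        have : n • ((0, 1) : ZMod m × ZMod n) = 0 := by
          apply Prod.ext <;> simp
        rw [this]; rfl
      rw [Subgroup.mem_center_iff.1 h2 x, mul_inv_cancel_right] at h1
      exact mul_right_cancel (h1.symm.trans (one_mul _).symm)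
    apply ker_cyclic hσ hcomm (t := 1) (k := n)
    · intro j _; exact one_dvd _
    · rw [pow_one, map_commutatorElement]
      exact commutatorElement_eq_one_iff_mul_comm.2 (mul_comm _ _)
    · rw [one_mul, hn]

end Cfsg.Agent.H9.SM
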