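import Cfsg.Agent.H9.SM.Tra
set_option autoImplicit false

/-! Uniqueness of covers over the group. -/

namespace Cfsg.Agent.H9.SM
open Cfsg
open scoped commutatorElement
universe u v w x y

/-- a homomorphism onto a central complement -/
theorem ext_hom {E : Type u} [Group E] (C : Subgroup E) (hC : C ≤ Subgroup.center E) (h1 : C ⊓ commutator E = ⊥) (N : ℕ)
    (h2 : ∀ x : E, ∃ c ∈ C, c⁻¹ * x ^ N ∈ commutator E) : ∃ ω : E →* C, ∀ x ∈ C, (ω x : E) = x ^ N := by
  choose c hc hcx using h2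
  have huniq : ∀ a b : E, a ∈ C → b ∈ C → a⁻¹ * b ∈ commutator E → a = b := by
    intro a b ha hb h
    have h3 : a⁻¹ * b ∈ C ⊓ commutator E := ⟨C.mul_mem (C.inv_mem ha) hb, h⟩
    rw [h1, Subgroup.mem_bot, inv_mul_eq_one] at h3
    exact h3
  have key : ∀ x : E, Abelianization.of (c x) = Abelianization.of x ^ N := by
    intro x
    have h3 : Abelianization.of ((c x)⁻¹ * x ^ N) = 1 := (QuotientGroup.eq_one_iff _).2 (hcx x)
    rw [map_mul, map_inv, map_pow, inv_mul_eq_one] at h3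
    exact h3
  have key2 : ∀ a b : E, a ∈ C → b ∈ C → Abelianization.of a = Abelianization.of b → a = b := by
    intro a b ha hb h
    apply huniq a b ha hb
    apply (QuotientGroup.eq_one_iff _).1
    show Abelianization.of (a⁻¹ * b) = 1
    rw [map_mul, map_inv, h, inv_mul_cancel]
  refine ⟨MonoidHom.mk' (fun x => ⟨c x, hc x⟩) ?_, ?_⟩
  · intro a b
    apply Subtype.ext
    show c (a * b) = c a * c b
    apply key2 _ _ (hc _) (C.mul_mem (hc _) (hc _))
    rw [key, map_mul, map_mul, key, key, mul_pow]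
  · intro x hx
    show c x = x ^ N
    apply key2 _ _ (hc _) (C.pow_mem hx N)
    rw [key, map_pow]

theorem unique_of_coprime {Q : Type u} [Group Q] [Finite Q] {A : Type v} [CommGroup A] (hA : HasSchurMultiplier Q A)
    (hcop : Nat.Coprime (Nat.card (Abelianization Q)) (Nat.card A)) {Γ₁ : Type w} {Γ₂ : Type x} [Group Γ₁] [Finite Γ₁] [Group Γ₂] [Finite Γ₂]
    (σ₁ : Γ₁ →* Q) (σ₂ : Γ₂ →* Q) (h₁ : IsStemExtension σ₁) (h₂ : IsStemExtension σ₂) (e₁ : Nonempty (σ₁.ker ≃* A)) (e₂ : Nonempty (σ₂.ker ≃* A)) :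
    ∃ e : Γ₁ ≃* Γ₂, σ₂.comp e.toMonoidHom = σ₁ := by
  obtain ⟨e₁⟩ := e₁
  obtain ⟨e₂⟩ := e₂
  obtain ⟨eA⟩ := has_iff.1 hA
  have hfM : Finite (Mu (std Q)) := inferInstance
  have hfA : Finite A := Finite.of_equiv _ eA.symm.toEquiv
  obtain ⟨η₁, hη₁⟩ := exists_lift (std Q) h₁.cext
  obtain ⟨η₂, hη₂⟩ := exists_lift (std Q) h₂.cext
  have s₁ := surj_of_stem h₁ (pr_surj (std Q) (std_surj Q)) hη₁
  set E := FE (std Q) with hE
  set R := (pr (std Q)).ker with hR
  have hc1 : η₁.ker ≤ R := by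
    intro x hx
    rw [MonoidHom.mem_ker] at hx
    rw [hR, MonoidHom.mem_ker, ← hη₁]; show σ₁ (η₁ x) = 1; rw [hx, map_one]
  have hm1 := Mu_map (std Q) (std_surj Q) h₁.cext hη₁
  rw [inf_eq_left.2 h₁.2.2] at hm1
  have hbij : Function.Bijective (fun x : Mu (std Q) => (⟨η₁ x, by rw [hm1]; exact ⟨x, x.2, rfl⟩⟩ : σ₁.ker)) := by
    rw [Nat.bijective_iff_surjective_and_card]
    refine ⟨?_, Nat.card_congr (eA.symm.trans e₁.symm).toEquiv⟩
    rintro ⟨y, hy⟩
    have hy' := hy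
    rw [hm1] at hy'
    obtain ⟨m, hm, rfl⟩ := hy'
    exact ⟨⟨m, hm⟩, rfl⟩
  have hC1 : η₁.ker ⊓ commutator E = ⊥ := by
    rw [eq_bot_iff]
    rintro x ⟨hx1, hx2⟩
    have hx3 : x ∈ Mu (std Q) := ⟨hc1 hx1, hx2⟩
    have h3 := hbij.1 (a₁ := ⟨x, hx3⟩) (a₂ := 1) (Subtype.ext (by
      show η₁ x = η₁ 1
      rw [map_one]; exact hx1))
    rw [Subgroup.mem_bot]
    exact congrArg Subtype.val h3
  obtain ⟨N, hN⟩ : ∃ N, N = Nat.card (Abelianization Q) := ⟨_, rfl⟩
  have hdec : ∀ x : E, ∃ c ∈ η₁.ker, c⁻¹ * x ^ N ∈ commutator E := by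
    intro x
    -- `x ^ N` maps into the commutator subgroup of `Q`
    have h3 : pr (std Q) (x ^ N) ∈ commutator Q := by
      apply (QuotientGroup.eq_one_iff _).1
      show Abelianization.of (pr (std Q) (x ^ N)) = 1
      rw [map_pow, map_pow, hN, pow_card_eq_one']
    have h4 : (commutator E).map (pr (std Q)) = commutator Q := by
      rw [commutator_def, Subgroup.map_commutator, commutator_def, ← MonoidHom.range_eq_map,
        MonoidHom.range_eq_top.2 (pr_surj (std Q) (std_surj Q))]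
    rw [← h4] at h3
    obtain ⟨y, hy, h5⟩ := h3
    -- `x ^ N * y⁻¹ ∈ R`
    have h6 : x ^ N * y⁻¹ ∈ R := by rw [hR, MonoidHom.mem_ker, map_mul, map_inv, h5, mul_inv_cancel]
    have h7 : η₁ (x ^ N * y⁻¹) ∈ σ₁.ker := by
      rw [MonoidHom.mem_ker]
      have : σ₁ (η₁ (x ^ N * y⁻¹)) = pr (std Q) (x ^ N * y⁻¹) := congrArg (fun f : E →* Q => f (x ^ N * y⁻¹)) hη₁
      rw [this]; exact h6
    rw [hm1] at h7
    obtain ⟨m, hm, h8⟩ := h7
    refine ⟨x ^ N * y⁻¹ * m⁻¹, ?_, ?_⟩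
    · rw [MonoidHom.mem_ker, map_mul, map_inv, h8, mul_inv_cancel]
    · have e : (x ^ N * y⁻¹ * m⁻¹)⁻¹ * x ^ N = m * y := by group
      rw [e]; exact (commutator E).mul_mem hm.2 hy
  obtain ⟨ω, hω⟩ := ext_hom η₁.ker (hc1.trans (pr_central _)) hC1 N hdec
  -- the inverse of `N` modulo the order of `A`
  have hcop' : Nat.Coprime N (Nat.card A) := by rw [hN]; exact hcop
  obtain ⟨i, hi⟩ : ∃ i : ℤ, ∀ z ∈ σ₂.ker, z ^ ((N : ℤ) * i) = z := by
    refine ⟨Nat.gcdA N (Nat.card A), ?_⟩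
    intro z hz
    have h1 := Nat.gcd_eq_gcd_ab N (Nat.card A)
    rw [hcop', Nat.cast_one] at h1
    have h2 : (N : ℤ) * N.gcdA (Nat.card A) = 1 + ((Nat.card A : ℕ) : ℤ) * (-(N.gcdB (Nat.card A))) := by linarith
    have h3 : (⟨z, hz⟩ : σ₂.ker) ^ Nat.card A = 1 := by rw [← Nat.card_congr e₂.toEquiv]; exact pow_card_eq_one'
    have h4 : z ^ Nat.card A = 1 := congrArg Subtype.val h3
    rw [h2, zpow_add, zpow_one, zpow_mul, zpow_natCast, h4, one_zpow, mul_one]
  have hk2 : ∀ c : η₁.ker, η₂ c ∈ σ₂.ker := by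
    intro c
    rw [MonoidHom.mem_ker]
    have : σ₂ (η₂ c) = pr (std Q) c := congrArg (fun f : E →* Q => f c) hη₂
    rw [this]; exact hc1 c.2
  have hzc : ∀ (x : E) (k : ℤ), (η₂ (ω x)) ^ k ∈ Subgroup.center Γ₂ := fun x k => (Subgroup.center Γ₂).zpow_mem (h₂.2.1 (hk2 (ω x))) k
  let η' : E →* Γ₂ := MonoidHom.mk' (fun x => η₂ x * (η₂ (ω x)) ^ (-i)) (by
    intro a b
    have hcomm : Commute (η₂ (ω a)) (η₂ (ω b)) := Subgroup.mem_center_iff.1 (h₂.2.1 (hk2 (ω b))) _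
    have h3 : (η₂ (ω (a * b))) ^ (-i) = (η₂ (ω a)) ^ (-i) * (η₂ (ω b)) ^ (-i) := by
      rw [map_mul, Subgroup.coe_mul, map_mul, hcomm.mul_zpow]
    rw [map_mul, h3]
    have h4 := Subgroup.mem_center_iff.1 (hzc a (-i)) (η₂ b)
    calc η₂ a * η₂ b * ((η₂ (ω a)) ^ (-i) * (η₂ (ω b)) ^ (-i)) = η₂ a * (η₂ b * (η₂ (ω a)) ^ (-i)) * (η₂ (ω b)) ^ (-i) := by group
      _ = η₂ a * ((η₂ (ω a)) ^ (-i) * η₂ b) * (η₂ (ω b)) ^ (-i) := by rw [h4]
      _ = _ := by group)
  have hη' : σ₂.comp η' = pr (std Q) := by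
    refine MonoidHom.ext fun x => ?_
    show σ₂ (η₂ x * (η₂ (ω x)) ^ (-i)) = pr (std Q) x
    have h5 : σ₂ (η₂ (ω x)) = 1 := hk2 (ω x)
    rw [map_mul, map_zpow, h5, one_zpow, mul_one]
    exact congrArg (fun f : E →* Q => f x) hη₂
  have hker : η₁.ker ≤ η'.ker := by
    intro x hx
    show η₂ x * (η₂ (ω x)) ^ (-i) = 1
    have h6 := hi (η₂ x) (hk2 ⟨x, hx⟩)
    rw [hω x hx, map_pow, ← zpow_natCast, ← zpow_mul, mul_neg, zpow_neg, h6, mul_inv_cancel]
  let f : Γ₁ →* Γ₂ := (η₁.liftOfSurjective s₁) ⟨η', hker⟩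
  have hf : ∀ x, f (η₁ x) = η' x := fun x => MonoidHom.liftOfRightInverse_comp_apply η₁ _ _ ⟨η', hker⟩ x
  have hf2 : σ₂.comp f = σ₁ := by
    refine MonoidHom.ext fun g => ?_
    obtain ⟨x, rfl⟩ := s₁ g
    show σ₂ (f (η₁ x)) = σ₁ (η₁ x)
    rw [hf]
    have a1 : σ₂ (η' x) = pr (std Q) x := congrArg (fun f : E →* Q => f x) hη'
    have a2 : σ₁ (η₁ x) = pr (std Q) x := congrArg (fun f : E →* Q => f x) hη₁
    rw [a1, a2]
  have hsurj : Function.Surjective f := surj_of_stem h₂ h₁.1 hf2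
  have hcard : Nat.card Γ₁ = Nat.card Γ₂ := by
    have c1 := Subgroup.card_mul_index σ₁.ker
    have c2 := Subgroup.card_mul_index σ₂.ker
    rw [Subgroup.index_ker, MonoidHom.range_eq_top.2 h₁.1, Subgroup.card_top, Nat.card_congr e₁.toEquiv] at c1
    rw [Subgroup.index_ker, MonoidHom.range_eq_top.2 h₂.1, Subgroup.card_top, Nat.card_congr e₂.toEquiv] at c2
    rw [← c1, ← c2]
  have hb : Function.Bijective f := (Nat.bijective_iff_surjective_and_card f).2 ⟨hsurj, hcard⟩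
  exact ⟨MulEquiv.ofBijective f hb, MonoidHom.ext fun g => congrArg (fun h : Γ₁ →* Q => h g) hf2⟩

/-- divisibility by `p` in finitely generated free abelian groups is detected by homomorphisms -/
theorem exists_coord {C : Type u} [CommGroup C] [Group.FG C] (hC : ∀ c : C, ∀ k : ℕ, 0 < k → c ^ k = 1 → c = 1) (p : ℕ) (c : C)
    (hc : ∀ d : C, d ^ p ≠ c) : ∃ φ : C →* Multiplicative ℤ, ¬ (p : ℤ) ∣ Multiplicative.toAdd (φ c) := by
  have hfg : Module.Finite ℤ (Additive C) := by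
    rw [Module.Finite.iff_addGroup_fg, ← GroupFG.iff_add_fg]
    infer_instance
  have htf : Module.IsTorsionFree ℤ (Additive C) := by
    have : IsAddTorsionFree (Additive C) := by
      refine ⟨fun n hn x y hxy => ?_⟩
      have h1 : (Additive.toMul x) ^ n = (Additive.toMul y) ^ n := hxy
      have h2 : ((Additive.toMul x) * (Additive.toMul y)⁻¹) ^ n = 1 := by
        rw [mul_pow, inv_pow, h1, mul_inv_cancel]
      have h3 := hC _ n (Nat.pos_of_ne_zero hn) h2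
      rw [mul_inv_eq_one] at h3
      exact h3
    infer_instance
  have hfree : Module.Free ℤ (Additive C) := inferInstance
  let b := Module.Free.chooseBasis ℤ (Additive C)
  by_contra hcon
  push Not at hcon
  have h1 : ∀ i, (p : ℤ) ∣ b.repr (Additive.ofMul c) i := by
    intro i
    exact hcon (AddMonoidHom.toMultiplicativeRight (b.coord i).toAddMonoidHom)
  choose q hq using h1
  apply hc (Additive.toMul (∑ i, q i • b i))
  have h2 : p • (∑ i, q i • b i) = Additive.ofMul c := by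
    conv_rhs => rw [← b.sum_repr (Additive.ofMul c)]
    rw [Finset.smul_sum]
    refine Finset.sum_congr rfl fun i _ => ?_
    rw [hq i, ← natCast_zsmul, smul_smul]
  exact h2

theorem coprime_of_unique {Q : Type u} [Group Q] [Finite Q] {A : Type v} [CommGroup A] (hA : HasSchurMultiplier Q A)
    (h : ∀ (Γ₁ Γ₂ : Type u) [Group Γ₁] [Finite Γ₁] [Group Γ₂] [Finite Γ₂] (σ₁ : Γ₁ →* Q) (σ₂ : Γ₂ →* Q), IsStemExtension σ₁ → IsStemExtension σ₂ → Nonempty (σ₁.ker ≃* A) → Nonempty (σ₂.ker ≃* A) → ∃ e : Γ₁ ≃* Γ₂, σ₂.comp e.toMonoidHom = σ₁) :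
    Nat.Coprime (Nat.card (Abelianization Q)) (Nat.card A) := by
  by_contra hnc
  obtain ⟨p, hp, hpQ, hpA⟩ := Nat.Prime.not_coprime_iff_dvd.1 hnc
  have : Fact p.Prime := ⟨hp⟩
  obtain ⟨eA⟩ := has_iff.1 hA
  obtain ⟨C, hCn, hC, c1, c2⟩ := exists_cover (std Q) (std_surj Q)
  have hfin : Finite (FE (std Q) ⧸ C) := cov_finite (std Q) (std_surj Q) C hC c1 c2
  have hfi : C.FiniteIndex := Subgroup.finiteIndex_of_finite_quotient
  have hfg : Group.FG C := Subgroup.fg_of_index_ne_zero C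
  have hCc : C ≤ Subgroup.center (FE (std Q)) := hC.trans (pr_central _)
  have hMc := Mu_le_center (std Q)
  let _ : CommGroup C := { (inferInstance : Group C) with
    mul_comm := fun a b => Subtype.ext ((Subgroup.mem_center_iff.1 (hCc b.2) a)) }
  have htf : ∀ c : C, ∀ k : ℕ, 0 < k → c ^ k = 1 → c = 1 := by
    intro c k hk hck
    have h1 : (c : FE (std Q)) ^ k = 1 := congrArg Subtype.val hck
    have h2 : (c : FE (std Q)) ∈ Mu (std Q) := Mu_torsion (std Q) (hC c.2) hk (by rw [h1]; exact Subgroup.one_mem _)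
    have h3 : (c : FE (std Q)) ∈ C ⊓ Mu (std Q) := ⟨c.2, h2⟩
    rw [c1, Subgroup.mem_bot] at h3
    exact Subtype.ext h3
  -- an element of order `p` in the abelianization
  have hfab : Finite (Abelianization Q) := Finite.of_surjective (Abelianization.of : Q → _) QuotientGroup.mk_surjective
  obtain ⟨qb, hqb⟩ := exists_prime_orderOf_dvd_card' p hpQ
  obtain ⟨q, rfl⟩ : ∃ q : Q, Abelianization.of q = qb := QuotientGroup.mk_surjective qb
  obtain ⟨x, rfl⟩ := pr_surj (std Q) (std_surj Q) q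
  have hq1 : Abelianization.of (pr (std Q) x) ≠ 1 := by
    intro h1
    rw [h1, orderOf_one] at hqb
    exact hp.one_lt.ne hqb
  have hq2 : pr (std Q) (x ^ p) ∈ commutator Q := by
    apply (QuotientGroup.eq_one_iff _).1
    show Abelianization.of (pr (std Q) (x ^ p)) = 1
    rw [map_pow, map_pow, ← hqb, pow_orderOf_eq_one]
  have h4 : (commutator (FE (std Q))).map (pr (std Q)) = commutator Q := by
    rw [commutator_def, Subgroup.map_commutator, commutator_def, ← MonoidHom.range_eq_map,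
      MonoidHom.range_eq_top.2 (pr_surj (std Q) (std_surj Q))]
  rw [← h4] at hq2
  obtain ⟨y, hy, h5⟩ := hq2
  have h6 : x ^ p * y⁻¹ ∈ C ⊔ Mu (std Q) := by rw [c2, MonoidHom.mem_ker, map_mul, map_inv, h5, mul_inv_cancel]
  obtain ⟨c, hc, m, hm, h7⟩ := Subgroup.mem_sup_of_normal_left.1 h6
  have h8 : x ^ p = c * (m * y) := by rw [← mul_assoc, h7]; group
  have hmy : m * y ∈ commutator (FE (std Q)) := (commutator _).mul_mem hm.2 hy
  have hcp : ∀ d : C, d ^ p ≠ ⟨c, hc⟩ := by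
    intro d hd
    have hd' : (d : FE (std Q)) ^ p = c := congrArg Subtype.val hd
    have hdc := Subgroup.mem_center_iff.1 ((Subgroup.center _).inv_mem (hCc d.2)) x
    have h9 : (x * (d : FE (std Q))⁻¹) ^ p = m * y := by
      have hcm : Commute x (d : FE (std Q))⁻¹ := hdc
      rw [hcm.mul_pow, h8, inv_pow, hd', Subgroup.mem_center_iff.1 ((Subgroup.center _).inv_mem (hCc hc)) (c * (m * y)), inv_mul_cancel_left]
    have h10 : x * (d : FE (std Q))⁻¹ ∈ commutator (FE (std Q)) := by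
      obtain ⟨z, hz⟩ := QuotientGroup.mk_surjective (x * (d : FE (std Q))⁻¹)
      rw [← hz] at h9 ⊢
      rw [mem_commutator_FE]
      apply free_ab_torsion hp.pos
      rw [← mem_commutator_FE (std Q)]
      show (QuotientGroup.mk z : FE (std Q)) ^ p ∈ _
      rw [h9]; exact hmy
    apply hq1
    have h11 : pr (std Q) x = pr (std Q) (x * (d : FE (std Q))⁻¹) := by
      have : pr (std Q) (d : FE (std Q)) = 1 := hC d.2
      rw [map_mul, map_inv, this, inv_one, mul_one]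
    rw [h11]
    apply (QuotientGroup.eq_one_iff _).2
    rw [← h4]
    exact ⟨_, h10, rfl⟩
  obtain ⟨φ, hφ⟩ := exists_coord htf p ⟨c, hc⟩ hcp
  -- an element of the multiplier that is not a `p`-th power
  have hMcomm : ∀ u v : Mu (std Q), u * v = v * u := fun u v => Subtype.ext (Subgroup.mem_center_iff.1 (hMc v.2) u)
  obtain ⟨a, ha⟩ : ∃ a : Mu (std Q), ∀ b : Mu (std Q), b ^ p ≠ a := by
    by_contra hcon
    push Not at hcon
    have hsurj : Function.Surjective (fun b : Mu (std Q) => b ^ p) := hcon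
    have hinj := Finite.injective_iff_surjective.2 hsurj
    rw [Nat.card_congr eA.toEquiv] at hpA
    obtain ⟨g, hg⟩ := exists_prime_orderOf_dvd_card' p hpA
    have h12 : g = 1 := hinj (by show g ^ p = 1 ^ p; rw [one_pow, ← hg, pow_orderOf_eq_one])
    rw [h12, orderOf_one] at hg
    exact hp.one_lt.ne hg
  let f : C →* Mu (std Q) := (zpowersHom (Mu (std Q)) a).comp φ
  have hf : ∀ z, f z = a ^ Multiplicative.toAdd (φ z) := fun z => rfl
  let g : C →* FE (std Q) := MonoidHom.mk' (fun z => (z : FE (std Q)) * f z) (by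
    intro u v
    rw [map_mul, Subgroup.coe_mul, Subgroup.coe_mul]
    have := Subgroup.mem_center_iff.1 (hMc (f u).2) (v : FE (std Q))
    calc (u : FE (std Q)) * v * ((f u : FE (std Q)) * f v) = u * (v * f u) * f v := by group
      _ = u * (f u * v) * f v := by rw [this]
      _ = _ := by group)
  have hg : ∀ z : C, g z = (z : FE (std Q)) * f z := fun z => rfl
  have hDR : g.range ≤ (pr (std Q)).ker := by
    rintro _ ⟨z, rfl⟩
    rw [hg]
    exact Subgroup.mul_mem _ (hC z.2) (f z).2.1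
  have hDn : g.range.Normal := central_normal (hDR.trans (pr_central _))
  have d1 : g.range ⊓ Mu (std Q) = ⊥ := by
    rw [eq_bot_iff]
    rintro _ ⟨⟨z, rfl⟩, hz⟩
    rw [hg] at hz
    have h13 : (z : FE (std Q)) ∈ Mu (std Q) := by
      have := (Mu (std Q)).mul_mem hz ((Mu (std Q)).inv_mem (f z).2)
      rwa [mul_inv_cancel_right] at this
    have h14 : (z : FE (std Q)) ∈ C ⊓ Mu (std Q) := ⟨z.2, h13⟩
    rw [c1, Subgroup.mem_bot] at h14
    have h15 : z = 1 := Subtype.ext h14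
    rw [h15, map_one]; exact Subgroup.one_mem _
  have d2 : g.range ⊔ Mu (std Q) = (pr (std Q)).ker := by
    apply le_antisymm (sup_le hDR inf_le_left)
    intro r hr
    rw [← c2] at hr
    obtain ⟨z, hz, n, hn, rfl⟩ := Subgroup.mem_sup_of_normal_left.1 hr
    have e : z * n = g ⟨z, hz⟩ * ((f ⟨z, hz⟩ : FE (std Q))⁻¹ * n) := by rw [hg]; group
    rw [e]
    exact Subgroup.mul_mem_sup ⟨_, rfl⟩ ((Mu (std Q)).mul_mem ((Mu (std Q)).inv_mem (f ⟨z, hz⟩).2) hn)
  have hfinD : Finite (FE (std Q) ⧸ g.range) := cov_finite (std Q) (std_surj Q) g.range hDR d1 d2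
  obtain ⟨i1⟩ := cov_iso (std Q) C hC c1 c2
  obtain ⟨i2⟩ := cov_iso (std Q) g.range hDR d1 d2
  obtain ⟨e, he⟩ := h (FE (std Q) ⧸ C) (FE (std Q) ⧸ g.range) (cov (std Q) C hC) (cov (std Q) g.range hDR)
    (cov_stem (std Q) (std_surj Q) C hC c2) (cov_stem (std Q) (std_surj Q) g.range hDR d2) ⟨i1.symm.trans eA.symm⟩ ⟨i2.symm.trans eA.symm⟩
  have hker : ∀ z : FE (std Q), (QuotientGroup.mk z : FE (std Q) ⧸ g.range) * (e (QuotientGroup.mk z))⁻¹ ∈ (cov (std Q) g.range hDR).ker := by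
    intro z
    have h16 : cov (std Q) g.range hDR (e (QuotientGroup.mk z)) = cov (std Q) C hC (QuotientGroup.mk z) :=
      congrArg (fun k : FE (std Q) ⧸ C →* Q => k (QuotientGroup.mk z)) he
    rw [MonoidHom.mem_ker, map_mul, map_inv, h16, cov_mk, cov_mk, mul_inv_cancel]
  have hcen := (cov_stem (std Q) (std_surj Q) g.range hDR d2).2.1
  let χ : FE (std Q) →* FE (std Q) ⧸ g.range := MonoidHom.mk' (fun z => (QuotientGroup.mk z : FE (std Q) ⧸ g.range) * (e (QuotientGroup.mk z))⁻¹) (by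
    intro u v
    have h17 := Subgroup.mem_center_iff.1 (hcen (hker v)) (QuotientGroup.mk u)
    have e1 : (QuotientGroup.mk (u * v) : FE (std Q) ⧸ g.range) = QuotientGroup.mk u * QuotientGroup.mk v := rfl
    have e2 : (QuotientGroup.mk (u * v) : FE (std Q) ⧸ C) = QuotientGroup.mk u * QuotientGroup.mk v := rfl
    have h18 := Subgroup.mem_center_iff.1 (hcen (hker v)) (e (QuotientGroup.mk u))⁻¹
    rw [e1, e2, map_mul, mul_inv_rev]
    calc (QuotientGroup.mk u : FE (std Q) ⧸ g.range) * QuotientGroup.mk v * ((e (QuotientGroup.mk v))⁻¹ * (e (QuotientGroup.mk u))⁻¹)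
        = QuotientGroup.mk u * ((QuotientGroup.mk v * (e (QuotientGroup.mk v))⁻¹) * (e (QuotientGroup.mk u))⁻¹) := by group
      _ = QuotientGroup.mk u * ((e (QuotientGroup.mk u))⁻¹ * (QuotientGroup.mk v * (e (QuotientGroup.mk v))⁻¹)) := by rw [h18]
      _ = _ := by group)
  have hχ : ∀ z, χ z = (QuotientGroup.mk z : FE (std Q) ⧸ g.range) * (e (QuotientGroup.mk z))⁻¹ := fun z => rfl
  have hχc : χ c = (QuotientGroup.mk ((f ⟨c, hc⟩ : FE (std Q))⁻¹) : FE (std Q) ⧸ g.range) := by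
    have e1 : (QuotientGroup.mk c : FE (std Q) ⧸ C) = 1 := (QuotientGroup.eq_one_iff _).2 hc
    rw [hχ, e1, map_one, inv_one, mul_one, eq_comm, QuotientGroup.eq]
    refine ⟨⟨c, hc⟩, ?_⟩
    rw [hg, inv_inv]
    exact Subgroup.mem_center_iff.1 (hMc (f ⟨c, hc⟩).2) c
  have hχmy : χ (m * y) = 1 := by
    have : commutator (FE (std Q)) ≤ χ.ker := by
      rw [commutator_def, Subgroup.commutator_le]
      intro u _ v _
      rw [MonoidHom.mem_ker, map_commutatorElement, commutatorElement_eq_one_iff_mul_comm]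
      exact Subgroup.mem_center_iff.1 (hcen (hker v)) _
    exact this hmy
  have h19 : χ x ^ p = (QuotientGroup.mk ((f ⟨c, hc⟩ : FE (std Q))⁻¹) : FE (std Q) ⧸ g.range) := by
    rw [← map_pow, h8, map_mul, hχmy, mul_one, hχc]
  have h20 := hker x
  rw [cov_ker (std Q) g.range hDR d2] at h20
  obtain ⟨m1, hm1, h21⟩ := h20
  have h22 : (QuotientGroup.mk m1 : FE (std Q) ⧸ g.range) = χ x := h21
  rw [← h22] at h19
  have h23 : (QuotientGroup.mk (m1 ^ p) : FE (std Q) ⧸ g.range) = QuotientGroup.mk ((f ⟨c, hc⟩ : FE (std Q))⁻¹) := h19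
  rw [QuotientGroup.eq] at h23
  have h24 : (m1 ^ p)⁻¹ * ((f ⟨c, hc⟩ : FE (std Q))⁻¹) ∈ g.range ⊓ Mu (std Q) :=
    ⟨h23, (Mu _).mul_mem ((Mu _).inv_mem ((Mu _).pow_mem hm1 p)) ((Mu _).inv_mem (f ⟨c, hc⟩).2)⟩
  rw [d1, Subgroup.mem_bot, inv_mul_eq_one] at h24
  have h25 : (⟨m1, hm1⟩ : Mu (std Q)) ^ p = (a ^ Multiplicative.toAdd (φ ⟨c, hc⟩))⁻¹ := Subtype.ext h24
  -- Bezout
  have hcopz : IsCoprime (p : ℤ) (Multiplicative.toAdd (φ ⟨c, hc⟩)) := by
    rw [Int.isCoprime_iff_gcd_eq_one]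
    exact (Nat.Prime.coprime_iff_not_dvd hp).2 (fun hdv => hφ (Int.natCast_dvd.2 hdv))
  obtain ⟨u, v, huv⟩ := hcopz
  apply ha (a ^ u * (⟨m1, hm1⟩ : Mu (std Q)) ^ (-v))
  have hcm : Commute (a ^ u) ((⟨m1, hm1⟩ : Mu (std Q)) ^ (-v)) := hMcomm _ _
  rw [hcm.mul_pow, ← zpow_natCast, ← zpow_natCast, ← zpow_mul, ← zpow_mul, mul_comm (-v), zpow_mul _ (p : ℤ) (-v), zpow_natCast, h25,
    inv_zpow', neg_neg, ← zpow_mul, ← zpow_add]
  have : u * (p : ℤ) + Multiplicative.toAdd (φ ⟨c, hc⟩) * v = 1 := by linarith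
  rw [this, zpow_one]

end Cfsg.Agent.H9.SM
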